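import Cfsg.Agent.H57.VChar

/-!
# Three generalised characters of norm two and a fourth one of norm four
-/

set_option autoImplicit false

namespace Cfsg.Agent.H82.Ree

open scoped ComplexConjugate BigOperators
open Cfsg

variable {G : Type*} [Group G] [Fintype G]

/-- The inner product of two integer combinations of irreducible characters. -/
theorem inner_coef_coef (b c : IrrCharacter G → ℤ) :
    classInner (∑ χ : IrrCharacter G, b χ • (χ : G → ℂ)) (∑ χ : IrrCharacter G, c χ • (χ : G → ℂ)) =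
      ((∑ χ, b χ * c χ : ℤ) : ℂ) := by
  rw [H26.classInner_sum_right]
  simp only [H57.classInner_zsmul_right, H57.inner_coef]
  push_cast
  exact Finset.sum_congr rfl fun χ _ => mul_comm _ _

/-- A vector of norm two and weighted sum zero. -/
theorem norm_two {ι : Type*} [Fintype ι] [DecidableEq ι] (d : ι → ℕ) (hd : ∀ i, 0 < d i) (b : ι → ℤ)
    (h2 : ∑ i, b i ^ 2 = 2) (h0 : ∑ i, b i * d i = 0) :
    ∃ A B, A ≠ B ∧ d A = d B ∧ ∀ i, b i = (if i = A then 1 else 0) - (if i = B then 1 else 0) := by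
  classical
  set s := Finset.univ.filter (fun i => b i ≠ 0) with hs
  have hsum : ∑ i ∈ s, b i ^ 2 = 2 := by
    rw [hs, Finset.sum_filter_of_ne (p := fun i => b i ≠ 0) (fun x _ h hx => h (by simp [hx]))]; exact h2
  have hdeg : ∑ i ∈ s, b i * d i = 0 := by
    rw [hs, Finset.sum_filter_of_ne (p := fun i => b i ≠ 0) (fun x _ h hx => h (by simp [hx]))]; exact h0
  have hge : ∀ i ∈ s, 1 ≤ b i ^ 2 := fun i hi => by
    have := sq_nonneg (b i)
    have : b i ^ 2 ≠ 0 := pow_ne_zero _ (Finset.mem_filter.mp hi).2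
    omega
  have hle : (s.card : ℤ) ≤ 2 := by
    rw [← hsum]
    simpa using Finset.card_nsmul_le_sum s _ 1 hge
  rcases (show s.card = 0 ∨ s.card = 1 ∨ s.card = 2 by omega) with h | h | h
  · rw [Finset.card_eq_zero.mp h] at hsum; simp at hsum
  · obtain ⟨a, ha⟩ := Finset.card_eq_one.mp h
    rw [ha, Finset.sum_singleton] at hsum
    have hb1 : b a ≤ 1 := by nlinarith
    have hb2 : -1 ≤ b a := by nlinarith
    nlinarith
  obtain ⟨A, B, hAB, hsAB⟩ := Finset.card_eq_two.mp h
  rw [hsAB, Finset.sum_pair hAB] at hsum hdeg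
  have hA := hge A (by simp [hsAB])
  have hB := hge B (by simp [hsAB])
  have hz : ∀ i, i ≠ A → i ≠ B → b i = 0 := by
    intro i h1 h2
    by_contra h3
    have : i ∈ s := by simp [hs, h3]
    rw [hsAB] at this
    simp [h1, h2] at this
  have hdA := hd A
  have hdB := hd B
  rcases sq_eq_one_iff.mp (show b A ^ 2 = 1 by omega) with hbA | hbA <;>
    rcases sq_eq_one_iff.mp (show b B ^ 2 = 1 by omega) with hbB | hbB <;> rw [hbA, hbB] at hdeg
  · omega
  · refine ⟨A, B, hAB, by omega, fun i => ?_⟩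
    by_cases h1 : i = A
    · subst h1; simp [hbA, hAB]
    by_cases h2 : i = B
    · subst h2; simp [hbB, h1]
    simp [hz i h1 h2, h1, h2]
  · refine ⟨B, A, hAB.symm, by omega, fun i => ?_⟩
    by_cases h1 : i = A
    · subst h1; simp [hbA, hAB]
    by_cases h2 : i = B
    · subst h2; simp [hbB, h1]
    simp [hz i h1 h2, h1, h2]
  · omega

/-- The configuration of three norm two vectors and one of norm four. -/
theorem coherent_vectors {ι : Type*} [Fintype ι] [DecidableEq ι] (d : ι → ℕ) (hd : ∀ i, 0 < d i)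
    (b : Fin 3 → ι → ℤ) (c : ι → ℤ)
    (hb : ∀ k m, ∑ i, b k i * b m i = if k = m then 2 else -1) (hb0 : ∀ k, ∑ i, b k i * d i = 0)
    (hc : ∑ i, c i * c i = 4) (hc0 : ∑ i, c i * d i = 0)
    (hcb : ∀ k, ∑ i, c i * b k i = ![-2, 0, 2] k) :
    ∃ (X : Fin 3 → ι) (Y : ι) (ε : ℤ), (ε = 1 ∨ ε = -1) ∧ Function.Injective X ∧
      (∀ k, d (X k) = d (X 0)) ∧ d Y = d (X 0) ∧
      (∀ (k : Fin 3) (i : ι), b k i = ε * ((if i = X k then 1 else 0) - (if i = X (k + 1) then 1 else 0))) ∧
      ∀ i, c i = ε * ((if i = X 1 then 1 else 0) + (if i = X 2 then 1 else 0) - (if i = X 0 then 1 else 0) -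
        (if i = Y then 1 else 0)) := by
  classical
  have hsq : ∀ k, ∑ i, b k i ^ 2 = 2 := fun k => by simpa [sq] using hb k k
  have hzero : ∀ i, b 0 i + b 1 i + b 2 i = 0 := by
    have h : ∑ i, (b 0 i + b 1 i + b 2 i) ^ 2 = 0 := by
      have e : ∀ i, (b 0 i + b 1 i + b 2 i) ^ 2 = b 0 i * b 0 i + b 1 i * b 1 i + b 2 i * b 2 i +
          2 * (b 0 i * b 1 i) + 2 * (b 0 i * b 2 i) + 2 * (b 1 i * b 2 i) := fun i => by ring
      simp only [e, Finset.sum_add_distrib, ← Finset.mul_sum, hb]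
      decide
    intro i
    exact pow_eq_zero_iff (two_ne_zero) |>.1
      ((Finset.sum_eq_zero_iff_of_nonneg (fun i _ => sq_nonneg _)).1 h i (Finset.mem_univ i))
  obtain ⟨A, B, hAB, hdAB, hA⟩ := norm_two d hd (b 0) (hsq 0) (hb0 0)
  obtain ⟨C, D, hCD, hdCD, hC⟩ := norm_two d hd (b 1) (hsq 1) (hb0 1)
  have h01 := hb 0 1
  simp only [hA, hC, sub_mul, ite_mul, one_mul, zero_mul, Finset.sum_sub_distrib,
    Finset.sum_ite_eq', Finset.mem_univ, if_true] at h01
  obtain ⟨X, ε, hε, hXi, hXd, hXb⟩ : ∃ (X : Fin 3 → ι) (ε : ℤ), (ε = 1 ∨ ε = -1) ∧ Function.Injective X ∧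
      (∀ k, d (X k) = d (X 0)) ∧
      ∀ (k : Fin 3) (i : ι), b k i = ε * ((if i = X k then 1 else 0) - (if i = X (k + 1) then 1 else 0)) := by
    by_cases hBC : B = C
    · subst hBC
      have hAD : A ≠ D := by
        intro h; subst h
        simp [hAB, hAB.symm] at h01
      refine ⟨![A, B, D], 1, Or.inl rfl, ?_, ?_, ?_⟩
      · intro k l h
        fin_cases k <;> fin_cases l <;> simp_all [Ne.symm]
      · intro k; fin_cases k
        exacts [rfl, hdAB.symm, (hdCD.symm.trans hdAB.symm)]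
      · intro k i
        have := hzero i
        fin_cases k
        · show b 0 i = 1 * ((if i = A then 1 else 0) - (if i = B then 1 else 0))
          rw [hA]; ring
        · show b 1 i = 1 * ((if i = B then 1 else 0) - (if i = D then 1 else 0))
          rw [hC]; ring
        · simp only [one_mul]
          show b 2 i = (if i = D then 1 else 0) - (if i = A then 1 else 0)
          rw [hA, hC] at this
          omega
    · have hAD : D = A := by
        by_contra h
        simp [h, Ne.symm h, hBC, Ne.symm hBC] at h01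
        split_ifs at h01 <;> omega
      subst hAD
      refine ⟨![B, D, C], -1, Or.inr rfl, ?_, ?_, ?_⟩
      · intro k l h
        fin_cases k <;> fin_cases l <;> simp_all [Ne.symm]
      · intro k; fin_cases k
        exacts [rfl, hdAB, hdCD.trans hdAB]
      · intro k i
        have := hzero i
        fin_cases k
        · show b 0 i = -1 * ((if i = B then 1 else 0) - (if i = D then 1 else 0))
          rw [hA]; ring
        · show b 1 i = -1 * ((if i = D then 1 else 0) - (if i = C then 1 else 0))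
          rw [hC]; ring
        · show b 2 i = -1 * ((if i = C then 1 else 0) - (if i = B then 1 else 0))
          rw [hA, hC] at this
          omega
  have hXne : ∀ k l, k ≠ l → X k ≠ X l := fun k l h e => h (hXi e)
  -- the coefficients of `c` at the three indices
  have hval : ∀ k, ε * (c (X k) - c (X (k + 1))) = ![-2, 0, 2] k := by
    intro k
    rw [← hcb k]
    simp only [hXb, mul_sub, mul_ite, mul_one, mul_zero, Finset.sum_sub_distrib, Finset.sum_ite_eq',
      Finset.mem_univ, if_true]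
    ring
  have e0 : ε * (c (X 0) - c (X 1)) = -2 := hval 0
  have e1 : ε * (c (X 1) - c (X 2)) = 0 := hval 1
  set R : Finset ι := ((Finset.univ.erase (X 0)).erase (X 1)).erase (X 2) with hR
  have split : ∀ F : ι → ℤ, ∑ i, F i = F (X 0) + F (X 1) + F (X 2) + ∑ i ∈ R, F i := by
    intro F
    rw [← Finset.add_sum_erase _ F (Finset.mem_univ (X 0)),
      ← Finset.add_sum_erase _ F (Finset.mem_erase.2 ⟨hXne 1 0 (by decide), Finset.mem_univ (X 1)⟩),
      ← Finset.add_sum_erase _ F (Finset.mem_erase.2 ⟨hXne 2 1 (by decide),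
        Finset.mem_erase.2 ⟨hXne 2 0 (by decide), Finset.mem_univ (X 2)⟩⟩), add_assoc, add_assoc]
  rw [split] at hc hc0
  have hR0 : 0 ≤ ∑ i ∈ R, c i * c i := Finset.sum_nonneg fun i _ => mul_self_nonneg _
  set a := ε * c (X 0) with ha
  have h1 : c (X 1) = ε * (a + 2) := by rcases hε with rfl | rfl <;> omega
  have h2 : c (X 2) = ε * (a + 2) := by rcases hε with rfl | rfl <;> omega
  have h0 : c (X 0) = ε * a := by rcases hε with rfl | rfl <;> omega
  have hee : ε * ε = 1 := by rcases hε with rfl | rfl <;> rfl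
  have hrest : a * a + 2 * ((a + 2) * (a + 2)) + ∑ i ∈ R, c i * c i = 4 := by
    rw [h0, h1, h2] at hc
    linear_combination hc - (a * a + 2 * ((a + 2) * (a + 2))) * hee
  rw [hXd 1, hXd 2, h0, h1, h2] at hc0
  have hd0 := hd (X 0)
  have hrange : a = -2 ∨ a = -1 := by
    have : -2 ≤ a := by nlinarith
    have : a ≤ -1 := by nlinarith
    omega
  rcases hrange with ha2 | ha1
  · exfalso
    rw [ha2] at hrest hc0
    have hz : ∀ i ∈ R, c i * c i = 0 :=
      (Finset.sum_eq_zero_iff_of_nonneg (fun i _ => mul_self_nonneg _)).1 (by omega)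
    rw [Finset.sum_eq_zero (s := R) (fun i hi => by simp [mul_self_eq_zero.1 (hz i hi)])] at hc0
    rcases hε with rfl | rfl <;> omega
  rw [ha1] at hrest hc0 h0 h1 h2
  have hsum1 : ∑ i ∈ R, c i * c i = 1 := by omega
  obtain ⟨Y, hY, hYne⟩ := Finset.exists_ne_zero_of_sum_ne_zero (by rw [hsum1]; exact one_ne_zero)
  have hYsq : c Y * c Y = 1 := by
    have h' := Finset.single_le_sum (f := fun i => c i * c i) (fun i _ => mul_self_nonneg _) hY
    have := mul_self_nonneg (c Y)
    simp only [hsum1] at h'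
    omega
  have hzR : ∀ i ∈ R, i ≠ Y → c i = 0 := by
    intro i hi hne
    rw [← Finset.add_sum_erase _ _ hY, hYsq] at hsum1
    exact mul_self_eq_zero.1 ((Finset.sum_eq_zero_iff_of_nonneg (fun i _ => mul_self_nonneg _)).1
      (by omega : ∑ x ∈ R.erase Y, c x * c x = 0) i (Finset.mem_erase.2 ⟨hne, hi⟩))
  rw [Finset.sum_eq_single Y (fun i hi hne => by simp [hzR i hi hne]) (fun h => absurd hY h)] at hc0
  have hdY := hd Y
  have hY' : c Y = -ε ∧ d Y = d (X 0) := by
    rcases hε with rfl | rfl <;> rcases mul_self_eq_one_iff.1 hYsq with h | h <;> rw [h] at hc0 ⊢ <;> omega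
  refine ⟨X, Y, ε, hε, hXi, hXd, hY'.2, hXb, fun i => ?_⟩
  have hYX : ∀ k, Y ≠ X k := by
    intro k h
    rw [hR] at hY
    simp only [Finset.mem_erase, Finset.mem_univ, and_true] at hY
    fin_cases k
    exacts [hY.2.2 h, hY.2.1 h, hY.1 h]
  have hX10 := hXne 1 0 (by decide)
  have hX20 := hXne 2 0 (by decide)
  have hX21 := hXne 2 1 (by decide)
  by_cases g0 : i = X 0
  · subst g0; simp [h0, hX10.symm, hX20.symm, (hYX 0).symm]
  by_cases g1 : i = X 1
  · subst g1; simp [h1, hX10, hX21.symm, (hYX 1).symm]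
  by_cases g2 : i = X 2
  · subst g2; simp [h2, hX20, hX21, (hYX 2).symm]
  by_cases gY : i = Y
  · subst gY; simp [hY'.1, g0, g1, g2]
  simp [g0, g1, g2, gY, hzR i (by simp [hR, g0, g1, g2]) gY]

/-- Coherence for the generalised characters themselves. -/
theorem exists_coherent (β : Fin 3 → G → ℂ) (θ : G → ℂ) (hβ : ∀ k, IsGeneralizedCharacter G (β k))
    (hθ : IsGeneralizedCharacter G θ) (hβ0 : ∀ k, β k 1 = 0) (hθ0 : θ 1 = 0)
    (hbb : ∀ k m, classInner (β k) (β m) = if k = m then 2 else -1)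
    (hθθ : classInner θ θ = 4) (hθb : ∀ k, classInner θ (β k) = ((![-2, 0, 2] : Fin 3 → ℤ) k : ℂ)) :
    ∃ (X : Fin 3 → IrrCharacter G) (Y : IrrCharacter G) (ε : ℤ), (ε = 1 ∨ ε = -1) ∧ Function.Injective X ∧
      (∀ k, (X k).1 1 = (X 0).1 1) ∧ Y.1 1 = (X 0).1 1 ∧
      (∀ k g, β k g = ε * ((X k).1 g - (X (k + 1)).1 g)) ∧
      (∀ g, θ g = ε * ((X 1).1 g + (X 2).1 g - (X 0).1 g - Y.1 g)) ∧
      ∀ φ : IrrCharacter G → ℂ, ∑ χ, φ χ * conj (classInner θ (χ : G → ℂ)) =
        ε * (φ (X 1) + φ (X 2) - φ (X 0) - φ Y) := by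
  classical
  choose b hb using fun k => H57.gen_exists_coef (hβ k)
  obtain ⟨c, hc⟩ := H57.gen_exists_coef hθ
  choose d hd hd' using fun χ : IrrCharacter G => H57.irr_degree χ.2
  have hev : ∀ (e : IrrCharacter G → ℤ) (g : G),
      (∑ χ : IrrCharacter G, e χ • (χ : G → ℂ)) g = ∑ χ : IrrCharacter G, (e χ : ℂ) * χ.1 g := fun e g => by
    simp [Finset.sum_apply]
  have hdeg : ∀ e : IrrCharacter G → ℤ, (∑ χ : IrrCharacter G, e χ • (χ : G → ℂ)) 1 = 0 →
      ∑ χ, e χ * d χ = 0 := by
    intro e he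
    rw [hev] at he
    simp only [hd'] at he
    exact_mod_cast he
  obtain ⟨X, Y, ε, hε, hXi, hXd, hYd, hXb, hXc⟩ := coherent_vectors d hd b c
    (fun k m => by
      have h := hbb k m
      rw [hb k, hb m, inner_coef_coef] at h
      split_ifs at h ⊢ <;> exact_mod_cast h)
    (fun k => hdeg _ (hb k ▸ hβ0 k))
    (by have h := hθθ; rw [hc, inner_coef_coef] at h; exact_mod_cast h)
    (hdeg _ (hc ▸ hθ0))
    (fun k => by have h := hθb k; rw [hc, hb k, inner_coef_coef] at h; exact_mod_cast h)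
  refine ⟨X, Y, ε, hε, hXi, fun k => by rw [hd', hd', hXd k], by rw [hd', hd', hYd], fun k g => ?_,
    fun g => ?_, fun φ => ?_⟩
  · rw [hb k, hev]
    simp only [hXb, Int.cast_mul, Int.cast_sub, Int.cast_ite, Int.cast_one, Int.cast_zero, mul_sub, sub_mul,
      mul_ite, ite_mul, mul_one, mul_zero, zero_mul, Finset.sum_sub_distrib, Finset.sum_ite_eq',
      Finset.mem_univ, if_true]
  · rw [hc, hev]
    simp only [hXc, Int.cast_mul, Int.cast_sub, Int.cast_add, Int.cast_ite, Int.cast_one, Int.cast_zero,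
      mul_sub, mul_add, sub_mul, add_mul, mul_ite, ite_mul, mul_one, mul_zero, zero_mul,
      Finset.sum_sub_distrib, Finset.sum_add_distrib, Finset.sum_ite_eq', Finset.mem_univ, if_true]
  · simp only [hc, H57.inner_coef, map_intCast]
    simp only [hXc, Int.cast_mul, Int.cast_sub, Int.cast_add, Int.cast_ite, Int.cast_one, Int.cast_zero,
      mul_sub, mul_add, mul_ite, mul_one, mul_zero,
      Finset.sum_sub_distrib, Finset.sum_add_distrib, Finset.sum_ite_eq', Finset.mem_univ, if_true]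
    ring

end Cfsg.Agent.H82.Ree
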