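import Cfsg.Agent.H82.Ree.Count
import Cfsg.Agent.H82.Ree.Coherent
import Cfsg.Agent.H38.ClassCoeff
import Cfsg.Agent.H44.ClassTools
import Cfsg.Agent.H25.CharValues
import Cfsg.Agent.H68.RankOne

/-!
# A group of Ree type involves `S₃`
-/

set_option autoImplicit false

namespace Cfsg.Agent.H82.Ree

open scoped ComplexConjugate BigOperators
open Cfsg

/-- A faithful linear function on a finite cyclic subgroup. -/
theorem exists_faithful_lin {G : Type*} [Group G] [Finite G] (S : Subgroup G) (hS : IsCyclic S) :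
    ∃ f : G → ℂ, IsLin S f ∧ ∀ s ∈ S, f s = 1 → s = 1 := by
  haveI := hS
  haveI : NeZero (Nat.card S) := ⟨Nat.card_pos.ne'⟩
  have hn : Nat.card S = Nat.card (rootsOfUnity (Nat.card S) ℂ) := (Complex.card_rootsOfUnity _).symm
  let e := mulEquivOfCyclicCardEq hn
  obtain ⟨f, hf, hval⟩ := exists_lin_of_hom S ((rootsOfUnity (Nat.card S) ℂ).subtype.comp e.toMonoidHom)
  refine ⟨f, hf, fun s hs h => ?_⟩
  have h1 := hval ⟨s, hs⟩
  rw [h] at h1
  have h2 : e ⟨s, hs⟩ = 1 := Subtype.ext (Units.ext h1.symm)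
  exact congrArg Subtype.val ((map_eq_one_iff e e.injective).1 h2)

/-- A nontrivial linear function on a nontrivial finite abelian subgroup. -/
theorem exists_nontrivial_lin {G : Type*} [Group G] [Finite G] (S : Subgroup G)
    (hc : ∀ a ∈ S, ∀ b ∈ S, a * b = b * a) {a : G} (ha : a ∈ S) (ha1 : a ≠ 1) :
    ∃ f : G → ℂ, IsLin S f ∧ ∃ a ∈ S, f a ≠ 1 := by
  letI : CommGroup S := { (inferInstance : Group S) with mul_comm := fun x y => Subtype.ext (hc _ x.2 _ y.2) }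
  obtain ⟨χ, hχ⟩ := CommGroup.exists_apply_ne_one_of_hasEnoughRootsOfUnity S ℂ
    (show (⟨a, ha⟩ : S) ≠ 1 from fun h => ha1 (congrArg Subtype.val h))
  obtain ⟨f, hf, hval⟩ := exists_lin_of_hom S χ
  exact ⟨f, hf, a, ha, fun h => hχ (Units.ext ((hval ⟨a, ha⟩).symm.trans h))⟩

/-- A character value at an element of square one is an integer. -/
theorem int_at_involution {G : Type*} [Group G] [Finite G] (χ : IrrCharacter G) {t : G} (ht : t * t = 1) :
    ∃ u : ℤ, χ.1 t = u := by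
  classical
  obtain ⟨n, ρ, _, e⟩ := χ.2
  obtain ⟨μ, hμ, hsum⟩ := H25.exists_char_eq_sum_roots ρ t
  have h2 : ∀ i, μ i * μ i = 1 := fun i => by
    obtain ⟨k, hk⟩ := orderOf_dvd_of_pow_eq_one (show t ^ 2 = 1 by rw [sq]; exact ht)
    rw [← sq, hk, pow_mul, hμ i, one_pow]
  refine ⟨∑ i, (if μ i = 1 then (1 : ℤ) else -1), ?_⟩
  rw [← e, hsum, Int.cast_sum]
  refine Finset.sum_congr rfl fun i _ => ?_
  rcases mul_self_eq_one_iff.mp (h2 i) with h | h
  · simp [h]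
  · rw [h]; norm_num

namespace Ctx

variable {G : Type*} [Group G] [Fintype G] {q o : ℕ} (c : Ctx G q o)
include c

theorem cy_mul (i : Fin 3) (a b : G) : c.cy i (a * b) = c.cy i a * c.cy i b := by
  simp only [cy]; group

theorem cy_inv (i : Fin 3) (a : G) : c.cy i a⁻¹ = (c.cy i a)⁻¹ := by
  simp only [cy]; group

theorem cy_ne (h3 : ¬ Cfsg.Involves (Equiv.Perm (Fin 3)) G) {i : Fin 3} (hi : i ≠ 0) :
    (∃ s ∈ c.T, c.cy i s ≠ s) ∧ (∃ s ∈ c.T, c.cy i s ≠ s⁻¹) := by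
  have shift : ∀ k, c.y * c.w * c.v k * (c.y * c.w)⁻¹ = c.v (k + 1) := by
    intro k
    rw [show c.y * c.w * c.v k * (c.y * c.w)⁻¹ = c.y * (c.w * c.v k * c.w⁻¹) * c.y⁻¹ by group, c.w_v,
      mul_inv_cancel_right, c.y_v]
  have shift4 : ∀ k, c.y ^ 2 * c.y ^ 2 * c.v k * (c.y ^ 2 * c.y ^ 2)⁻¹ = c.v (k + 1) := by
    intro k
    have h := c.y_pow_v 2
    rw [show c.y ^ 2 * c.y ^ 2 * c.v k * (c.y ^ 2 * c.y ^ 2)⁻¹ =
      c.y ^ 2 * (c.y ^ 2 * c.v k * (c.y ^ 2)⁻¹) * (c.y ^ 2)⁻¹ by group]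
    rw [show (c.y ^ 2) = c.y ^ ((2 : Fin 3) : ℕ) from rfl, h, h, add_assoc]
    rfl
  fin_cases i
  · exact absurd rfl hi
  · constructor
    · obtain ⟨s, hs, hne⟩ := c.exists_moved h3 c.y_v
      refine ⟨s, hs, fun h => hne ?_⟩
      change (c.y ^ 1)⁻¹ * s * c.y ^ 1 = s at h
      rw [pow_one] at h
      calc c.y * s = c.y * (c.y⁻¹ * s * c.y) := by rw [h]
        _ = s * c.y := by group
    · obtain ⟨s, hs, hne⟩ := c.exists_moved h3 shift
      refine ⟨s, hs, fun h => hne ?_⟩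
      change (c.y ^ 1)⁻¹ * s * c.y ^ 1 = s⁻¹ at h
      rw [pow_one] at h
      have hw : c.w * s = s⁻¹ * c.w := by
        calc c.w * s = c.w * s * c.w * c.w⁻¹ := by group
          _ = s⁻¹ * c.w := by rw [c.w_inv hs, inv_eq_of_mul_eq_one_right c.w_sq]
      calc c.y * c.w * s = c.y * (s⁻¹ * c.w) := by rw [mul_assoc, hw]
        _ = c.y * (c.y⁻¹ * s * c.y) * c.w := by rw [h, mul_assoc c.y]
        _ = s * (c.y * c.w) := by group
  · obtain ⟨s, hs, hne⟩ := c.exists_moved h3 shift4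
    have hmem : (c.y ^ 2)⁻¹ * s * c.y ^ 2 ∈ c.T := c.y_pow_T' 2 hs
    have key : ((c.y ^ 2)⁻¹ * ((c.y ^ 2)⁻¹ * s * c.y ^ 2) * c.y ^ 2) = s → False := fun h => hne (by
      calc c.y ^ 2 * c.y ^ 2 * s = c.y ^ 2 * c.y ^ 2 * ((c.y ^ 2)⁻¹ * ((c.y ^ 2)⁻¹ * s * c.y ^ 2) * c.y ^ 2) := by
            rw [h]
        _ = s * (c.y ^ 2 * c.y ^ 2) := by group)
    constructor
    · by_contra hcon
      push Not at hcon
      refine key ?_
      have h1 : (c.y ^ 2)⁻¹ * s * c.y ^ 2 = s := hcon s hs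
      rw [h1, h1]
    · by_contra hcon
      push Not at hcon
      refine key ?_
      have h1 : (c.y ^ 2)⁻¹ * s * c.y ^ 2 = s⁻¹ := hcon s hs
      have h2 : (c.y ^ 2)⁻¹ * s⁻¹ * c.y ^ 2 = s⁻¹⁻¹ := hcon s⁻¹ (inv_mem hs)
      rw [h1, h2, inv_inv]

/-- The symmetrised value `f (cy i s) + f (cy i s)⁻¹`. -/
noncomputable def L (f : G → ℂ) (i : Fin 3) (s : G) : ℂ := f (c.cy i s) + f (c.cy i s⁻¹)

variable [Fintype c.T]

theorem sum_L (h3 : ¬ Cfsg.Involves (Equiv.Perm (Fin 3)) G) {f : G → ℂ} (hf : IsLin c.T f)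
    (hfi : ∀ s ∈ c.T, f s = 1 → s = 1) (i : Fin 3) :
    ∑ s : c.T, c.L f i s = 0 ∧ ∑ s : c.T, c.L f i s * conj (f s) = if i = 0 then (o : ℂ) else 0 := by
  have hz : ∀ m : G → G, (∀ a ∈ c.T, m a ∈ c.T) → (∀ a ∈ c.T, ∀ b ∈ c.T, m (a * b) = m a * m b) →
      (∃ a ∈ c.T, m a ≠ 1) → ∑ s : c.T, f (m s) = 0 := fun m h1 h2 ⟨a, ha, h⟩ =>
    hf.sum_eq_zero m h1 h2 ⟨a, ha, fun e => h (hfi _ (h1 a ha) e)⟩
  obtain ⟨s0, hs0, hs01⟩ := c.T_ne
  have hcy1 : c.cy i s0 ≠ 1 := fun h => hs01 (by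
    simp only [cy] at h
    calc s0 = c.y ^ (i : ℕ) * ((c.y ^ (i : ℕ))⁻¹ * s0 * c.y ^ (i : ℕ)) * (c.y ^ (i : ℕ))⁻¹ := by group
      _ = 1 := by rw [h]; group)
  have mulmul : ∀ a ∈ c.T, ∀ b ∈ c.T, ∀ a' ∈ c.T, ∀ b' ∈ c.T, a * b * (a' * b') = a * a' * (b * b') := by
    intro a _ b hb a' ha' b' _
    exact (show Commute b a' from c.A_comm (c.T_le_A hb) (c.T_le_A ha')).mul_mul_mul_comm a b'
  refine ⟨?_, ?_⟩
  · simp only [L, Finset.sum_add_distrib]
    rw [hz (c.cy i) (fun a ha => c.cy_mem i ha) (fun a _ b _ => c.cy_mul i a b) ⟨s0, hs0, hcy1⟩,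
      hz (fun a => c.cy i a⁻¹) (fun a ha => c.cy_mem i (inv_mem ha))
        (fun a ha b hb => by
          show c.cy i (a * b)⁻¹ = c.cy i a⁻¹ * c.cy i b⁻¹
          rw [mul_inv_rev, c.A_comm (c.T_le_A (inv_mem hb)) (c.T_le_A (inv_mem ha)), c.cy_mul])
        ⟨s0⁻¹, inv_mem hs0, by rw [inv_inv]; exact hcy1⟩, add_zero]
  · have e : ∀ s : c.T, c.L f i s * conj (f s) =
        f (c.cy i (s : G) * (s : G)⁻¹) + f (c.cy i (s : G)⁻¹ * (s : G)⁻¹) := by
      intro s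
      rw [L, hf.conj_eq s.2, add_mul, hf.map_mul _ (c.cy_mem i s.2) _ (inv_mem s.2),
        hf.map_mul _ (c.cy_mem i (inv_mem s.2)) _ (inv_mem s.2)]
    simp only [e, Finset.sum_add_distrib]
    have hm : ∀ e' : G → G, (∀ a ∈ c.T, e' a ∈ c.T) → (∀ a ∈ c.T, ∀ b ∈ c.T, e' (a * b) = e' a * e' b) →
        ∀ a ∈ c.T, ∀ b ∈ c.T, e' (a * b) * (a * b)⁻¹ = e' a * a⁻¹ * (e' b * b⁻¹) := by
      intro e' h1 h2 a ha b hb
      rw [h2 a ha b hb, mul_inv_rev, c.A_comm (c.T_le_A (inv_mem hb)) (c.T_le_A (inv_mem ha))]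
      exact mulmul _ (h1 a ha) _ (h1 b hb) _ (inv_mem ha) _ (inv_mem hb)
    have hinv : ∀ a ∈ c.T, ∀ b ∈ c.T, c.cy i (a * b)⁻¹ = c.cy i a⁻¹ * c.cy i b⁻¹ := fun a ha b hb => by
      rw [mul_inv_rev, c.A_comm (c.T_le_A (inv_mem hb)) (c.T_le_A (inv_mem ha)), c.cy_mul]
    have h2 : ∑ s : c.T, f (c.cy i (s : G)⁻¹ * (s : G)⁻¹) = 0 := by
      refine hz (fun a => c.cy i a⁻¹ * a⁻¹) (fun a ha => mul_mem (c.cy_mem i (inv_mem ha)) (inv_mem ha))
        (hm _ (fun a ha => c.cy_mem i (inv_mem ha)) hinv) ?_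
      rcases eq_or_ne i 0 with rfl | hi
      · refine ⟨s0, hs0, fun h => hs01 (c.T_sq_eq_one hs0 ?_)⟩
        rw [c.cy_zero, ← mul_inv_rev, inv_eq_one] at h
        exact h
      · obtain ⟨s, hs, hne⟩ := (c.cy_ne h3 hi).2
        refine ⟨s, hs, fun h => hne ?_⟩
        rw [mul_inv_eq_one, c.cy_inv, inv_eq_iff_eq_inv] at h
        exact h
    rw [h2, add_zero]
    split_ifs with hi
    · subst hi
      simp [c.cy_zero, hf.map_one, Finset.card_univ, ← Nat.card_eq_fintype_card, c.T_card]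
    · obtain ⟨s, hs, hne⟩ := (c.cy_ne h3 hi).1
      exact hz (fun a => c.cy i a * a⁻¹) (fun a ha => mul_mem (c.cy_mem i ha) (inv_mem ha))
        (hm _ (fun a ha => c.cy_mem i ha) (fun a _ b _ => c.cy_mul i a b))
        ⟨s, hs, fun h => hne (mul_inv_eq_one.1 h)⟩

/-- The generalised character `θ`. -/
noncomputable def theta (ψ f : G → ℂ) : G → ℂ :=
  (2 : ℂ) • av q (cf c.t c.U (ψ + fun g => ψ g⁻¹)) - av o (cf c.t c.T f)

/-- The generalised character `β k`. -/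
noncomputable def beta (f : G → ℂ) (k : Fin 3) : G → ℂ :=
  av (2 * o) (cf (c.v k) c.T (f - fun _ => 1) - cf (c.v (k + 1)) c.T (f - fun _ => 1))

omit [Fintype c.T] in
theorem q_ne : (q : ℂ) ≠ 0 := Nat.cast_ne_zero.2 (by have := c.q_odd; omega)

omit [Fintype c.T] in
theorem o_ne : (o : ℂ) ≠ 0 := Nat.cast_ne_zero.2 (by have := c.o_seven; omega)

omit [Fintype c.T] in
theorem theta_gen {ψ f : G → ℂ} (hψ : IsLin c.U ψ) (hf : IsLin c.T f) :
    IsGeneralizedCharacter G (c.theta ψ f) := by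
  have hU : ∀ s ∈ c.U, c.t * s = s * c.t := fun s hs => c.tk (c.U_le hs)
  have hT : ∀ s ∈ c.T, c.t * s = s * c.t := fun s hs => c.tk (c.T_le hs)
  have h1 := gen_av_coset c.t c.U c.t_sq hU c.t_notMem_U hψ
  have h2 := gen_av_coset c.t c.U c.t_sq hU c.t_notMem_U hψ.inv
  have h3 := gen_av_coset c.t c.T c.t_sq hT (fun h => c.t_notMem (c.T_le h)) hf
  rw [c.U_card] at h1 h2
  rw [c.T_card] at h3
  have e : c.theta ψ f = (2 : ℤ) • (av q (cf c.t c.U ψ) + av q (cf c.t c.U (fun g => ψ g⁻¹))) -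
      av o (cf c.t c.T f) := by
    rw [theta, cf_add, av_add, ← Int.cast_smul_eq_zsmul ℂ]
    norm_num
  rw [e]
  exact H57.gen_sub (H57.gen_zsmul (H57.gen_add h1 h2) 2) h3

omit [Fintype c.T] in
theorem beta_gen {f : G → ℂ} (hf : IsLin c.T f) (k : Fin 3) : IsGeneralizedCharacter G (c.beta f k) := by
  have h : ∀ k, IsGeneralizedCharacter G (av (2 * o) (cf 1 c.T f + cf (c.v k) c.T f) -
      av (2 * o) (cf 1 c.T (fun _ => 1) + cf (c.v k) c.T (fun _ => 1))) := by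
    intro k
    have h1 := gen_av_ext (c.v k) c.T (c.v_sq k) (fun s hs => c.v_T k hs) (c.v_notMem_T k) hf
    have h2 := gen_av_ext (c.v k) c.T (c.v_sq k) (fun s hs => c.v_T k hs) (c.v_notMem_T k)
      (f := fun _ => 1) ⟨rfl, fun _ _ _ _ => (one_mul _).symm⟩
    rw [c.T_card] at h1 h2
    exact H57.gen_sub h1 h2
  have e : c.beta f k = (av (2 * o) (cf 1 c.T f + cf (c.v k) c.T f) -
      av (2 * o) (cf 1 c.T (fun _ => 1) + cf (c.v k) c.T (fun _ => 1))) -
      (av (2 * o) (cf 1 c.T f + cf (c.v (k + 1)) c.T f) -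
      av (2 * o) (cf 1 c.T (fun _ => 1) + cf (c.v (k + 1)) c.T (fun _ => 1))) := by
    rw [beta, cf_sub, cf_sub]
    simp only [av_sub, av_add]
    abel
  rw [e]
  exact H57.gen_sub (h k) (h (k + 1))

omit [Fintype c.T] in
theorem theta_one (ψ f : G → ℂ) : c.theta ψ f 1 = 0 := by
  have hU : ∑ x : G, cf c.t c.U (ψ + fun g => ψ g⁻¹) (x⁻¹ * 1 * x) = 0 :=
    sum_cf_eq_zero _ _ _ _ fun x h => c.t_notMem_U (by simpa using h)
  have hT : ∑ x : G, cf c.t c.T f (x⁻¹ * 1 * x) = 0 :=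
    sum_cf_eq_zero _ _ _ _ fun x h => c.t_notMem (c.T_le (by simpa using h))
  simp only [theta, av, Pi.sub_apply, Pi.smul_apply, smul_eq_mul, hU, hT, mul_zero, sub_zero]

omit [Fintype c.T] in
theorem beta_one (f : G → ℂ) (k : Fin 3) : c.beta f k 1 = 0 := by
  have hT : ∀ m g', ∑ x : G, cf (c.v m) c.T g' (x⁻¹ * 1 * x) = 0 := fun m g' =>
    sum_cf_eq_zero _ _ _ _ fun x h => c.v_notMem_T m (by simpa using h)
  simp only [beta, av, Pi.sub_apply, Finset.sum_sub_distrib, hT, sub_zero, mul_zero]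

omit [Fintype c.T] in
theorem beta_t {f : G → ℂ} (hf : IsLin c.T f) (k : Fin 3) : c.beta f k c.t = 0 := by
  have hT : ∀ m, ∑ x : G, cf (c.v m) c.T (f - fun _ => 1) (x⁻¹ * c.t * x) = 0 := by
    intro m
    classical
    refine Finset.sum_eq_zero fun x _ => ?_
    by_cases h : c.v m * (x⁻¹ * c.t * x) ∈ c.T
    · have h' : c.v m * (x⁻¹ * (c.v 0 * 1) * x) ∈ c.T := by rw [mul_one, c.v_zero]; exact h
      obtain ⟨-, -, e⟩ := c.split_v (one_mem _) h'
      rw [mul_one, c.v_zero, mul_one, inv_mul_cancel] at e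
      simp [cf, e, hf.map_one]
    · simp [cf, h]
  simp only [beta, av, Pi.sub_apply, Finset.sum_sub_distrib]
  rw [hT, hT, sub_zero, mul_zero]

omit [Fintype c.T] in
theorem theta_t {ψ f : G → ℂ} (hψ : IsLin c.U ψ) (hf : IsLin c.T f) :
    c.theta ψ f c.t = 4 * ((q : ℂ) - 1) := by
  simp only [theta, av, Pi.sub_apply, Pi.smul_apply, smul_eq_mul]
  rw [c.sum_at_t c.U (fun s hs => c.tk (c.U_le hs)) (fun s hs => c.U_sq_eq_one hs),
    c.sum_at_t c.T (fun s hs => c.tk (c.T_le hs)) (fun s hs => c.T_sq_eq_one hs), c.K_card]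
  simp only [Pi.add_apply, inv_one, hψ.map_one, hf.map_one]
  have hq1 : 1 ≤ q ^ 2 := Nat.one_le_pow _ _ (by have := c.q_odd; omega)
  rw [Nat.cast_mul, Nat.cast_sub hq1]
  have ho : (4 : ℂ) * o = q + 1 := by exact_mod_cast congrArg (fun n : ℕ => (n : ℂ)) c.ho
  have := c.q_ne
  have := c.o_ne
  push_cast
  field_simp
  linear_combination ((q : ℂ) ^ 2 - q) * ho

theorem theta_v {ψ f : G → ℂ} (l : Fin 3) {s : G} (hs : s ∈ c.T) (hs1 : s ≠ 1) :
    c.theta ψ f (c.v l * s) = -4 * c.L f l s := by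
  have hU : ∑ x : G, cf c.t c.U (ψ + fun g => ψ g⁻¹) (x⁻¹ * (c.v l * s) * x) = 0 := by
    refine sum_cf_eq_zero _ _ _ _ fun x h => hs1 ?_
    have e : x⁻¹ * (c.v l * s) * x = c.t * (c.t * (x⁻¹ * (c.v l * s) * x)) := by
      rw [← mul_assoc c.t c.t, c.t_sq, one_mul]
    obtain ⟨-, h2⟩ := c.split (3 * o) c.odd_three_o (c.v_sq l) c.t_sq (c.v_T l hs) (c.tk (c.U_le h))
      (c.T_pow_o hs) (c.U_pow_o h) e
    have h3 : (x⁻¹ * s * x) ^ 3 = 1 := by rw [h2]; exact c.U_pow _ h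
    have h5 := conj_pow (i := 3) (a := x⁻¹) (b := s)
    rw [inv_inv, h3] at h5
    have h6 : s ^ 3 = 1 := by
      calc s ^ 3 = x * (x⁻¹ * s ^ 3 * x) * x⁻¹ := by group
        _ = 1 := by rw [← h5]; group
    exact orderOf_eq_one_iff.1 (Nat.eq_one_of_dvd_coprimes (Nat.prime_three.coprime_iff_not_dvd.2 c.o_three)
      (orderOf_dvd_of_pow_eq_one h6) (orderOf_dvd_of_pow_eq_one (c.T_pow hs)))
  have hT := c.sum_torus l 0 hs hs1 f
  rw [sub_zero, c.v_zero] at hT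
  simp only [theta, av, Pi.sub_apply, Pi.smul_apply, smul_eq_mul, hU, hT, mul_zero, zero_sub, L]
  have := c.o_ne
  push_cast
  field_simp

theorem beta_v {f : G → ℂ} (k l : Fin 3) {s : G} (hs : s ∈ c.T) (hs1 : s ≠ 1) :
    c.beta f k (c.v l * s) = 2 * (c.L f (l - k) s - c.L f (l - (k + 1)) s) := by
  simp only [beta, av, Pi.sub_apply, Finset.sum_sub_distrib, c.sum_torus l _ hs hs1, L]
  have := c.o_ne
  push_cast
  field_simp
  ring

theorem inner_beta {φ : G → ℂ} (hφ : IsClassFunction G φ) {f : G → ℂ} (hf : IsLin c.T f) (k : Fin 3)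
    (A B : G → ℂ) (hA : ∀ s ∈ c.T, s ≠ 1 → φ (c.v k * s) = A s)
    (hB : ∀ s ∈ c.T, s ≠ 1 → φ (c.v (k + 1) * s) = B s) :
    classInner φ (c.beta f k) =
      (2 * o : ℂ)⁻¹ * ∑ s : c.T, (A s - B s) * (conj (f s) - 1) := by
  rw [beta, inner_av _ _ hφ]
  simp only [Pi.sub_apply, map_sub, mul_sub, Finset.sum_sub_distrib,
    sum_cf_mul _ (c.v_sq _), map_one, sub_mul]
  push_cast
  simp only [← mul_sub, ← Finset.sum_sub_distrib]
  congr 1
  refine Finset.sum_congr rfl fun s _ => ?_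
  rcases eq_or_ne (s : G) 1 with h | h
  · simp [h, hf.map_one]
  · rw [hA _ s.2 h, hB _ s.2 h]; ring

variable {ψ f : G → ℂ}

theorem inner_beta_beta (h3 : ¬ Cfsg.Involves (Equiv.Perm (Fin 3)) G) (hf : IsLin c.T f)
    (hfi : ∀ s ∈ c.T, f s = 1 → s = 1) (m k : Fin 3) :
    classInner (c.beta f m) (c.beta f k) = if m = k then 2 else -1 := by
  rw [c.inner_beta (φ := c.beta f m) (av_class _ _) hf k _ _ (fun s hs h => c.beta_v m k hs h)
    (fun s hs h => c.beta_v m (k + 1) hs h)]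
  simp only [mul_sub, sub_mul, mul_one, Finset.sum_sub_distrib, mul_assoc, ← Finset.mul_sum,
    (c.sum_L h3 hf hfi _).1, (c.sum_L h3 hf hfi _).2]
  have := c.o_ne
  fin_cases m <;> fin_cases k <;> simp (config := { decide := true }) <;> field_simp <;> norm_num

theorem inner_theta_beta (h3 : ¬ Cfsg.Involves (Equiv.Perm (Fin 3)) G) (hf : IsLin c.T f)
    (hfi : ∀ s ∈ c.T, f s = 1 → s = 1) (k : Fin 3) :
    classInner (c.theta ψ f) (c.beta f k) = ((![-2, 0, 2] : Fin 3 → ℤ) k : ℂ) := by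
  have hcl : IsClassFunction G (c.theta ψ f) := by
    intro g x
    simp only [theta, Pi.sub_apply, Pi.smul_apply, av_class _ _ g x]
  rw [c.inner_beta hcl hf k _ _ (fun s hs h => c.theta_v k hs h) (fun s hs h => c.theta_v (k + 1) hs h)]
  simp only [mul_sub, sub_mul, mul_one, Finset.sum_sub_distrib, mul_assoc, ← Finset.mul_sum,
    (c.sum_L h3 hf hfi _).1, (c.sum_L h3 hf hfi _).2]
  have := c.o_ne
  fin_cases k <;> simp (config := { decide := true }) <;> field_simp <;> norm_num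

theorem inner_theta {φ : G → ℂ} (hφ : IsClassFunction G φ) [Fintype c.U] :
    classInner φ (c.theta ψ f) =
      2 * (q : ℂ)⁻¹ * ∑ u : c.U, φ (c.t * u) * conj (ψ u + ψ (u : G)⁻¹) -
        (o : ℂ)⁻¹ * ∑ s : c.T, φ (c.t * s) * conj (f s) := by
  rw [theta, H26.classInner_sub_right, H26.classInner_smul_right, inner_av _ _ hφ, inner_av _ _ hφ]
  simp only [sum_cf_mul _ c.t_sq, Pi.add_apply, map_ofNat, mul_assoc]

omit [Fintype c.T] in
theorem sum_psi [Fintype c.U] (hψ : IsLin c.U ψ) (hne : ∃ a ∈ c.U, ψ a ≠ 1) :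
    ∑ u : c.U, conj (ψ u + ψ (u : G)⁻¹) = 0 := by
  have h : ∑ u : c.U, ψ u = 0 := by
    simpa using hψ.sum_eq_zero id (fun a ha => ha) (fun a _ b _ => rfl) hne
  have h' : ∑ u : c.U, ψ (u : G)⁻¹ = 0 := by
    rw [← h]
    exact Fintype.sum_equiv (Equiv.inv c.U) _ _ fun u => rfl
  rw [← map_sum, Finset.sum_add_distrib, h, h', add_zero, map_zero]

theorem inner_theta_theta (h3 : ¬ Cfsg.Involves (Equiv.Perm (Fin 3)) G) (hψ : IsLin c.U ψ)
    (hne : ∃ a ∈ c.U, ψ a ≠ 1) (hf : IsLin c.T f) (hfi : ∀ s ∈ c.T, f s = 1 → s = 1) :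
    classInner (c.theta ψ f) (c.theta ψ f) = 4 := by
  classical
  have hcl : IsClassFunction G (c.theta ψ f) := by
    intro g x
    simp only [theta, Pi.sub_apply, Pi.smul_apply, av_class _ _ g x]
  rw [c.inner_theta hcl]
  have hu : ∀ u : c.U, c.theta ψ f (c.t * u) = (if u = 1 then 4 * (q : ℂ) else 0) - 4 := by
    intro u
    split_ifs with h
    · subst h
      rw [OneMemClass.coe_one, mul_one, c.theta_t hψ hf]; ring
    · have hu1 : (u : G) ≠ 1 := fun e => h (Subtype.ext e)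
      have hT : ∑ x : G, cf c.t c.T f (x⁻¹ * (c.t * u) * x) = 0 := by
        refine sum_cf_eq_zero _ _ _ _ fun x hx => hu1 ?_
        have e : x⁻¹ * (c.t * u) * x = c.t * (c.t * (x⁻¹ * (c.t * u) * x)) := by
          rw [← mul_assoc c.t c.t, c.t_sq, one_mul]
        obtain ⟨-, h2⟩ := c.split (3 * o) c.odd_three_o c.t_sq c.t_sq (c.tk (c.U_le u.2)) (c.tk (c.T_le hx))
          (c.U_pow_o u.2) (c.T_pow_o hx) e
        have h3' : x⁻¹ * (u : G) * x = 1 := by
          rw [h2]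
          have h7 := c.T_pow hx
          have h8 : (c.t * (x⁻¹ * (c.t * u) * x)) ^ 3 = 1 := by
            have := conj_pow (i := 3) (a := x⁻¹) (b := (u : G))
            rwa [inv_inv, h2, c.U_pow _ u.2, mul_one, inv_mul_cancel] at this
          exact orderOf_eq_one_iff.1 (Nat.eq_one_of_dvd_coprimes
            (Nat.prime_three.coprime_iff_not_dvd.2 c.o_three)
            (orderOf_dvd_of_pow_eq_one h8) (orderOf_dvd_of_pow_eq_one h7))
        calc (u : G) = x * (x⁻¹ * (u : G) * x) * x⁻¹ := by group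
          _ = 1 := by rw [h3']; group
      simp only [theta, av, Pi.sub_apply, Pi.smul_apply, smul_eq_mul, hT, mul_zero, sub_zero,
        c.sum_at_tu hψ hne u.2 hu1]
      have := c.q_ne
      field_simp
      ring
  have hs : ∀ s : c.T, c.theta ψ f (c.t * s) =
      (if s = 1 then 4 * ((q : ℂ) + 1) else 0) + -4 * c.L f 0 s := by
    intro s
    split_ifs with h
    · subst h
      rw [OneMemClass.coe_one, mul_one, c.theta_t hψ hf]
      simp [L, c.cy_zero, hf.map_one]; ring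
    · rw [zero_add, ← c.theta_v 0 s.2 (fun e => h (Subtype.ext e))]
      rfl
  simp only [hu, hs, sub_mul, add_mul, ite_mul, zero_mul, Finset.sum_sub_distrib, Finset.sum_add_distrib,
    mul_assoc, ← Finset.mul_sum, Finset.sum_ite_eq', Finset.mem_univ, if_true, c.sum_psi hψ hne,
    (c.sum_L h3 hf hfi 0).2, OneMemClass.coe_one, inv_one, hψ.map_one, hf.map_one, map_add, map_one]
  have h0 : ∑ u : c.U, conj (ψ u) + ∑ u : c.U, conj (ψ (u : G)⁻¹) = 0 := by
    simpa [Finset.sum_add_distrib] using c.sum_psi hψ hne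
  rw [h0]
  have ho : (4 : ℂ) * o = q + 1 := by exact_mod_cast congrArg (fun n : ℕ => (n : ℂ)) c.ho
  have := c.q_ne
  have := c.o_ne
  field_simp
  linear_combination (q : ℂ) * ho

set_option maxHeartbeats 1000000 in
/-- A group with the local data of a group of Ree type involves `S₃`. -/
theorem involves_s3 : Cfsg.Involves (Equiv.Perm (Fin 3)) G := by
  classical
  by_contra h3
  obtain ⟨u0, hu0, hu01⟩ : ∃ u ∈ c.U, u ≠ 1 := by
    by_contra hcon
    push Not at hcon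
    have hcu := c.U_card
    rw [(Subgroup.eq_bot_iff_forall _).2 hcon, Subgroup.card_bot] at hcu
    have := c.q_odd
    omega
  obtain ⟨f, hf, hfi⟩ := exists_faithful_lin c.T c.T_cyc
  obtain ⟨ψ, hψ, hne⟩ := exists_nontrivial_lin c.U c.U_comm hu0 hu01
  obtain ⟨X, Y, ε, hε, hXi, hXd, hYd, hXb, hXθ, hsumφ⟩ := exists_coherent (c.beta f) (c.theta ψ f)
    (c.beta_gen hf) (c.theta_gen hψ hf) (c.beta_one f) (c.theta_one ψ f) (c.inner_beta_beta h3 hf hfi)
    (c.inner_theta_theta h3 hψ hne hf hfi) (c.inner_theta_beta h3 hf hfi)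
  obtain ⟨u, hu⟩ := int_at_involution (X 0) c.t_sq
  obtain ⟨d, hd, hd'⟩ := H57.irr_degree (X 0).2
  have hε0 : (ε : ℂ) ≠ 0 := by rcases hε with rfl | rfl <;> norm_num
  have hXu : ∀ k, (X k).1 c.t = u := by
    intro k
    have e : ∀ k, (X k).1 c.t = (X (k + 1)).1 c.t := fun k => by
      have h := hXb k c.t
      rw [c.beta_t hf, eq_comm, mul_eq_zero] at h
      exact sub_eq_zero.1 (h.resolve_left hε0)
    fin_cases k
    exacts [hu, (e 0).symm.trans hu, (e 1).symm.trans ((e 0).symm.trans hu)]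
  have hεε : (ε : ℂ) * ε = 1 := by rcases hε with rfl | rfl <;> norm_num
  have hY : Y.1 c.t = ((u - 4 * ε * ((q : ℤ) - 1) : ℤ) : ℂ) := by
    have h := hXθ c.t
    rw [c.theta_t hψ hf, hXu, hXu, hXu] at h
    push_cast
    linear_combination (ε : ℂ) * h + ((u : ℂ) - Y.1 c.t) * hεε
  set z : ℤ := u - 2 * ε * ((q : ℤ) - 1) with hz
  -- the number of pairs of involutions against `θ`
  set N : G → ℂ := fun g => (c.nPairs g : ℂ) with hN
  have hNc : IsClassFunction G N := fun g x => by simp only [hN, c.nPairs_conj]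
  have hN1 : classInner N (c.theta ψ f) = 8 * (q : ℂ) / (q + 1) := by
    rw [c.inner_theta hNc]
    have e1 : ∀ u : c.U, N (c.t * u) = if u = 1 then (q : ℂ) * (q - 1) else 0 := by
      intro u
      split_ifs with h
      · subst h
        simp only [hN, OneMemClass.coe_one, mul_one, c.nPairs_t]
        rw [Nat.cast_mul, Nat.cast_sub (by have := c.q_odd; omega), Nat.cast_one]
      · simp [hN, c.nPairs_tu u.2 (fun e => h (Subtype.ext e))]
    have e2 : ∀ s : c.T, N (c.t * s) = (if s = 1 then (q : ℂ) * (q - 1) - 4 * o else 0) + 4 * o := by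
      intro s
      split_ifs with h
      · subst h
        simp only [hN, OneMemClass.coe_one, mul_one, c.nPairs_t]
        rw [Nat.cast_mul, Nat.cast_sub (by have := c.q_odd; omega), Nat.cast_one]; ring
      · simp [hN, c.nPairs_ts s.2 (fun e => h (Subtype.ext e))]
    have hsf : ∑ s : c.T, conj (f s) = 0 := by
      obtain ⟨s0, hs0, hs01⟩ := c.T_ne
      rw [← map_sum, show ∑ s : c.T, f s = 0 by
        simpa using hf.sum_eq_zero id (fun a ha => ha) (fun a _ b _ => rfl)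
          ⟨s0, hs0, fun e => hs01 (hfi s0 hs0 e)⟩, map_zero]
    simp only [e1, e2, add_mul, ite_mul, zero_mul, Finset.sum_add_distrib, mul_assoc, ← Finset.mul_sum, hsf,
      Finset.sum_ite_eq', Finset.mem_univ, if_true, OneMemClass.coe_one, inv_one, hψ.map_one, hf.map_one,
      map_add, map_one]
    have ho : (4 : ℂ) * o = q + 1 := by exact_mod_cast congrArg (fun n : ℕ => (n : ℂ)) c.ho
    have := c.q_ne
    have := c.o_ne
    have hq1 : (q : ℂ) + 1 ≠ 0 := by exact_mod_cast (Nat.succ_ne_zero q)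
    field_simp
    linear_combination ((q : ℂ) ^ 2 - q) * ho
  set n : ℕ := Nat.card {x : G // IsConj c.t x} with hn
  have hnC : n * (q * (q ^ 2 - 1)) = Nat.card G := by
    have h := H44.card_isConj_mul_card_centralizer c.t
    rwa [c.card_cent_t, c.K_card] at h
  set a : IrrCharacter G → ℂ :=
    fun χ => (n : ℂ) * n / (Nat.card G : ℂ) * (χ.1 c.t * χ.1 c.t / χ.1 1) with ha
  have hNexp : N = ∑ χ : IrrCharacter G, a χ • (χ : G → ℂ) := by
    funext g
    show (c.nPairs g : ℂ) = _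
    rw [← Complex.conj_natCast (c.nPairs g), nPairs, H38.class_coeff c.t c.t g, Finset.sum_apply, ← hn]
    simp only [map_mul, map_div₀, map_sum, Complex.conj_natCast, Complex.conj_conj, Finset.mul_sum, ha,
      Pi.smul_apply, smul_eq_mul]
    refine Finset.sum_congr rfl fun χ _ => ?_
    obtain ⟨v, hv⟩ := int_at_involution χ c.t_sq
    obtain ⟨d', _, hd''⟩ := H57.irr_degree χ.2
    rw [hv, hd'', map_intCast, Complex.conj_natCast]
    ring
  have hN2 : classInner N (c.theta ψ f) =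
      (n : ℂ) * n / (Nat.card G : ℂ) * (8 * ((q : ℂ) - 1) * z / d) := by
    rw [hNexp, H26.classInner_sum_left]
    simp only [H26.classInner_smul_left]
    rw [show (∑ χ : IrrCharacter G, a χ * classInner (χ : G → ℂ) (c.theta ψ f)) =
      ∑ χ : IrrCharacter G, a χ * conj (classInner (c.theta ψ f) (χ : G → ℂ)) from
      Finset.sum_congr rfl fun χ _ => by rw [← H26.classInner_comm], hsumφ]
    simp only [ha, hXu, hY, hXd, hYd, hd', hz]
    push_cast
    rcases hε with rfl | rfl <;> push_cast <;> ring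
  have hq2 : 1 ≤ q ^ 2 := Nat.one_le_pow _ _ (by have := c.q_odd; omega)
  have hkey : (Nat.card G : ℤ) * z = (q : ℤ) ^ 3 * ((q : ℤ) ^ 2 - 1) * d := by
    have hC : (n : ℂ) * ((q : ℂ) * ((q : ℂ) ^ 2 - 1)) = (Nat.card G : ℂ) := by
      have := congrArg (fun m : ℕ => (m : ℂ)) hnC
      simp only [Nat.cast_mul, Nat.cast_sub hq2, Nat.cast_pow, Nat.cast_one] at this
      exact this
    have hG : (Nat.card G : ℂ) ≠ 0 := Nat.cast_ne_zero.2 Nat.card_pos.ne'
    have hd0 : (d : ℂ) ≠ 0 := Nat.cast_ne_zero.2 hd.ne'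
    have hn0 : (n : ℂ) ≠ 0 := fun e => hG (by rw [← hC, e, zero_mul])
    have hq0 := c.q_ne
    have hq1 : (q : ℂ) + 1 ≠ 0 := by exact_mod_cast (Nat.succ_ne_zero q)
    have hqm : (q : ℂ) - 1 ≠ 0 := fun e => hG (by
      rw [← hC, show (q : ℂ) ^ 2 - 1 = ((q : ℂ) - 1) * (q + 1) by ring, e, zero_mul, mul_zero, mul_zero])
    have h := hN1.symm.trans hN2
    field_simp at h
    have h' : ((Nat.card G : ℤ) : ℂ) * z = ((q : ℂ) ^ 3 * ((q : ℂ) ^ 2 - 1) * d) := by
      have e : (n : ℂ) ≠ 0 := hn0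
      apply mul_left_cancel₀ (mul_ne_zero (mul_ne_zero e e) (mul_ne_zero hqm hq1))
      push_cast
      rw [← hC] at h ⊢
      linear_combination (-(n : ℂ) * (q : ℂ) * ((q : ℂ) ^ 2 - 1)) * h
    exact_mod_cast h'
  -- the 3-part
  obtain ⟨e, he, hqe⟩ := c.hq
  obtain ⟨m, hm⟩ : q ∣ Nat.card G := c.U_card ▸ Subgroup.card_subgroup_dvd_card c.U
  have h3m : ¬ 3 ∣ m := fun ⟨r, hr⟩ => c.not_three_q_dvd h3 ⟨r, by rw [hm, hr]; ring⟩
  have hz0 : (m : ℤ) * z = (q : ℤ) ^ 2 * (((q : ℤ) ^ 2 - 1) * d) := by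
    rw [hm] at hkey
    push_cast at hkey
    have : (q : ℤ) ≠ 0 := by have := c.q_odd; omega
    exact mul_left_cancel₀ this (by linear_combination hkey)
  have hdvd : (q : ℤ) ^ 2 ∣ z := by
    have hcop : IsCoprime ((q : ℤ) ^ 2) (m : ℤ) := by
      refine IsCoprime.pow_left ?_
      rw [Int.isCoprime_iff_nat_coprime, Int.natAbs_natCast, Int.natAbs_natCast, hqe]
      exact Nat.Coprime.pow_left e (Nat.prime_three.coprime_iff_not_dvd.2 h3m)
    exact hcop.dvd_of_dvd_mul_left ⟨_, hz0⟩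
  have hqq : 27 ≤ (q : ℤ) := by
    have : (27 : ℕ) ≤ q := by rw [hqe]; exact le_trans (by norm_num) (Nat.pow_le_pow_right (by norm_num) he)
    exact_mod_cast this
  have hzne : z ≠ 0 := by
    intro h
    rw [h, mul_zero] at hz0
    have : (0 : ℤ) < (q : ℤ) ^ 2 * (((q : ℤ) ^ 2 - 1) * d) := by
      have : (0 : ℤ) < d := by exact_mod_cast hd
      have : (0 : ℤ) < (q : ℤ) ^ 2 - 1 := by nlinarith
      positivity
    omega
  have hzabs : (q : ℤ) ^ 2 ≤ |z| := Int.le_of_dvd (abs_pos.2 hzne) ((dvd_abs _ _).2 hdvd)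
  -- column orthogonality
  have hcol : 3 * u ^ 2 ≤ ((q * (q ^ 2 - 1) : ℕ) : ℤ) := by
    have h := H44.sum_norm_sq_eq_card_centralizer (G := G) c.t
    rw [c.card_cent_t, c.K_card] at h
    have hle : ∑ χ ∈ Finset.univ.image X, ‖χ.1 c.t‖ ^ 2 ≤ ∑ χ : IrrCharacter G, ‖χ.1 c.t‖ ^ 2 :=
      Finset.sum_le_sum_of_subset_of_nonneg (Finset.subset_univ _) (fun _ _ _ => by positivity)
    rw [h, Finset.sum_image (fun a _ b _ e => hXi e)] at hle
    simp only [hXu, Complex.norm_intCast, sq_abs, Finset.sum_const, Finset.card_univ, Fintype.card_fin,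
      nsmul_eq_mul] at hle
    exact_mod_cast hle
  rw [Nat.cast_mul, Nat.cast_sub hq2] at hcol
  push_cast at hcol
  have hu' : (q : ℤ) ^ 2 - 2 * q ≤ |u| := by
    have : |z| ≤ |u| + |2 * ε * ((q : ℤ) - 1)| := abs_sub _ _
    have : |2 * ε * ((q : ℤ) - 1)| ≤ 2 * q := by
      rw [abs_mul, abs_mul, abs_of_nonneg (show (0 : ℤ) ≤ (q : ℤ) - 1 by omega)]
      rcases hε with rfl | rfl <;> norm_num <;> omega
    omega
  nlinarith [sq_abs u, mul_le_mul hu' hu' (by nlinarith : (0 : ℤ) ≤ (q : ℤ) ^ 2 - 2 * q) (abs_nonneg u)]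

end Ctx

/-- A group of Ree type involves `S₃`. -/
theorem involves_s3_of_isReeType {G : Type*} [Group G] [Finite G] (hG : Cfsg.IsReeType G) :
    Cfsg.Involves (Equiv.Perm (Fin 3)) G := by
  haveI := Fintype.ofFinite G
  obtain ⟨q, o, ⟨c⟩⟩ := exists_ctx hG
  classical
  haveI := Fintype.ofFinite c.T
  exact c.involves_s3

end Cfsg.Agent.H82.Ree
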