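import Cfsg.Agent.H25.IndRep
import Cfsg.Agent.H25.CharInd
import Cfsg.Agent.H57.VChar

/-!
# Functions averaged over a group from the coset `v S` of a subgroup
-/

set_option autoImplicit false

namespace Cfsg.Agent.H82.Ree

open scoped ComplexConjugate BigOperators
open Cfsg

variable {G : Type*} [Group G]

/-- `f` is multiplicative on `S` with value one at the identity. -/
structure IsLin (S : Subgroup G) (f : G → ℂ) : Prop where
  map_one : f 1 = 1
  map_mul : ∀ a ∈ S, ∀ b ∈ S, f (a * b) = f a * f b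

open Classical in
/-- The function `f` moved to the coset `v⁻¹ S`, zero elsewhere. -/
noncomputable def cf (v : G) (S : Subgroup G) (f : G → ℂ) : G → ℂ :=
  fun g => if v * g ∈ S then f (v * g) else 0

theorem cf_sub (v : G) (S : Subgroup G) (f f' : G → ℂ) :
    cf v S (f - f') = cf v S f - cf v S f' := by
  classical
  funext g
  by_cases h : v * g ∈ S <;> simp [cf, h]

theorem cf_add (v : G) (S : Subgroup G) (f f' : G → ℂ) :
    cf v S (f + f') = cf v S f + cf v S f' := by
  classical
  funext g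
  by_cases h : v * g ∈ S <;> simp [cf, h]

theorem cf_smul (v : G) (S : Subgroup G) (a : ℂ) (f : G → ℂ) :
    cf v S (a • f) = a • cf v S f := by
  classical
  funext g
  by_cases h : v * g ∈ S <;> simp [cf, h]

variable [Fintype G]

/-- The average of `F` over the conjugates, scaled by `n`. -/
noncomputable def av (n : ℕ) (F : G → ℂ) : G → ℂ :=
  fun g => (n : ℂ)⁻¹ * ∑ x : G, F (x⁻¹ * g * x)

theorem av_sub (n : ℕ) (F F' : G → ℂ) : av n (F - F') = av n F - av n F' := by
  funext g
  simp [av, Finset.sum_sub_distrib, mul_sub]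

theorem av_add (n : ℕ) (F F' : G → ℂ) : av n (F + F') = av n F + av n F' := by
  funext g
  simp [av, Finset.sum_add_distrib, mul_add]

theorem av_smul (n : ℕ) (a : ℂ) (F : G → ℂ) : av n (a • F) = a • av n F := by
  funext g
  simp [av, ← Finset.mul_sum, mul_left_comm]

theorem av_class (n : ℕ) (F : G → ℂ) : IsClassFunction G (av n F) := by
  intro g y
  simp only [av]
  congr 1
  refine Fintype.sum_equiv (Equiv.mulLeft y⁻¹) _ _ fun x => ?_
  simp [mul_assoc]

/-- Reciprocity. -/
theorem inner_av (n : ℕ) (F : G → ℂ) {φ : G → ℂ} (hφ : IsClassFunction G φ) :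
    classInner φ (av n F) = (n : ℂ)⁻¹ * ∑ g : G, φ g * conj (F g) := by
  have hx : ∀ x : G, ∑ g : G, φ g * conj (F (x⁻¹ * g * x)) = ∑ g : G, φ g * conj (F g) := by
    intro x
    refine Fintype.sum_equiv (MulAut.conj x⁻¹).toEquiv _ _ fun g => ?_
    have h1 : (MulAut.conj x⁻¹).toEquiv g = x⁻¹ * g * x := by simp
    rw [h1]
    congr 1
    have := hφ g x⁻¹
    rw [inv_inv] at this
    exact this.symm
  have hG : (Nat.card G : ℂ) ≠ 0 := Nat.cast_ne_zero.2 Nat.card_pos.ne'
  simp only [classInner, av, map_mul, map_inv₀, Complex.conj_natCast, map_sum]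
  calc (Nat.card G : ℂ)⁻¹ * ∑ g : G, φ g * ((n : ℂ)⁻¹ * ∑ x : G, conj (F (x⁻¹ * g * x)))
      = (Nat.card G : ℂ)⁻¹ * ((n : ℂ)⁻¹ * ∑ x : G, ∑ g : G, φ g * conj (F (x⁻¹ * g * x))) := by
        rw [Finset.sum_comm]
        simp only [Finset.mul_sum, mul_left_comm]
    _ = _ := by
        rw [Finset.sum_congr rfl fun x _ => hx x, Finset.sum_const, Finset.card_univ, nsmul_eq_mul,
          ← Nat.card_eq_fintype_card]
        field_simp

/-- A sum against a function on the coset of an involution. -/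
theorem sum_cf_mul (v : G) (hv : v * v = 1) (S : Subgroup G) [Fintype S] (f φ : G → ℂ) :
    ∑ g : G, φ g * conj (cf v S f g) = ∑ s : S, φ (v * s) * conj (f s) := by
  classical
  calc ∑ g : G, φ g * conj (cf v S f g) = ∑ g : G, φ (v * g) * conj (cf v S f (v * g)) :=
        (Fintype.sum_equiv (Equiv.mulLeft v) _ _ fun g => rfl).symm
    _ = ∑ g ∈ Finset.univ.filter (fun g => g ∈ S), φ (v * g) * conj (f g) := by
        rw [Finset.sum_filter]
        refine Finset.sum_congr rfl fun g _ => ?_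
        by_cases h : g ∈ S <;> simp [cf, h, ← mul_assoc, hv]
    _ = _ := Finset.sum_subtype (p := (· ∈ S)) _ (by simp) _

/-- Evaluation of the conjugation sum on a known set of conjugators. -/
theorem sum_cf_eq (v g : G) (S : Subgroup G) (f : G → ℂ) (X : Finset G) (F : G → ℂ)
    (h1 : ∀ x ∈ X, v * (x⁻¹ * g * x) ∈ S ∧ f (v * (x⁻¹ * g * x)) = F x)
    (h2 : ∀ x, v * (x⁻¹ * g * x) ∈ S → x ∈ X) :
    ∑ x : G, cf v S f (x⁻¹ * g * x) = ∑ x ∈ X, F x := by
  classical
  rw [← Finset.sum_subset (Finset.subset_univ X) (fun x _ hx => by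
    simp only [cf]; exact if_neg fun h => hx (h2 x h))]
  refine Finset.sum_congr rfl fun x hx => ?_
  simp only [cf]
  rw [if_pos (h1 x hx).1, (h1 x hx).2]

/-- The conjugation sum vanishes. -/
theorem sum_cf_eq_zero (v g : G) (S : Subgroup G) (f : G → ℂ)
    (h2 : ∀ x, v * (x⁻¹ * g * x) ∈ S → False) :
    ∑ x : G, cf v S f (x⁻¹ * g * x) = 0 := by
  rw [sum_cf_eq v g S f ∅ f (by simp) (fun x h => (h2 x h).elim), Finset.sum_empty]

omit [Fintype G] in
/-- The subgroup `S ∪ v S`. -/
def ext2 (v : G) (S : Subgroup G) (hv : v * v = 1) (hc : ∀ s ∈ S, v * s = s * v) : Subgroup G where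
  carrier := {g | g ∈ S ∨ v * g ∈ S}
  one_mem' := Or.inl S.one_mem
  mul_mem' {a b} ha hb := by
    rcases ha with ha | ha <;> rcases hb with hb | hb
    · exact Or.inl (S.mul_mem ha hb)
    · right; rw [← mul_assoc, hc a ha, mul_assoc]; exact S.mul_mem ha hb
    · right; rw [← mul_assoc]; exact S.mul_mem ha hb
    · left
      have e : v * a * (v * b) = a * b := by
        calc v * a * (v * b) = (v * a * v) * b := by group
          _ = (v * (v * a)) * b := by rw [hc _ ha]
          _ = a * b := by rw [← mul_assoc v v, hv, one_mul]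
      exact e ▸ S.mul_mem ha hb
  inv_mem' {a} ha := by
    rcases ha with ha | ha
    · exact Or.inl (S.inv_mem ha)
    · right
      have h' := S.inv_mem ha
      have hvv : v⁻¹ = v := inv_eq_of_mul_eq_one_right hv
      rw [mul_inv_rev, hvv] at h'
      have h2 := hc _ h'
      rw [mul_assoc, hv, mul_one] at h2
      show v * a⁻¹ ∈ S
      have : v * a⁻¹ = a⁻¹ * v := by
        calc v * a⁻¹ = v * (v * (a⁻¹ * v)) := by rw [h2]
          _ = a⁻¹ * v := by rw [← mul_assoc, hv, one_mul]
      rw [this]; exact h'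

/-- Summing over `S ∪ v S`. -/
theorem sum_ext (v : G) (S : Subgroup G) [Fintype S] (X : Finset G)
    (hX : ∀ x, x ∈ X ↔ x ∈ S ∨ v * x ∈ S) (hv : v * v = 1) (hvS : v ∉ S) (F : G → ℂ) :
    ∑ x ∈ X, F x = ∑ s : S, (F s + F (v * s)) := by
  classical
  rw [show X = Finset.univ.filter (fun x => x ∈ S ∨ v * x ∈ S) by ext x; simp [hX]]
  have hd : ∀ x, x ∈ S → v * x ∈ S → False := fun x h1 h2 =>
    hvS (by simpa using S.mul_mem h2 (S.inv_mem h1))
  rw [Finset.sum_add_distrib, Finset.filter_or, Finset.sum_union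
    (Finset.disjoint_filter.2 fun x _ h1 h2 => hd x h1 h2)]
  congr 1
  · exact Finset.sum_subtype (p := (· ∈ S)) _ (by simp) _
  · rw [← Finset.sum_subtype (p := (· ∈ S)) (Finset.univ.filter (fun x => x ∈ S)) (by simp)
      (fun s => F (v * s))]
    refine Finset.sum_equiv (Equiv.mulLeft v) (fun x => by simp) (fun x _ => ?_)
    simp [← mul_assoc, hv]

/-- The order of `S ∪ v S`. -/
theorem ext2_card (v : G) (S : Subgroup G) (hv : v * v = 1) (hc : ∀ s ∈ S, v * s = s * v) (hvS : v ∉ S) :
    Nat.card (ext2 v S hv hc) = 2 * Nat.card S := by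
  classical
  have h := sum_ext v S (Finset.univ.filter (fun x => x ∈ S ∨ v * x ∈ S)) (by simp) hv hvS (fun _ => (1 : ℂ))
  simp only [Finset.sum_const, Finset.card_univ, nsmul_eq_mul, mul_one] at h
  have e : Nat.card (ext2 v S hv hc) =
      (Finset.univ.filter (fun x => x ∈ S ∨ v * x ∈ S)).card := by
    rw [Nat.card_eq_fintype_card]
    exact Fintype.card_of_subtype _ (fun x => by simp; rfl)
  rw [e, Nat.card_eq_fintype_card (α := S)]
  norm_num at h
  rw [mul_comm]
  exact_mod_cast h

/-- A linear function gives a character of the subgroup. -/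
theorem isCharacter_lin (S : Subgroup G) {f : G → ℂ} (hf : IsLin S f) :
    IsCharacter S (fun s : S => f s) := by
  let φ : S →* ℂ := ⟨⟨fun s => f s, hf.map_one⟩, fun a b => hf.map_mul _ a.2 _ b.2⟩
  exact H26.isCharacter_of_irr (H26.isIrrCharacter_hom φ.toHomUnits)

/-- Induction of a linear function. -/
theorem gen_av_one (S : Subgroup G) {f : G → ℂ} (hf : IsLin S f) :
    IsGeneralizedCharacter G (av (Nat.card S) (cf 1 S f)) := by
  have e : av (Nat.card S) (cf 1 S f) = indFun S (fun s : S => f s) := by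
    classical
    funext g
    rw [H25.indFun_apply, av]
    congr 1
    refine Finset.sum_congr rfl fun x _ => ?_
    by_cases h : x⁻¹ * g * x ∈ S
    · rw [H25.extendByZero_of_mem _ _ h]; simp [cf, h]
    · rw [H25.extendByZero_of_notMem _ _ h]; simp [cf, h]
  rw [e]
  exact H57.gen_of_char (H25.isCharacter_indFun S (isCharacter_lin S hf))

/-- Induction of the extension trivial on `v` of a linear function. -/
theorem gen_av_ext (v : G) (S : Subgroup G) (hv : v * v = 1) (hc : ∀ s ∈ S, v * s = s * v)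
    (hvS : v ∉ S) {f : G → ℂ} (hf : IsLin S f) :
    IsGeneralizedCharacter G (av (2 * Nat.card S) (cf 1 S f + cf v S f)) := by
  classical
  set g' : G → ℂ := fun g => if g ∈ S then f g else f (v * g) with hg'
  have hd : ∀ x, x ∈ S → v * x ∈ S → False := fun x h1 h2 =>
    hvS (by simpa using S.mul_mem h2 (S.inv_mem h1))
  have hlin : IsLin (ext2 v S hv hc) g' := by
    refine ⟨by simp [hg', S.one_mem, hf.map_one], fun a ha b hb => ?_⟩
    rcases ha with ha | ha <;> rcases hb with hb | hb
    · simp only [hg', if_pos (S.mul_mem ha hb), if_pos ha, if_pos hb]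
      exact hf.map_mul _ ha _ hb
    · have hb' : b ∉ S := fun h => hd b h hb
      have hab : a * b ∉ S := fun h => hb' ((S.mul_mem_cancel_left ha).1 h)
      simp only [hg', if_neg hab, if_pos ha, if_neg hb']
      rw [← mul_assoc, hc a ha, mul_assoc]
      exact hf.map_mul _ ha _ hb
    · have ha' : a ∉ S := fun h => hd a h ha
      have hab : a * b ∉ S := fun h => ha' ((S.mul_mem_cancel_right hb).1 h)
      simp only [hg', if_neg hab, if_neg ha', if_pos hb]
      rw [← mul_assoc]
      exact hf.map_mul _ ha _ hb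
    · have ha' : a ∉ S := fun h => hd a h ha
      have hb' : b ∉ S := fun h => hd b h hb
      have e : v * a * (v * b) = a * b := by
        calc v * a * (v * b) = (v * a * v) * b := by group
          _ = (v * (v * a)) * b := by rw [hc _ ha]
          _ = a * b := by rw [← mul_assoc v v, hv, one_mul]
      have hab : a * b ∈ S := e ▸ S.mul_mem ha hb
      simp only [hg', if_pos hab, if_neg ha', if_neg hb']
      rw [← e]
      exact hf.map_mul _ ha _ hb
  have h := gen_av_one _ hlin
  rw [ext2_card v S hv hc hvS] at h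
  convert h using 3
  funext g
  by_cases h1 : g ∈ S
  · have h2 : v * g ∉ S := hd g h1
    have h3 : g ∈ ext2 v S hv hc := Or.inl h1
    simp [cf, hg', h1, h2, h3]
  · by_cases h2 : v * g ∈ S
    · have h3 : g ∈ ext2 v S hv hc := Or.inr h2
      simp [cf, hg', h1, h2, h3]
    · have h3 : g ∉ ext2 v S hv hc := fun h => h.elim h1 h2
      simp [cf, h1, h2, h3]

/-- The induced function supported on the coset `v S`. -/
theorem gen_av_coset (v : G) (S : Subgroup G) (hv : v * v = 1) (hc : ∀ s ∈ S, v * s = s * v)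
    (hvS : v ∉ S) {f : G → ℂ} (hf : IsLin S f) :
    IsGeneralizedCharacter G (av (Nat.card S) (cf v S f)) := by
  have e : av (Nat.card S) (cf v S f) =
      (2 : ℤ) • av (2 * Nat.card S) (cf 1 S f + cf v S f) - av (Nat.card S) (cf 1 S f) := by
    funext g
    rw [Pi.sub_apply, Pi.smul_apply, zsmul_eq_mul]
    simp only [av, Pi.add_apply, Finset.sum_add_distrib]
    have h0 : (Nat.card S : ℂ) ≠ 0 := Nat.cast_ne_zero.2 Nat.card_pos.ne'
    push_cast
    field_simp
    ring
  rw [e]
  exact H57.gen_sub (H57.gen_zsmul (gen_av_ext v S hv hc hvS hf) 2) (gen_av_one S hf)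

/-- The inverse of a value of a linear function is its conjugate. -/
theorem IsLin.conj_eq {S : Subgroup G} {f : G → ℂ} (hf : IsLin S f) {s : G} (hs : s ∈ S) :
    conj (f s) = f s⁻¹ := by
  let φ : S →* ℂ := ⟨⟨fun s => f s, hf.map_one⟩, fun a b => hf.map_mul _ a.2 _ b.2⟩
  have h1 : φ ⟨s, hs⟩ ^ orderOf (⟨s, hs⟩ : S) = 1 := by rw [← map_pow, pow_orderOf_eq_one, _root_.map_one]
  have h2 : ‖f s‖ = 1 := Complex.norm_eq_one_of_pow_eq_one h1 (orderOf_pos _).ne'
  have h3 : f s * f s⁻¹ = 1 := by rw [← hf.map_mul _ hs _ (S.inv_mem hs), mul_inv_cancel, hf.map_one]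
  rw [← Complex.inv_eq_conj h2]
  exact inv_eq_of_mul_eq_one_right h3

omit [Fintype G] in
/-- The conjugate linear function. -/
theorem IsLin.inv {S : Subgroup G} {f : G → ℂ} (hf : IsLin S f) :
    IsLin S (fun g => f g⁻¹) := by
  refine ⟨by simp [hf.map_one], fun a ha b hb => ?_⟩
  show f (a * b)⁻¹ = f a⁻¹ * f b⁻¹
  rw [mul_inv_rev, hf.map_mul _ (S.inv_mem hb) _ (S.inv_mem ha), mul_comm]

/-- A linear function composed with a multiplicative map with a value outside the kernel sums to zero. -/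
theorem IsLin.sum_eq_zero {S : Subgroup G} [Fintype S] {f : G → ℂ} (hf : IsLin S f) (m : G → G)
    (hm : ∀ a ∈ S, m a ∈ S) (hmul : ∀ a ∈ S, ∀ b ∈ S, m (a * b) = m a * m b)
    (hne : ∃ a ∈ S, f (m a) ≠ 1) : ∑ s : S, f (m s) = 0 := by
  obtain ⟨a, ha, hne⟩ := hne
  have key : f (m a) * ∑ s : S, f (m s) = ∑ s : S, f (m s) := by
    rw [Finset.mul_sum]
    refine Fintype.sum_equiv (Equiv.mulLeft (⟨a, ha⟩ : S)) _ _ fun s => ?_
    show f (m a) * f (m s) = f (m (a * s))
    rw [hmul a ha s s.2, hf.map_mul _ (hm a ha) _ (hm s s.2)]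
  by_contra h
  exact hne (mul_right_cancel₀ h (key.trans (one_mul _).symm))

omit [Fintype G] in
/-- A linear function extending a homomorphism. -/
theorem exists_lin_of_hom (S : Subgroup G) (χ : S →* ℂˣ) :
    ∃ f : G → ℂ, IsLin S f ∧ ∀ s : S, f s = χ s := by
  classical
  refine ⟨fun g => if h : g ∈ S then χ ⟨g, h⟩ else 0, ⟨?_, fun a ha b hb => ?_⟩, fun s => ?_⟩
  · show (if h : (1 : G) ∈ S then ((χ ⟨1, h⟩ : ℂˣ) : ℂ) else 0) = 1
    rw [dif_pos S.one_mem, show (⟨1, S.one_mem⟩ : S) = 1 from rfl, _root_.map_one, Units.val_one]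
  · show (if h : a * b ∈ S then ((χ ⟨a * b, h⟩ : ℂˣ) : ℂ) else 0) = _
    rw [dif_pos (S.mul_mem ha hb), dif_pos ha, dif_pos hb, ← Units.val_mul, ← map_mul]
    rfl
  · simp

end Cfsg.Agent.H82.Ree
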