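import Cfsg.Agent.H82.Ree.Move
import Cfsg.Agent.H82.Ree.Avg

/-!
# Groups of Ree type: the conjugators between elements of `V T`, `t U`
-/

set_option autoImplicit false

namespace Cfsg.Agent.H82.Ree

open scoped ComplexConjugate BigOperators

namespace Ctx

variable {G : Type*} [Group G] {q o : ℕ} (c : Ctx G q o)
include c

/-- Conjugation of a product of commuting elements of orders two and `m` odd. -/
theorem split {a b u r x : G} (m : ℕ) (hm : Odd m) (ha : a * a = 1) (hb : b * b = 1) (hau : a * u = u * a)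
    (hbr : b * r = r * b) (hu : u ^ m = 1) (hr : r ^ m = 1) (h : x⁻¹ * (a * u) * x = b * r) :
    x⁻¹ * a * x = b ∧ x⁻¹ * u * x = r := by
  obtain ⟨k, rfl⟩ := hm
  have e1 : (a * u) ^ (2 * k + 1) = a := by
    rw [(show Commute a u from hau).mul_pow, hu, mul_one, pow_succ, pow_mul, sq, ha, one_pow, one_mul]
  have e2 : (b * r) ^ (2 * k + 1) = b := by
    rw [(show Commute b r from hbr).mul_pow, hr, mul_one, pow_succ, pow_mul, sq, hb, one_pow, one_mul]
  have h1 : x⁻¹ * a * x = b := by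
    have := conj_pow (i := 2 * k + 1) (a := x⁻¹) (b := a * u)
    rw [inv_inv, h, e1, e2] at this
    exact this.symm
  refine ⟨h1, mul_left_cancel (a := b) ?_⟩
  calc b * (x⁻¹ * u * x) = x⁻¹ * a * x * (x⁻¹ * u * x) := by rw [h1]
    _ = x⁻¹ * (a * u) * x := by group
    _ = b * r := h

theorem U_pow_o {u : G} (hu : u ∈ c.U) : u ^ (3 * o) = 1 := by rw [pow_mul, c.U_pow u hu, one_pow]

theorem T_pow_o {s : G} (hs : s ∈ c.T) : s ^ (3 * o) = 1 := by
  rw [mul_comm, pow_mul, c.T_pow hs, one_pow]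

theorem odd_three_o : Odd (3 * o) := Odd.mul (by decide) c.o_odd

theorem v_T (k : Fin 3) {s : G} (hs : s ∈ c.T) : c.v k * s = s * c.v k :=
  c.A_comm (c.v_mem k) (c.T_le_A hs)

theorem v_notMem_T (k : Fin 3) : c.v k ∉ c.T := fun h => c.v_ne k (c.T_sq_eq_one h (c.v_sq k))

theorem t_notMem_U : c.t ∉ c.U := fun h => c.t_notMem (c.U_le h)

theorem UT_eq_one {u : G} (hu : u ∈ c.U) (hT : u ∈ c.T) : u = 1 :=
  orderOf_eq_one_iff.1 (Nat.eq_one_of_dvd_coprimes (Nat.prime_three.coprime_iff_not_dvd.2 c.o_three)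
    (orderOf_dvd_of_pow_eq_one (c.U_pow u hu)) (orderOf_dvd_of_pow_eq_one (c.T_pow hT)))

theorem w_v (k : Fin 3) : c.w * c.v k = c.v k * c.w := by
  have h1 : Commute c.w c.t := c.tw.symm
  have h2 : Commute c.w c.j := c.wj
  fin_cases k
  exacts [h1, h2, h1.mul_right h2]

/-- The conjugates of a `v s` in a coset of `T`. -/
theorem split_v {l m : Fin 3} {s x : G} (hs : s ∈ c.T) (hx : c.v m * (x⁻¹ * (c.v l * s) * x) ∈ c.T) :
    x⁻¹ * c.v l * x = c.v m ∧ x⁻¹ * s * x ∈ c.T ∧ c.v m * (x⁻¹ * (c.v l * s) * x) = x⁻¹ * s * x := by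
  have e : x⁻¹ * (c.v l * s) * x = c.v m * (c.v m * (x⁻¹ * (c.v l * s) * x)) := by
    rw [← mul_assoc (c.v m) (c.v m), c.v_sq, one_mul]
  obtain ⟨h1, h2⟩ := c.split (3 * o) c.odd_three_o (c.v_sq l) (c.v_sq m) (c.v_T l hs) (c.v_T m hx)
    (c.T_pow_o hs) (c.T_pow_o hx) e
  exact ⟨h1, h2 ▸ hx, h2.symm⟩

/-- The conjugates of `t u`, `u ∈ U`, in the coset `t U`. -/
theorem split_u {u x : G} (hu : u ∈ c.U) (hx : c.t * (x⁻¹ * (c.t * u) * x) ∈ c.U) :
    x⁻¹ * c.t * x = c.t ∧ x⁻¹ * u * x ∈ c.U ∧ c.t * (x⁻¹ * (c.t * u) * x) = x⁻¹ * u * x := by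
  have e : x⁻¹ * (c.t * u) * x = c.t * (c.t * (x⁻¹ * (c.t * u) * x)) := by
    rw [← mul_assoc c.t c.t, c.t_sq, one_mul]
  obtain ⟨h1, h2⟩ := c.split (3 * o) c.odd_three_o c.t_sq c.t_sq (c.tk (c.U_le hu)) (c.tk (c.U_le hx))
    (c.U_pow_o hu) (c.U_pow_o hx) e
  exact ⟨h1, h2 ▸ hx, h2.symm⟩

/-- The element `n i = yⁱ` acts on `T` as `cy i`. -/
def cy (i : Fin 3) (s : G) : G := (c.y ^ (i : ℕ))⁻¹ * s * c.y ^ (i : ℕ)

theorem cy_zero (s : G) : c.cy 0 s = s := by simp [cy]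

theorem y_pow_v (i m : Fin 3) : c.y ^ (i : ℕ) * c.v m * (c.y ^ (i : ℕ))⁻¹ = c.v (m + i) := by
  fin_cases i
  · simp
  · simpa using c.y_v m
  · show c.y ^ 2 * c.v m * (c.y ^ 2)⁻¹ = c.v (m + 2)
    rw [sq, show c.y * c.y * c.v m * (c.y * c.y)⁻¹ = c.y * (c.y * c.v m * c.y⁻¹) * c.y⁻¹ by group, c.y_v,
      c.y_v, add_assoc]
    rfl

variable [Finite G]

theorem cy_mem (i : Fin 3) {s : G} (hs : s ∈ c.T) : c.cy i s ∈ c.T := c.y_pow_T' _ hs

/-- Elements of `C(v l)` moving an element of `T#` into `T`. -/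
theorem norm_v (l : Fin 3) {s : G} (hs : s ∈ c.T) (hs1 : s ≠ 1) {z : G}
    (hz : z⁻¹ * c.v l * z = c.v l) (hzs : z⁻¹ * s * z ∈ c.T) : z ∈ c.A ∨ c.w * z ∈ c.A := by
  set n := c.y ^ (l : ℕ)
  have hn : ∀ m, n * c.v m * n⁻¹ = c.v (m + l) := c.y_pow_v l
  set s' := n⁻¹ * (z⁻¹ * s * z) * n
  have hs' : s' ∈ c.T := c.y_pow_T' _ hzs
  have hs'1 : s' ≠ 1 := fun h => hs1 (by
    calc s = z * (n * s' * n⁻¹) * z⁻¹ := by simp only [s']; group
      _ = 1 := by rw [h]; group)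
  set z' := n⁻¹ * z * n
  have hz' : z' * c.t = c.t * z' := by
    have e : c.v l = n * c.t * n⁻¹ := by rw [c.v_conj_val]
    calc z' * c.t = n⁻¹ * (z * (n * c.t * n⁻¹)) * n := by simp only [z']; group
      _ = n⁻¹ * (z * (z⁻¹ * c.v l * z)) * n := by rw [hz, e]
      _ = n⁻¹ * (c.v l * z) * n := by group
      _ = c.t * z' := by rw [e]; simp only [z']; group
  have hz2 : z' * s' * z'⁻¹ ∈ c.T := by
    rw [show z' * s' * z'⁻¹ = n⁻¹ * s * n by simp only [z', s']; group]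
    exact c.y_pow_T' _ hs
  have hcomm : ∀ k, z' * c.v k = c.v k * z' := by
    intro k
    rcases c.norm_t hs' hs'1 hz' hz2 with h | h
    · exact c.A_comm h (c.v_mem k)
    · have e : z' = c.w * (c.w * z') := by rw [← mul_assoc, c.w_sq, one_mul]
      rw [e]
      exact ((show Commute c.w (c.v k) from c.w_v k).mul_left (c.A_comm h (c.v_mem k))).eq
  have hzc : ∀ k, z * c.v k = c.v k * z := by
    intro k
    have e : c.v k = n * c.v (k - l) * n⁻¹ := by rw [hn, sub_add_cancel]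
    calc z * c.v k = n * (z' * c.v (k - l)) * n⁻¹ := by rw [e]; simp only [z']; group
      _ = n * (c.v (k - l) * z') * n⁻¹ := by rw [hcomm]
      _ = c.v k * z := by rw [e]; simp only [z']; group
  exact c.cent_V (hzc 0) (hzc 1)

variable [Fintype G]

/-- A sum over the conjugators of `v l s` into the coset of `v m`. -/
theorem sum_torus (l m : Fin 3) {s : G} (hs : s ∈ c.T) (hs1 : s ≠ 1) (f : G → ℂ) :
    ∑ x : G, cf (c.v m) c.T f (x⁻¹ * (c.v l * s) * x) =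
      (4 * o : ℕ) * (f (c.cy (l - m) s) + f (c.cy (l - m) s⁻¹)) := by
  classical
  set n := c.y ^ ((l - m : Fin 3) : ℕ) with hndef
  have hn : n * c.v m * n⁻¹ = c.v l := by rw [hndef, c.y_pow_v, add_sub_cancel]
  have hn' : n⁻¹ * c.v l * n = c.v m := by rw [← hn]; group
  set X := Finset.univ.filter (fun x => x * n⁻¹ ∈ c.A ∨ c.w * (x * n⁻¹) ∈ c.A)
  have hsA : ∀ a ∈ c.A, a⁻¹ * s * a = s ∧ (c.w * a)⁻¹ * s * (c.w * a) = s⁻¹ := by
    intro a ha
    have h1 : a⁻¹ * s * a = s := by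
      rw [mul_assoc, ← c.A_comm ha (c.T_le_A hs), ← mul_assoc, inv_mul_cancel, one_mul]
    refine ⟨h1, ?_⟩
    rw [show (c.w * a)⁻¹ * s * (c.w * a) = a⁻¹ * (c.w⁻¹ * s * c.w) * a by group,
      inv_eq_of_mul_eq_one_right c.w_sq, c.w_inv hs,
      mul_assoc, ← c.A_comm ha (inv_mem (c.T_le_A hs)), ← mul_assoc, inv_mul_cancel, one_mul]
  have hv : ∀ a ∈ c.A, a⁻¹ * c.v l * a = c.v l ∧ (c.w * a)⁻¹ * c.v l * (c.w * a) = c.v l := by
    intro a ha
    have h1 : a⁻¹ * c.v l * a = c.v l := by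
      rw [mul_assoc, ← c.A_comm ha (c.v_mem l), ← mul_assoc, inv_mul_cancel, one_mul]
    refine ⟨h1, ?_⟩
    rw [show (c.w * a)⁻¹ * c.v l * (c.w * a) = a⁻¹ * (c.w⁻¹ * (c.v l * c.w)) * a by group, ← c.w_v,
      inv_mul_cancel_left, h1]
  have hval : ∀ z : G, ∀ r : G, z⁻¹ * c.v l * z = c.v l → z⁻¹ * s * z = r →
      c.v m * ((z * n)⁻¹ * (c.v l * s) * (z * n)) = c.cy (l - m) r := by
    intro z r h1 h2
    have e : (z * n)⁻¹ * (c.v l * s) * (z * n) = (n⁻¹ * (z⁻¹ * c.v l * z) * n) * (n⁻¹ * (z⁻¹ * s * z) * n) := by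
      group
    rw [e, h1, h2, hn', ← mul_assoc, c.v_sq, one_mul]
    rfl
  rw [sum_cf_eq (c.v m) (c.v l * s) c.T f X
    (fun x => if x * n⁻¹ ∈ c.A then f (c.cy (l - m) s) else f (c.cy (l - m) s⁻¹))]
  · have hsum : ∑ x ∈ X, (fun x => if x * n⁻¹ ∈ c.A then f (c.cy (l - m) s) else f (c.cy (l - m) s⁻¹)) x =
        ∑ z ∈ Finset.univ.filter (fun z => z ∈ c.A ∨ c.w * z ∈ c.A),
          (if z ∈ c.A then f (c.cy (l - m) s) else f (c.cy (l - m) s⁻¹)) :=
      Finset.sum_equiv (Equiv.mulRight n⁻¹) (fun x => by simp [X]) (fun x _ => rfl)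
    rw [hsum, sum_ext c.w c.A _ (by simp) c.w_sq c.w_notMem_A]
    have hw : ∀ a : c.A, c.w * (a : G) ∉ c.A := fun a h => c.w_notMem_A ((c.A.mul_mem_cancel_right a.2).1 h)
    simp only [SetLike.coe_mem, if_true, hw, if_false, Finset.sum_const, Finset.card_univ, nsmul_eq_mul]
    rw [← Nat.card_eq_fintype_card, c.A_card]
  · intro x hx
    simp only [X, Finset.mem_filter, Finset.mem_univ, true_and] at hx
    have hxz : x = x * n⁻¹ * n := (inv_mul_cancel_right x n).symm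
    by_cases hA : x * n⁻¹ ∈ c.A
    · have h := hval (x * n⁻¹) s (hv _ hA).1 (hsA _ hA).1
      rw [← hxz] at h
      rw [h, if_pos hA]
      exact ⟨c.cy_mem _ hs, rfl⟩
    · have hA' := hx.resolve_left hA
      have e : x * n⁻¹ = c.w * (c.w * (x * n⁻¹)) := by rw [← mul_assoc, c.w_sq, one_mul]
      have h1 := (hv _ hA').2
      have h2 := (hsA _ hA').2
      rw [← e] at h1 h2
      have h := hval (x * n⁻¹) s⁻¹ h1 h2
      rw [← hxz] at h
      rw [h, if_neg hA]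
      exact ⟨c.cy_mem _ (inv_mem hs), rfl⟩
  · intro x hx
    obtain ⟨h1, h2, -⟩ := c.split_v hs hx
    simp only [X, Finset.mem_filter, Finset.mem_univ, true_and]
    refine c.norm_v l hs hs1 ?_ ?_
    · calc (x * n⁻¹)⁻¹ * c.v l * (x * n⁻¹) = n * (x⁻¹ * c.v l * x) * n⁻¹ := by group
        _ = c.v l := by rw [h1, hn]
    · rw [show (x * n⁻¹)⁻¹ * s * (x * n⁻¹) = n * (x⁻¹ * s * x) * n⁻¹ by group]
      exact c.y_pow_T _ h2

/-- A sum over the centraliser of `t`. -/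
theorem sum_cent (F : G → ℂ) [Fintype c.K] (X : Finset G) (hX : ∀ x, x ∈ X ↔ x * c.t = c.t * x) :
    ∑ x ∈ X, F x = ∑ k : c.K, (F k + F (c.t * k)) := by
  refine sum_ext c.t c.K X (fun x => ?_) c.t_sq c.t_notMem F
  rw [hX]
  constructor
  · exact c.dec x
  · rintro (h | h)
    · exact c.K_comm x h
    · have := c.K_comm _ h
      calc x * c.t = c.t * (c.t * x * c.t) := by simp [← mul_assoc, c.t_sq]
        _ = c.t * (c.t * (c.t * x)) := by rw [this]
        _ = c.t * x := by rw [← mul_assoc c.t c.t, c.t_sq, one_mul]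

theorem card_cent_t : Nat.card (Subgroup.centralizer ({c.t} : Set G)) = 2 * Nat.card c.K := by
  classical
  have h := c.sum_cent (fun _ => (1 : ℂ)) (Finset.univ.filter fun x => x * c.t = c.t * x) (by simp)
  simp only [Finset.sum_const, Finset.card_univ, nsmul_eq_mul, mul_one] at h
  have e : Nat.card (Subgroup.centralizer ({c.t} : Set G)) =
      (Finset.univ.filter fun x => x * c.t = c.t * x).card := by
    rw [Nat.card_eq_fintype_card]
    exact Fintype.card_of_subtype _ (fun x => by simp [Subgroup.mem_centralizer_singleton_iff])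
  rw [e, Nat.card_eq_fintype_card (α := c.K)]
  norm_num at h
  rw [mul_comm]
  exact_mod_cast h

/-- The conjugation sum at `t`. -/
theorem sum_at_t (S : Subgroup G) (hS : ∀ s ∈ S, c.t * s = s * c.t) (hodd : ∀ s ∈ S, s * s = 1 → s = 1)
    (f : G → ℂ) :
    ∑ x : G, cf c.t S f (x⁻¹ * c.t * x) = (2 * Nat.card c.K : ℕ) * f 1 := by
  classical
  rw [sum_cf_eq c.t c.t S f (Finset.univ.filter fun x => x * c.t = c.t * x) (fun _ => f 1),
    c.sum_cent _ _ (by simp)]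
  · simp only [Finset.sum_const, Finset.card_univ, nsmul_eq_mul, Nat.card_eq_fintype_card]
    push_cast
    ring
  · intro x hx
    have hx' : x * c.t = c.t * x := by simpa using hx
    have e : c.t * (x⁻¹ * c.t * x) = 1 := by rw [mul_assoc x⁻¹, ← hx', inv_mul_cancel_left, c.t_sq]
    rw [e]
    exact ⟨one_mem _, rfl⟩
  · intro x hx
    have e : c.t * (x⁻¹ * c.t * x) = 1 := by
      refine hodd _ hx ?_
      set r := c.t * (x⁻¹ * c.t * x) with hr
      have h1 : x⁻¹ * c.t * x = c.t * r := by rw [hr, ← mul_assoc, c.t_sq, one_mul]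
      have h2 : c.t * r * (c.t * r) = 1 := by
        rw [← h1, show x⁻¹ * c.t * x * (x⁻¹ * c.t * x) = x⁻¹ * (c.t * c.t) * x by group, c.t_sq, mul_one,
          inv_mul_cancel]
      rwa [(show Commute r c.t from (hS r hx).symm).mul_mul_mul_comm, c.t_sq, one_mul] at h2
    simp only [Finset.mem_filter, Finset.mem_univ, true_and]
    have h3 : x⁻¹ * c.t * x = c.t := by
      rw [eq_inv_of_mul_eq_one_right e, inv_eq_of_mul_eq_one_right c.t_sq]
    calc x * c.t = x * (x⁻¹ * c.t * x) := by rw [h3]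
      _ = c.t * x := by group

end Ctx

end Cfsg.Agent.H82.Ree
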