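import Cfsg.Agent.H82.Ree.UPart

/-!
# Groups of Ree type: products of two involutions
-/

set_option autoImplicit false

namespace Cfsg.Agent.H82.Ree

open scoped ComplexConjugate BigOperators

namespace Ctx

variable {G : Type*} [Group G] {q o : ℕ} (c : Ctx G q o)
include c

/-- The number of ordered pairs of involutions with product `g`. -/
noncomputable def nPairs (g : G) : ℕ :=
  Nat.card {p : G × G // IsConj c.t p.1 ∧ IsConj c.t p.2 ∧ p.1 * p.2 = g}

theorem isConj_t_iff (x : G) : IsConj c.t x ↔ x * x = 1 ∧ x ≠ 1 := by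
  constructor
  · intro h
    obtain ⟨y, rfl⟩ := isConj_iff.1 h
    refine ⟨?_, fun h1 => c.t_ne (conj_eq_one_iff.1 h1)⟩
    rw [show y * c.t * y⁻¹ * (y * c.t * y⁻¹) = y * (c.t * c.t) * y⁻¹ by group, c.t_sq, mul_one, mul_inv_cancel]
  · rintro ⟨h1, h2⟩
    exact c.conj_t x (orderOf_eq_prime (by rw [sq]; exact h1) h2)

theorem nPairs_eq (g : G) :
    c.nPairs g = Nat.card {x : G // x * x = 1 ∧ x ≠ 1 ∧ x * g * x = g⁻¹ ∧ x ≠ g} := by
  refine Nat.card_congr
    { toFun := fun p => ⟨p.1.1, ?_⟩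
      invFun := fun x => ⟨(x.1, x.1 * g), ?_⟩
      left_inv := ?_
      right_inv := fun x => rfl }
  · obtain ⟨⟨a, b⟩, ha, hb, rfl⟩ := p
    obtain ⟨ha1, ha2⟩ := (c.isConj_t_iff a).1 ha
    obtain ⟨hb1, hb2⟩ := (c.isConj_t_iff b).1 hb
    refine ⟨ha1, ha2, ?_, fun h => hb2 ?_⟩
    · show a * (a * b) * a = (a * b)⁻¹
      rw [← mul_assoc a a b, ha1, one_mul, mul_inv_rev, inv_eq_of_mul_eq_one_right ha1,
        inv_eq_of_mul_eq_one_right hb1]
    · exact mul_left_cancel (a := a) (by rw [mul_one]; exact h.symm)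
  · obtain ⟨h1, h2, h3, h4⟩ := x.2
    refine ⟨(c.isConj_t_iff _).2 ⟨h1, h2⟩, (c.isConj_t_iff _).2 ⟨?_, fun h => h4 ?_⟩, ?_⟩
    · show x.1 * g * (x.1 * g) = 1
      rw [← mul_assoc, h3, inv_mul_cancel]
    · calc x.1 = x.1 * (x.1 * g) := by rw [show x.1 * g = 1 from h, mul_one]
        _ = g := by rw [← mul_assoc, h1, one_mul]
    · show x.1 * (x.1 * g) = g
      rw [← mul_assoc, h1, one_mul]
  · rintro ⟨⟨a, b⟩, ha, hb, h⟩
    refine Subtype.ext (Prod.ext rfl ?_)
    show a * g = b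
    rw [← show a * b = g from h, ← mul_assoc, ((c.isConj_t_iff a).1 ha).1, one_mul]

theorem nPairs_conj (g x : G) : c.nPairs (x * g * x⁻¹) = c.nPairs g := by
  refine (Nat.card_congr (Equiv.subtypeEquiv ((MulAut.conj x).toEquiv.prodCongr (MulAut.conj x).toEquiv) ?_)).symm
  rintro ⟨a, b⟩
  show _ ↔ IsConj c.t (MulAut.conj x a) ∧ IsConj c.t (MulAut.conj x b) ∧
    MulAut.conj x a * MulAut.conj x b = x * g * x⁻¹
  rw [← map_mul, ← show MulAut.conj x g = x * g * x⁻¹ from rfl, (MulAut.conj x).injective.eq_iff]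
  have h : ∀ a : G, IsConj c.t (MulAut.conj x a) ↔ IsConj c.t a := fun a =>
    ⟨fun h => h.trans (isConj_iff.2 ⟨x, rfl⟩).symm, fun h => h.trans (isConj_iff.2 ⟨x, rfl⟩)⟩
  rw [h, h]

variable [Finite G]

theorem nPairs_tu {u : G} (hu : u ∈ c.U) (hu1 : u ≠ 1) : c.nPairs (c.t * u) = 0 := by
  rw [c.nPairs_eq, Nat.card_eq_zero]
  left
  refine ⟨fun ⟨x, h1, _, h3, _⟩ => ?_⟩
  have hx : x⁻¹ = x := inv_eq_of_mul_eq_one_right h1
  have ht : c.t⁻¹ = c.t := inv_eq_of_mul_eq_one_right c.t_sq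
  have e : (c.t * u)⁻¹ = c.t * u⁻¹ := by rw [mul_inv_rev, ht, c.tk (c.U_le (inv_mem hu))]
  have h : c.t * (x⁻¹ * (c.t * u) * x) ∈ c.U := by
    rw [hx, h3, e, ← mul_assoc, c.t_sq, one_mul]; exact inv_mem hu
  obtain ⟨h4, -, h6⟩ := c.split_u hu h
  rw [hx, h3, e, ← mul_assoc, c.t_sq, one_mul] at h6
  rw [hx] at h4
  have hxt : x * c.t = c.t * x := by
    calc x * c.t = x * c.t * (x * x) := by rw [h1, mul_one]
      _ = x * c.t * x * x := by group
      _ = c.t * x := by rw [h4]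
  rcases c.dec x hxt with h | h
  · have := c.B_mem u hu hu1 x h (by rw [hx, ← h6]; exact inv_mem hu)
    exact c.no_invert this hu hu1 (by rw [hx]; exact h6.symm)
  · have e2 : c.t * x * u * (c.t * x)⁻¹ = u⁻¹ := by
      rw [show c.t * x * u * (c.t * x)⁻¹ = c.t * (x * u * x⁻¹) * c.t⁻¹ by group, hx, ← h6,
        c.tk (c.U_le (inv_mem hu)), mul_inv_cancel_right]
    exact c.no_invert (c.B_mem u hu hu1 _ h (by rw [e2]; exact inv_mem hu)) hu hu1 e2

variable [Fintype G]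

theorem nPairs_ts {s : G} (hs : s ∈ c.T) (hs1 : s ≠ 1) : c.nPairs (c.t * s) = 4 * o := by
  rw [c.nPairs_eq, ← c.A_card]
  have htA : c.t * s ∈ c.A := mul_mem c.t_mem_A (c.T_le_A hs)
  have ht : c.t⁻¹ = c.t := inv_eq_of_mul_eq_one_right c.t_sq
  have e : (c.t * s)⁻¹ = c.t * s⁻¹ := by rw [mul_inv_rev, ht, c.tk (c.T_le (inv_mem hs))]
  refine Nat.card_congr
    { toFun := fun x => ⟨c.w * x.1, ?_⟩
      invFun := fun a => ⟨c.w * a.1, ?_⟩
      left_inv := fun x => Subtype.ext (by show c.w * (c.w * x.1) = x.1; rw [← mul_assoc, c.w_sq, one_mul])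
      right_inv := fun a => Subtype.ext (by show c.w * (c.w * a.1) = a.1; rw [← mul_assoc, c.w_sq, one_mul]) }
  · obtain ⟨x, h1, -, h3, -⟩ := x
    have hx : x⁻¹ = x := inv_eq_of_mul_eq_one_right h1
    have h : c.v 0 * (x⁻¹ * (c.v 0 * s) * x) ∈ c.T := by
      rw [c.v_zero, hx, h3, e, ← mul_assoc, c.t_sq, one_mul]; exact inv_mem hs
    obtain ⟨h4, h5, h6⟩ := c.split_v hs h
    rw [c.v_zero, hx, h3, e, ← mul_assoc, c.t_sq, one_mul] at h6
    rcases c.norm_v 0 hs hs1 h4 h5 with hA | hA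
    · exfalso
      have hc := c.A_comm hA (c.T_le_A hs)
      rw [hc, mul_assoc, h1, mul_one] at h6
      exact hs1 (c.T_sq_eq_one hs (by rw [← mul_eq_one_iff_inv_eq.2 h6]))
    · exact hA
  · obtain ⟨a, ha⟩ := a
    have hA : c.w * (c.w * a) ∈ c.A := by rwa [← mul_assoc, c.w_sq, one_mul]
    have h1 := c.wA_sq hA
    have hwa : c.w * a ∉ c.A := fun h => c.w_notMem_A ((c.A.mul_mem_cancel_right ha).1 h)
    refine ⟨h1, fun h => hwa (h ▸ one_mem _), ?_, fun h => hwa (h ▸ htA)⟩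
    show c.w * a * (c.t * s) * (c.w * a) = (c.t * s)⁻¹
    calc c.w * a * (c.t * s) * (c.w * a) = c.w * (a * (c.t * s)) * (c.w * a) := by group
      _ = c.w * (c.t * s * a) * (c.w * a) := by rw [c.A_comm ha htA]
      _ = (c.w * c.t) * s * (a * c.w * a) := by group
      _ = c.t * (c.w * s) * (a * c.w * a) := by rw [← c.tw]; group
      _ = c.t * (c.w * s * c.w) * (c.w * a * (c.w * a)) := by
          rw [show c.t * (c.w * s * c.w) * (c.w * a * (c.w * a)) =
            c.t * (c.w * s) * ((c.w * c.w) * (a * c.w * a)) by group, c.w_sq, one_mul]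
      _ = (c.t * s)⁻¹ := by rw [h1, mul_one, c.w_inv hs, e]

theorem nPairs_t : c.nPairs c.t = q * (q - 1) := by
  classical
  rw [c.nPairs_eq]
  have ht : c.t⁻¹ = c.t := inv_eq_of_mul_eq_one_right c.t_sq
  set X := Finset.univ.filter (fun x => x * c.t = c.t * x)
  set P : G → Prop := fun x => x * x = 1 ∧ x ≠ 1 ∧ x * c.t * x = c.t⁻¹ ∧ x ≠ c.t
  have hP : ∀ x, P x → x ∈ X := by
    rintro x ⟨h1, -, h3, -⟩
    simp only [X, Finset.mem_filter, Finset.mem_univ, true_and]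
    calc x * c.t = x * c.t * (x * x) := by rw [h1, mul_one]
      _ = x * c.t * x * x := by group
      _ = c.t * x := by rw [h3, ht]
  have h := c.sum_cent (fun x => if P x then (1 : ℂ) else 0) X (by simp [X])
  rw [Finset.sum_boole] at h
  have hK : ∀ k : c.K, (P (k : G) ↔ orderOf (k : G) = 2) ∧ (P (c.t * k) ↔ orderOf (k : G) = 2) := by
    intro k
    have hkt : (k : G) * c.t = c.t * k := c.K_comm k k.2
    have hord : orderOf (k : G) = 2 ↔ (k : G) * k = 1 ∧ (k : G) ≠ 1 := by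
      constructor
      · intro h
        exact ⟨by rw [← sq]; exact orderOf_dvd_iff_pow_eq_one.1 h.dvd, fun h1 => by simp [h1] at h⟩
      · rintro ⟨h1, h2⟩
        exact orderOf_eq_prime (by rw [sq]; exact h1) h2
    have htk : c.t * (k : G) * (c.t * k) = (k : G) * k := by
      rw [(show Commute (k : G) c.t from hkt).mul_mul_mul_comm, c.t_sq, one_mul]
    have hne : (k : G) ≠ c.t := fun h => c.t_notMem (h ▸ k.2)
    have hne2 : c.t * (k : G) ≠ 1 := fun h => hne ((eq_inv_of_mul_eq_one_right h).trans ht)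
    constructor
    · rw [hord]
      refine ⟨fun ⟨h1, h2, _, _⟩ => ⟨h1, h2⟩, fun ⟨h1, h2⟩ => ⟨h1, h2, ?_, hne⟩⟩
      rw [ht, hkt, mul_assoc, h1, mul_one]
    · rw [hord]
      constructor
      · rintro ⟨h1, -, -, h4⟩
        exact ⟨htk ▸ h1, fun h => h4 (by rw [h, mul_one])⟩
      · rintro ⟨h1, h2⟩
        refine ⟨by rw [htk]; exact h1, hne2, ?_, fun h => h2 (by simpa using h)⟩
        rw [ht, mul_assoc c.t (k : G) c.t, hkt, ← mul_assoc c.t c.t, c.t_sq, one_mul, ← mul_assoc, hkt,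
          mul_assoc, h1, mul_one]
  simp only [(hK _).1, (hK _).2, ← two_mul, ← Finset.mul_sum, Finset.sum_boole] at h
  have e1 : Nat.card {x // P x} = (X.filter P).card := by
    rw [Nat.card_eq_fintype_card]
    exact Fintype.card_of_subtype _ (fun x => by simp only [Finset.mem_filter]; exact ⟨fun h => h.2, fun h => ⟨hP x h, h⟩⟩)
  have e2 : Nat.card {x : G // x ∈ c.K ∧ orderOf x = 2} =
      (Finset.univ.filter fun k : c.K => orderOf (k : G) = 2).card := by
    rw [← Fintype.card_subtype, ← Nat.card_eq_fintype_card]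
    exact Nat.card_congr
      { toFun := fun x => ⟨⟨x.1, x.2.1⟩, x.2.2⟩
        invFun := fun x => ⟨x.1.1, x.1.2, x.2⟩
        left_inv := fun x => rfl
        right_inv := fun x => rfl }
  have h' : (X.filter P).card = 2 * (Finset.univ.filter fun k : c.K => orderOf (k : G) = 2).card := by
    exact_mod_cast h
  show Nat.card {x // P x} = q * (q - 1)
  rw [e1, h', ← e2]
  have h1 := c.K_inv
  have h2 := c.K_card
  have h3 := c.q_odd
  apply Nat.eq_of_mul_eq_mul_right (show 0 < q + 1 by omega)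
  rw [mul_assoc, h1, h2, mul_assoc, mul_comm (q - 1), ← Nat.sq_sub_sq q 1, one_pow]

end Ctx

end Cfsg.Agent.H82.Ree
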