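import Cfsg.Agent.H82.Ree.Setup
import Cfsg.Agent.H83.Involves

/-!
# Groups of Ree type: the four-group `V`, its centraliser and normaliser, and the 3-part of the order
-/

set_option autoImplicit false

namespace Cfsg.Agent.H82.Ree

/-- A subgroup containing an involution `t` which generates the 2-elements commuting with it has an odd
normal subgroup of index two. -/
theorem exists_odd_complement {G : Type*} [Group G] [Finite G] {t : G} (ht : t * t = 1) (ht1 : t ≠ 1)
    (L : Subgroup G) (htL : t ∈ L)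
    (hL : ∀ a ∈ L, (∃ k : ℕ, a ^ 2 ^ k = 1) → a * t = t * a → a = 1 ∨ a = t) :
    ∃ M : Subgroup G, M ≤ L ∧ L ≤ Subgroup.normalizer (M : Set G) ∧ Odd (Nat.card M) ∧
      (∀ a ∈ L, a ∈ M ∨ a * t ∈ M) ∧ Nat.card L = 2 * Nat.card M ∧ (∀ a ∈ L, Odd (orderOf a) → a ∈ M) := by
  classical
  haveI : Fact (Nat.Prime 2) := ⟨Nat.prime_two⟩
  set t' : L := ⟨t, htL⟩
  have ht2 : orderOf t' = 2 := orderOf_eq_prime (Subtype.ext (by rw [SubgroupClass.coe_pow, sq]; exact ht))
    fun h => ht1 (congrArg Subtype.val h)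
  have hp : IsPGroup 2 (Subgroup.zpowers t') := IsPGroup.of_card (n := 1) (by rw [Nat.card_zpowers, ht2, pow_one])
  obtain ⟨P, hP⟩ := hp.exists_le_sylow
  have htP : t' ∈ (P : Subgroup L) := hP (Subgroup.mem_zpowers _)
  -- a central involution of `P` is `t`
  haveI : Nontrivial (P : Subgroup L) := ⟨⟨⟨t', htP⟩, 1, fun h => ht1 (by simpa [t'] using congrArg (fun x : (P : Subgroup L) => ((x : L) : G)) h)⟩⟩
  have key : ∀ a : L, a ∈ (P : Subgroup L) → a * t' = t' * a → a = 1 ∨ a = t' := by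
    intro a ha hc
    obtain ⟨k, hk⟩ := P.2 ⟨a, ha⟩
    have hk' : a ^ 2 ^ k = 1 := congrArg Subtype.val hk
    rcases hL a a.2 ⟨k, congrArg Subtype.val hk'⟩ (congrArg Subtype.val hc) with h | h
    · exact Or.inl (Subtype.ext h)
    · exact Or.inr (Subtype.ext h)
  have htz : ∀ a : L, a ∈ (P : Subgroup L) → a * t' = t' * a := by
    haveI := IsPGroup.center_nontrivial P.2
    obtain ⟨⟨⟨z, hzP⟩, hz⟩, hz1⟩ := exists_ne (1 : Subgroup.center (P : Subgroup L))
    have hc : ∀ a : L, a ∈ (P : Subgroup L) → a * z = z * a := fun a ha =>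
      congrArg Subtype.val (Subgroup.mem_center_iff.1 hz ⟨a, ha⟩)
    rcases key z hzP (hc t' htP).symm with h | h
    · exact absurd (Subtype.ext (Subtype.ext h)) hz1
    · subst h; exact hc
  have hPeq : (P : Subgroup L) = Subgroup.zpowers t' := le_antisymm (fun a ha => by
    rcases key a ha (htz a ha) with h | h <;> rw [h]
    exacts [one_mem _, Subgroup.mem_zpowers _]) hP
  haveI hcyc : IsCyclic (P : Subgroup L) := by rw [hPeq]; infer_instance
  have hmin : (Nat.card L).minFac = 2 := (Nat.minFac_eq_two_iff _).2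
    (ht2 ▸ orderOf_dvd_natCard t')
  have hc := IsCyclic.isComplement' hmin hcyc
  set M0 := (MonoidHom.transferSylow P (hcyc.normalizer_le_centralizer hmin)).ker
  have hodd0 : Odd (Nat.card M0) := Nat.not_even_iff_odd.1 fun h =>
    MonoidHom.not_dvd_card_ker_transferSylow P (hcyc.normalizer_le_centralizer hmin) (even_iff_two_dvd.1 h)
  have hcard : Nat.card L = 2 * Nat.card M0 := by
    rw [← hc.card_mul, hPeq, Nat.card_zpowers, ht2, mul_comm]
  refine ⟨M0.map L.subtype, Subgroup.map_subtype_le _, ?_, ?_, ?_, ?_, ?_⟩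
  · intro a ha
    exact Subgroup.le_normalizer_map L.subtype ⟨⟨a, ha⟩, by rw [Subgroup.normalizer_eq_top]; trivial, rfl⟩
  · rwa [Subgroup.card_map_of_injective L.subtype_injective]
  · intro a ha
    obtain ⟨⟨m, p⟩, hmp⟩ := hc.2 ⟨a, ha⟩
    have hp' : (p : L) ∈ Subgroup.zpowers t' := hPeq ▸ p.2
    have ha' : a = ((m : L) : G) * ((p : L) : G) := (congrArg Subtype.val hmp).symm
    obtain ⟨i, hi⟩ := Subgroup.mem_zpowers_iff.1 hp'
    rcases Int.even_or_odd i with ⟨r, rfl⟩ | ⟨r, rfl⟩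
    · left
      have : (p : L) = 1 := by
        rw [← hi, zpow_add, ← (Commute.refl t').mul_zpow, show t' * t' = 1 from Subtype.ext ht, one_zpow]
      exact ⟨m, m.2, by rw [ha', this]; simp⟩
    · right
      have : (p : L) = t' := by
        rw [← hi, zpow_add, two_mul, zpow_add, ← (Commute.refl t').mul_zpow, show t' * t' = 1 from Subtype.ext ht,
          one_zpow, one_mul, zpow_one]
      exact ⟨m, m.2, by rw [ha', this, mul_assoc, show ((t' : L) : G) * t = 1 from ht, mul_one]; rfl⟩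
  · rw [Subgroup.card_map_of_injective L.subtype_injective]; exact hcard
  · intro a ha hodd
    obtain ⟨⟨m, p⟩, hmp⟩ := hc.2 ⟨a, ha⟩
    have h1 : (QuotientGroup.mk (⟨a, ha⟩ : L) : L ⧸ M0) ^ 2 = 1 := by
      have hi2 : M0.index = 2 := by
        have := M0.card_mul_index
        rw [hcard, mul_comm 2] at this
        exact Nat.eq_of_mul_eq_mul_left Nat.card_pos this
      have hp := pow_card_eq_one' (x := (QuotientGroup.mk (⟨a, ha⟩ : L) : L ⧸ M0))
      rwa [← Subgroup.index_eq_card, hi2] at hp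
    have h2 : orderOf (QuotientGroup.mk (⟨a, ha⟩ : L) : L ⧸ M0) ∣ orderOf a := by
      exact (orderOf_map_dvd (QuotientGroup.mk' M0) (⟨a, ha⟩ : L)).trans (dvd_of_eq (Subgroup.orderOf_mk a ha))
    have h3 := Nat.eq_one_of_dvd_coprimes (Nat.coprime_two_left.2 hodd) (orderOf_dvd_of_pow_eq_one h1) h2
    exact ⟨⟨a, ha⟩, (QuotientGroup.eq_one_iff _).1 (orderOf_eq_one_iff.1 h3), rfl⟩

namespace Ctx

variable {G : Type*} [Group G] {q o : ℕ} (c : Ctx G q o)
include c

theorem tk {k : G} (hk : k ∈ c.K) : c.t * k = k * c.t := (c.K_comm k hk).symm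

theorem tj : c.t * c.j = c.j * c.t := c.tk c.j_mem

theorem tw : c.t * c.w = c.w * c.t := c.tk c.w_mem

theorem q_odd : q % 8 = 3 ∧ 27 ≤ q ∧ 3 ∣ q := by
  obtain ⟨f, hf, rfl⟩ := c.hq
  have h3 : 3 ∣ 3 ^ f := dvd_pow_self 3 (by omega)
  have h27 : 3 ^ 3 ≤ 3 ^ f := Nat.pow_le_pow_right (by norm_num) hf
  have := c.ho
  have := Nat.odd_iff.1 c.o_odd
  refine ⟨by omega, by omega, h3⟩

theorem tK_notMem {k : G} (hk : k ∈ c.K) : c.t * k ∉ c.K := fun h =>
  c.t_notMem (by simpa using mul_mem h (inv_mem hk))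

/-- The torus part has odd order. -/
theorem T_pow {s : G} (hs : s ∈ c.T) : s ^ o = 1 := by
  have := Subgroup.orderOf_dvd_natCard c.T hs
  rw [c.T_card] at this
  exact orderOf_dvd_iff_pow_eq_one.1 this

theorem T_sq_eq_one {s : G} (hs : s ∈ c.T) (h : s * s = 1) : s = 1 := by
  have h2 : orderOf s ∣ 2 := orderOf_dvd_of_pow_eq_one (by rw [sq]; exact h)
  exact orderOf_eq_one_iff.1 (Nat.eq_one_of_dvd_coprimes (Nat.coprime_two_left.2 c.o_odd) h2
    (orderOf_dvd_of_pow_eq_one (c.T_pow hs)))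

theorem T_comm {a b : G} (ha : a ∈ c.T) (hb : b ∈ c.T) : a * b = b * a := by
  haveI := c.T_cyc
  exact congrArg Subtype.val ((IsCyclic.isMulCommutative (α := c.T)).is_comm.comm ⟨a, ha⟩ ⟨b, hb⟩)

/-- The abelian subgroup `A = V × T`. -/
def A : Subgroup G where
  carrier := {a | ∃ s ∈ c.T, a = s ∨ a = c.t * s ∨ a = c.j * s ∨ a = c.t * c.j * s}
  one_mem' := ⟨1, one_mem _, Or.inl rfl⟩
  mul_mem' := by
    rintro a b ⟨s, hs, ha⟩ ⟨r, hr, hb⟩
    have e1 : Commute c.t s := c.tk (c.T_le hs)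
    have e2 : Commute c.j s := c.jT s hs
    have e3 : Commute c.t c.j := c.tj
    refine ⟨s * r, mul_mem hs hr, ?_⟩
    rcases ha with h | h | h | h <;> rcases hb with h' | h' | h' | h' <;> subst a <;> subst b
    all_goals
      simp only [mul_assoc, ← e1.left_comm, ← e2.left_comm, e3.symm.left_comm]
      simp [← mul_assoc c.t c.t, c.t_sq, ← mul_assoc c.j c.j, c.j_sq]
  inv_mem' := by
    rintro a ⟨s, hs, ha⟩
    have e1 : Commute c.t s⁻¹ := (show Commute c.t s from c.tk (c.T_le hs)).inv_right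
    have e2 : Commute c.j s⁻¹ := (show Commute c.j s from c.jT s hs).inv_right
    have e3 : Commute c.t c.j := c.tj
    refine ⟨s⁻¹, inv_mem hs, ?_⟩
    rcases ha with h | h | h | h <;> subst a
    · exact Or.inl rfl
    · exact Or.inr (Or.inl (by rw [_root_.mul_inv_rev, inv_eq_of_mul_eq_one_right c.t_sq, e1.eq]))
    · exact Or.inr (Or.inr (Or.inl (by rw [_root_.mul_inv_rev, inv_eq_of_mul_eq_one_right c.j_sq, e2.eq])))
    · exact Or.inr (Or.inr (Or.inr (by
        rw [_root_.mul_inv_rev, _root_.mul_inv_rev, inv_eq_of_mul_eq_one_right c.t_sq,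
          inv_eq_of_mul_eq_one_right c.j_sq, ← e3.eq, ((e1.mul_left e2)).eq])))

theorem mem_A {a : G} : a ∈ c.A ↔ ∃ s ∈ c.T, a = s ∨ a = c.t * s ∨ a = c.j * s ∨ a = c.t * c.j * s := Iff.rfl

theorem T_le_A : c.T ≤ c.A := fun s hs => ⟨s, hs, Or.inl rfl⟩

theorem t_mem_A : c.t ∈ c.A := ⟨1, one_mem _, Or.inr (Or.inl (mul_one _).symm)⟩

theorem j_mem_A : c.j ∈ c.A := ⟨1, one_mem _, Or.inr (Or.inr (Or.inl (mul_one _).symm))⟩

theorem A_le_cent {a : G} (ha : a ∈ c.A) : a * c.t = c.t * a := by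
  obtain ⟨s, hs, h | h | h | h⟩ := ha <;> subst a
  · exact c.K_comm s (c.T_le hs)
  · rw [mul_assoc, c.K_comm s (c.T_le hs)]
  · exact c.K_comm _ (mul_mem c.j_mem (c.T_le hs))
  · rw [mul_assoc c.t, mul_assoc, c.K_comm _ (mul_mem c.j_mem (c.T_le hs))]

theorem A_comm {a b : G} (ha : a ∈ c.A) (hb : b ∈ c.A) : a * b = b * a := by
  have hgen : ∀ {x : G}, x ∈ c.A → Commute x c.t ∧ Commute x c.j ∧ ∀ r ∈ c.T, Commute x r := by
    intro x hx
    have hxt : Commute x c.t := c.A_le_cent hx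
    obtain ⟨s, hs, hxs⟩ := hx
    have e2 : Commute s c.j := (show Commute c.j s from c.jT s hs).symm
    have e3 : Commute c.t c.j := c.tj
    refine ⟨hxt, ?_, fun r hr => ?_⟩
    · rcases hxs with h | h | h | h <;> subst x
      exacts [e2, e3.mul_left e2, (Commute.refl _).mul_left e2, (e3.mul_left (Commute.refl _)).mul_left e2]
    · have f1 : Commute c.t r := c.tk (c.T_le hr)
      have f2 : Commute c.j r := c.jT r hr
      have f3 : Commute s r := c.T_comm hs hr
      rcases hxs with h | h | h | h <;> subst x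
      exacts [f3, f1.mul_left f3, f2.mul_left f3, (f1.mul_left f2).mul_left f3]
  obtain ⟨h1, h2, h3⟩ := hgen ha
  obtain ⟨r, hr, h | h | h | h⟩ := hb <;> subst b
  exacts [h3 r hr, h1.mul_right (h3 r hr), h2.mul_right (h3 r hr), (h1.mul_right h2).mul_right (h3 r hr)]

/-- `w` centralises `V` and inverts `T`. -/
theorem w_inv {s : G} (hs : s ∈ c.T) : c.w * s * c.w = s⁻¹ := by
  have := c.wT s hs
  rwa [inv_eq_of_mul_eq_one_right c.w_sq] at this

/-- Conjugation by `w` on `A`. -/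
theorem w_conj {a : G} (ha : a ∈ c.A) : c.w * a * c.w ∈ c.A := by
  have e1 : Commute c.w c.t := c.K_comm _ c.w_mem
  have e2 : Commute c.w c.j := c.wj
  obtain ⟨s, hs, h⟩ := ha
  refine ⟨s⁻¹, inv_mem hs, ?_⟩
  have hw := c.w_inv hs
  rcases h with h | h | h | h <;> subst a
  · exact Or.inl hw
  · right; left; rw [← mul_assoc c.w, e1.eq, mul_assoc c.t, mul_assoc c.t, hw]
  · right; right; left; rw [← mul_assoc c.w, e2.eq, mul_assoc c.j, mul_assoc c.j, hw]
  · right; right; right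
    rw [← mul_assoc c.w, (e1.mul_right e2).eq, mul_assoc (c.t * c.j), mul_assoc (c.t * c.j), hw]

/-- Elements of `C(t)` commuting with `s ∈ T#`. -/
theorem cent_ts {s : G} (hs : s ∈ c.T) (hs1 : s ≠ 1) {g : G} (hgt : g * c.t = c.t * g) (hgs : g * s = s * g) :
    g ∈ c.A := by
  rcases c.dec g hgt with h | h
  · obtain ⟨r, hr, e | e⟩ := c.cent_T s hs hs1 g h hgs <;> subst g
    exacts [⟨r, hr, Or.inl rfl⟩, ⟨r, hr, Or.inr (Or.inr (Or.inl rfl))⟩]
  · have hs' : c.t * g * s = s * (c.t * g) := by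
      rw [mul_assoc, hgs, ← mul_assoc, c.tk (c.T_le hs), mul_assoc]
    obtain ⟨r, hr, e | e⟩ := c.cent_T s hs hs1 _ h hs'
    all_goals have hg : g = c.t * (c.t * g) := by rw [← mul_assoc, c.t_sq, one_mul]
    · exact ⟨r, hr, Or.inr (Or.inl (by rw [hg, e]))⟩
    · exact ⟨r, hr, Or.inr (Or.inr (Or.inr (by rw [hg, e, mul_assoc])))⟩

/-- The centraliser of `V`. -/
theorem cent_V {g : G} (hgt : g * c.t = c.t * g) (hgj : g * c.j = c.j * g) : g ∈ c.A ∨ c.w * g ∈ c.A := by
  have hK : ∀ z ∈ c.K, z * c.j = c.j * z → z ∈ c.A ∨ c.w * z ∈ c.A := by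
    intro z hz hzj
    obtain ⟨s, hs, h | h | h | h⟩ := c.cent_j z hz hzj <;> subst z
    · exact Or.inl (c.T_le_A hs)
    · exact Or.inl (mul_mem c.j_mem_A (c.T_le_A hs))
    · right; rw [← mul_assoc, c.w_sq, one_mul]; exact c.T_le_A hs
    · right
      rw [← mul_assoc, ← mul_assoc, c.w_sq, one_mul]
      exact mul_mem c.j_mem_A (c.T_le_A hs)
  rcases c.dec g hgt with h | h
  · exact hK g h hgj
  · have hg : g = c.t * (c.t * g) := by rw [← mul_assoc, c.t_sq, one_mul]
    rcases hK _ h (by rw [mul_assoc, hgj, ← mul_assoc, c.tj, mul_assoc]) with h' | h'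
    · left; rw [hg]; exact mul_mem c.t_mem_A h'
    · right
      rw [hg, ← mul_assoc c.w c.t, ← c.tw, mul_assoc]
      exact mul_mem c.t_mem_A h'

/-- Elements of `C(t)` moving an element of `T#` into `T`. -/
theorem norm_t {s : G} (hs : s ∈ c.T) (hs1 : s ≠ 1) {g : G} (hgt : g * c.t = c.t * g)
    (hg : g * s * g⁻¹ ∈ c.T) : g ∈ c.A ∨ c.w * g ∈ c.A := by
  refine c.cent_V hgt ?_
  rcases c.dec g hgt with h | h
  · exact c.norm_T s hs hs1 g h hg
  · have e : c.t * g * s * (c.t * g)⁻¹ = g * s * g⁻¹ := by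
      rw [show c.t * g * s * (c.t * g)⁻¹ = c.t * (g * s * g⁻¹) * c.t⁻¹ by group, c.tk (c.T_le hg),
        mul_inv_cancel_right]
    have h2 := c.norm_T s hs hs1 _ h (e.symm ▸ hg)
    rw [mul_assoc, ← mul_assoc c.j, ← c.tj, mul_assoc] at h2
    exact mul_left_cancel h2

/-- Elements of `w A` are involutions. -/
theorem wA_sq {g : G} (hg : c.w * g ∈ c.A) : g * g = 1 := by
  have h := c.w_conj hg
  have e : g = c.w * (c.w * g) := by rw [← mul_assoc, c.w_sq, one_mul]
  obtain ⟨s, hs, hcase⟩ := hg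
  have e1 : Commute c.w c.t := c.K_comm _ c.w_mem
  have e2 : Commute c.w c.j := c.wj
  have hws : c.w * s * (c.w * s) = 1 := by
    rw [← mul_assoc, c.w_inv hs, inv_mul_cancel]
  have key : ∀ v : G, Commute c.w v → Commute s v → v * v = 1 → c.w * (v * s) * (c.w * (v * s)) = 1 := by
    intro v h1 h2 h3
    have h4 : c.w * (v * s) = v * (c.w * s) := by rw [← mul_assoc, h1.eq, mul_assoc]
    have h5 : Commute (c.w * s) v := h1.mul_left h2
    rw [h4]
    calc v * (c.w * s) * (v * (c.w * s)) = v * ((c.w * s) * v) * (c.w * s) := by group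
      _ = (v * v) * (c.w * s * (c.w * s)) := by rw [h5.eq]; group
      _ = 1 := by rw [h3, hws, one_mul]
  have f1 : Commute s c.t := c.K_comm s (c.T_le hs)
  have f2 : Commute s c.j := (show Commute c.j s from c.jT s hs).symm
  rw [e]
  rcases hcase with h' | h' | h' | h' <;> rw [h']
  · exact hws
  · exact key _ e1 f1 c.t_sq
  · exact key _ e2 f2 c.j_sq
  · refine key _ (e1.mul_right e2) (f1.mul_right f2) ?_
    rw [(show Commute c.j c.t from c.tj.symm).mul_mul_mul_comm, c.t_sq, c.j_sq, one_mul]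

/-- The three involutions of `V`, cycled by `y`. -/
def v : Fin 3 → G := ![c.t, c.j, c.t * c.j]

theorem v_zero : c.v 0 = c.t := rfl

theorem y_v (k : Fin 3) : c.y * c.v k * c.y⁻¹ = c.v (k + 1) := by
  fin_cases k
  · exact c.y_t
  · exact c.y_j
  · show c.y * (c.t * c.j) * c.y⁻¹ = c.t
    rw [show c.y * (c.t * c.j) * c.y⁻¹ = (c.y * c.t * c.y⁻¹) * (c.y * c.j * c.y⁻¹) by group, c.y_t, c.y_j,
      ← mul_assoc, ← c.tj, mul_assoc, c.j_sq, mul_one]

theorem v_mem (k : Fin 3) : c.v k ∈ c.A := by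
  fin_cases k
  exacts [c.t_mem_A, c.j_mem_A, mul_mem c.t_mem_A c.j_mem_A]

theorem v_conj_val (k : Fin 3) : c.y ^ (k : ℕ) * c.t * (c.y ^ (k : ℕ))⁻¹ = c.v k := by
  fin_cases k
  · show c.y ^ (0 : ℕ) * c.t * (c.y ^ (0 : ℕ))⁻¹ = c.t
    simp
  · show c.y ^ (1 : ℕ) * c.t * (c.y ^ (1 : ℕ))⁻¹ = c.j
    rw [pow_one]; exact c.y_t
  · show c.y ^ (2 : ℕ) * c.t * (c.y ^ (2 : ℕ))⁻¹ = c.t * c.j
    rw [sq, show c.y * c.y * c.t * (c.y * c.y)⁻¹ = c.y * (c.y * c.t * c.y⁻¹) * c.y⁻¹ by group, c.y_t, c.y_j]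

variable [Finite G]

/-- `y` normalises `A`. -/
theorem y_A {a : G} (ha : a ∈ c.A) : c.y * a * c.y⁻¹ ∈ c.A := by
  have hT : ∀ s ∈ c.T, c.y * s * c.y⁻¹ ∈ c.A := by
    intro s hs
    have hc : ∀ k, Commute (c.y * s * c.y⁻¹) (c.v k) := by
      intro k
      have h2 : c.v k = c.y * c.v (k - 1) * c.y⁻¹ := by rw [c.y_v, sub_add_cancel]
      rw [h2]
      exact (show Commute s (c.v (k - 1)) from c.A_comm (c.T_le_A hs) (c.v_mem _)).conj c.y
    rcases c.cent_V (hc 0).eq (hc 1).eq with h | h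
    · exact h
    · have h2 := c.wA_sq h
      have hs2 : s * s = 1 := by
        calc s * s = c.y⁻¹ * (c.y * s * c.y⁻¹ * (c.y * s * c.y⁻¹)) * c.y := by group
          _ = 1 := by rw [h2]; group
      rw [c.T_sq_eq_one hs hs2, mul_one, mul_inv_cancel]
      exact one_mem _
  have hv : ∀ k, c.y * c.v k * c.y⁻¹ ∈ c.A := fun k => by rw [c.y_v]; exact c.v_mem _
  obtain ⟨s, hs, h | h | h | h⟩ := ha <;> subst a
  · exact hT s hs
  all_goals rw [show ∀ x : G, c.y * (x * s) * c.y⁻¹ = (c.y * x * c.y⁻¹) * (c.y * s * c.y⁻¹) from fun x => by group]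
  exacts [mul_mem (hv 0) (hT s hs), mul_mem (hv 1) (hT s hs), mul_mem (hv 2) (hT s hs)]

/-- `y` normalises `T`. -/
theorem y_T {s : G} (hs : s ∈ c.T) : c.y * s * c.y⁻¹ ∈ c.T := by
  have hpow : (c.y * s * c.y⁻¹) ^ o = 1 := by rw [conj_pow, c.T_pow hs, mul_one, mul_inv_cancel]
  obtain ⟨r, hr, h⟩ := c.y_A (c.T_le_A hs)
  rcases h with h | h
  · rw [h]; exact hr
  exfalso
  have key : ∀ v : G, Commute v r → v * v = 1 → c.y * s * c.y⁻¹ = v * r → v = 1 := by
    intro v hv h2 he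
    rw [he, hv.mul_pow, c.T_pow hr, mul_one] at hpow
    obtain ⟨m, hm⟩ := c.o_odd
    rwa [hm, pow_add, pow_mul, sq, h2, one_pow, one_mul, pow_one] at hpow
  have f1 : Commute c.t r := c.tk (c.T_le hr)
  have f2 : Commute c.j r := c.jT r hr
  rcases h with h | h | h
  · exact c.t_ne (key _ f1 c.t_sq h)
  · exact c.j_ne (key _ f2 c.j_sq h)
  · have h1 := key _ (f1.mul_left f2) (by
      rw [(show Commute c.j c.t from c.tj.symm).mul_mul_mul_comm, c.t_sq, c.j_sq, one_mul]) h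
    exact c.t_notMem (by rw [eq_inv_of_mul_eq_one_left h1]; exact inv_mem c.j_mem)

theorem y_pow_T (i : ℕ) {s : G} (hs : s ∈ c.T) : c.y ^ i * s * (c.y ^ i)⁻¹ ∈ c.T := by
  induction i with
  | zero => simpa using hs
  | succ i ih =>
    rw [pow_succ', show c.y * c.y ^ i * s * (c.y * c.y ^ i)⁻¹ = c.y * (c.y ^ i * s * (c.y ^ i)⁻¹) * c.y⁻¹ by group]
    exact c.y_T ih

theorem y_pow_T' (i : ℕ) {s : G} (hs : s ∈ c.T) : (c.y ^ i)⁻¹ * s * c.y ^ i ∈ c.T := by
  have h : (c.y ^ i)⁻¹ = c.y ^ (i * (orderOf c.y - 1)) := by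
    refine inv_eq_of_mul_eq_one_right ?_
    obtain ⟨m, hm⟩ : ∃ m, orderOf c.y = m + 1 := ⟨orderOf c.y - 1, by have := orderOf_pos c.y; omega⟩
    rw [← pow_add, hm, Nat.add_sub_cancel, show i + i * m = (m + 1) * i by ring, ← hm, pow_mul,
      pow_orderOf_eq_one, one_pow]
  have := c.y_pow_T (i * (orderOf c.y - 1)) hs
  rwa [← h, inv_inv] at this

/-- The centraliser of an element `v s`, `v ∈ V#`, `s ∈ T#`, is `A`. -/
theorem cent_vs (k : Fin 3) {s : G} (hs : s ∈ c.T) (hs1 : s ≠ 1) {g : G}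
    (hgv : g * c.v k = c.v k * g) (hgs : g * s = s * g) : g ∈ c.A := by
  set n := c.y ^ (k : ℕ)
  have h1 : n⁻¹ * g * n * c.t = c.t * (n⁻¹ * g * n) := by
    rw [← c.v_conj_val k] at hgv
    calc n⁻¹ * g * n * c.t = n⁻¹ * (g * (n * c.t * n⁻¹)) * n := by group
      _ = n⁻¹ * (n * c.t * n⁻¹ * g) * n := by rw [hgv]
      _ = c.t * (n⁻¹ * g * n) := by group
  have h2 : n⁻¹ * g * n * (n⁻¹ * s * n) = n⁻¹ * s * n * (n⁻¹ * g * n) := by
    calc n⁻¹ * g * n * (n⁻¹ * s * n) = n⁻¹ * (g * s) * n := by group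
      _ = n⁻¹ * (s * g) * n := by rw [hgs]
      _ = _ := by group
  have h3 := c.cent_ts (c.y_pow_T' _ hs)
    (fun h => hs1 (by calc s = n * (n⁻¹ * s * n) * n⁻¹ := by group
                          _ = 1 := by rw [h]; group)) h1 h2
  have h4 : ∀ i : ℕ, ∀ a ∈ c.A, c.y ^ i * a * (c.y ^ i)⁻¹ ∈ c.A := by
    intro i
    induction i with
    | zero => intro a ha; simpa using ha
    | succ i ih =>
      intro a ha
      rw [pow_succ', show c.y * c.y ^ i * a * (c.y * c.y ^ i)⁻¹ = c.y * (c.y ^ i * a * (c.y ^ i)⁻¹) * c.y⁻¹ by group]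
      exact c.y_A (ih a ha)
  have h5 := h4 k _ h3
  rwa [show c.y ^ (k : ℕ) * (n⁻¹ * g * n) * (c.y ^ (k : ℕ))⁻¹ = g by simp only [n]; group] at h5

/-- The 2-elements of `C(t)` centralising a nontrivial element of `U` lie in `⟨t⟩`. -/
theorem two_of_cent_U {u : G} (hu : u ∈ c.U) (hu1 : u ≠ 1) {a : G} (ha : a * c.t = c.t * a)
    (hau : a * u = u * a) (h2 : ∃ k : ℕ, a ^ 2 ^ k = 1) : a = 1 ∨ a = c.t := by
  obtain ⟨k, hk⟩ := h2
  have hU : ∀ z ∈ c.U, z ^ 2 ^ k = 1 → z = 1 := fun z hz hzk =>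
    orderOf_eq_one_iff.1 (Nat.eq_one_of_dvd_coprimes
      (Nat.Coprime.pow_left k (by norm_num : Nat.Coprime 2 3))
      (orderOf_dvd_of_pow_eq_one hzk) (orderOf_dvd_of_pow_eq_one (c.U_pow z hz)))
  rcases c.dec a ha with h | h
  · exact Or.inl (hU a (c.cent_U u hu hu1 a h hau) hk)
  · have hu' : c.t * a * u = u * (c.t * a) := by rw [mul_assoc, hau, ← mul_assoc, c.tk (c.U_le hu), mul_assoc]
    rcases k with _ | k
    · rw [pow_zero, pow_one] at hk; exact Or.inl hk
    · have hta : (c.t * a) ^ 2 ^ (k + 1) = 1 := by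
        rw [(show Commute c.t a from ha.symm).mul_pow, hk, mul_one, pow_succ', pow_mul, sq, c.t_sq, one_pow]
      have := hU _ (c.cent_U u hu hu1 _ h hu') hta
      exact Or.inr (by rw [eq_inv_of_mul_eq_one_right this, inv_eq_of_mul_eq_one_right c.t_sq])

/-- Without a section `S₃`, the order of `G` has 3-part `q`. -/
theorem not_three_q_dvd (h3 : ¬ Cfsg.Involves (Equiv.Perm (Fin 3)) G) : ¬ 3 * q ∣ Nat.card G := by
  classical
  haveI : Fact (Nat.Prime 3) := ⟨Nat.prime_three⟩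
  haveI : Fact (Nat.Prime 2) := ⟨Nat.prime_two⟩
  intro hdiv
  obtain ⟨f, hf, hqf⟩ := c.hq
  have h27 := c.q_odd.2.1
  have hUp : IsPGroup 3 c.U := IsPGroup.of_card (n := f) (by rw [c.U_card, hqf])
  obtain ⟨P, hP⟩ := hUp.exists_le_sylow
  have hPlt : c.U < (P : Subgroup G) := by
    refine lt_of_le_of_ne hP fun h => ?_
    have h1 : 3 ^ (f + 1) ∣ Nat.card (P : Subgroup G) :=
      P.pow_dvd_card_of_pow_dvd_card (by rw [pow_succ', ← hqf]; exact hdiv)
    rw [← h, c.U_card, hqf] at h1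
    exact absurd ((Nat.pow_dvd_pow_iff_le_right (by norm_num)).1 h1) (by omega)
  haveI := P.2.isNilpotent
  have hlt : c.U.subgroupOf (P : Subgroup G) < ⊤ := by
    refine lt_top_iff_ne_top.2 fun h => hPlt.not_ge ?_
    exact Subgroup.subgroupOf_eq_top.1 h
  obtain ⟨⟨x, hxP⟩, hxN, hxU⟩ := SetLike.exists_of_lt
    (Group.normalizerCondition_of_isNilpotent _ hlt)
  have hxn : ∀ z ∈ c.U, x * z * x⁻¹ ∈ c.U := fun z hz =>
    Subgroup.mem_subgroupOf.1 ((Subgroup.mem_normalizer_iff.1 hxN ⟨z, hP hz⟩).1 (Subgroup.mem_subgroupOf.2 hz))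
  have hxU' : x ∉ c.U := fun h => hxU (Subgroup.mem_subgroupOf.2 h)
  obtain ⟨u, hu, hu1⟩ : ∃ u ∈ c.U, u ≠ 1 := by
    by_contra hcon
    push Not at hcon
    have hcu := c.U_card
    rw [(Subgroup.eq_bot_iff_forall _).2 hcon, Subgroup.card_bot] at hcu
    omega
  set L := Subgroup.centralizer (c.U : Set G) with hL
  have htL : c.t ∈ L := Subgroup.mem_centralizer_iff.2 fun z hz => c.K_comm z (c.U_le hz)
  obtain ⟨M, hML, hLM, hModd, hMdec, -, hMo⟩ := exists_odd_complement c.t_sq c.t_ne L htL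
    (fun a ha h2 hat => c.two_of_cent_U hu hu1 hat ((Subgroup.mem_centralizer_iff.1 ha u hu).symm) h2)
  -- `x` centralises `U`
  obtain ⟨i, hi⟩ := P.2 ⟨x, hxP⟩
  have hi' : x ^ 3 ^ i = 1 := congrArg Subtype.val hi
  have hxL : x ∈ L := by
    set t' := x * c.t * x⁻¹
    have ht'L : t' ∈ L := by
      refine Subgroup.mem_centralizer_iff.2 fun z hz => ?_
      obtain ⟨z', hz', rfl⟩ : ∃ z' ∈ c.U, x * z' * x⁻¹ = z := by
        let r : c.U → c.U := fun z => ⟨_, hxn z z.2⟩
        obtain ⟨z', hz'⟩ := Finite.injective_iff_surjective.1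
          (show Function.Injective r from fun a b e => Subtype.ext (by simpa [r] using congrArg Subtype.val e)) ⟨z, hz⟩
        exact ⟨z', z'.2, congrArg Subtype.val hz'⟩
      calc x * z' * x⁻¹ * t' = x * (z' * c.t) * x⁻¹ := by simp only [t']; group
        _ = x * (c.t * z') * x⁻¹ := by rw [c.K_comm z' (c.U_le hz')]
        _ = t' * (x * z' * x⁻¹) := by simp only [t']; group
    -- `t'` and `t` are conjugate in `L`
    have hsyl : ∃ g ∈ L, g * t' * g⁻¹ = c.t := by
      have hs : ∀ a ∈ L, orderOf a = 2 → IsPGroup 2 (Subgroup.zpowers a) := fun a _ ha =>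
        IsPGroup.of_card (n := 1) (by rw [Nat.card_zpowers, ha, pow_one])
      have ht2 : orderOf c.t = 2 := orderOf_eq_prime (by rw [sq]; exact c.t_sq) c.t_ne
      have ht'2 : orderOf t' = 2 := by
        rw [show t' = MulAut.conj x c.t from rfl]
        exact (orderOf_injective (MulAut.conj x).toMonoidHom (MulAut.conj x).injective c.t).trans ht2
      have ht2L : IsPGroup 2 (Subgroup.zpowers (⟨c.t, htL⟩ : L)) :=
        IsPGroup.of_card (n := 1) (by rw [Nat.card_zpowers, Subgroup.orderOf_mk, ht2, pow_one])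
      have ht'2L : IsPGroup 2 (Subgroup.zpowers (⟨t', ht'L⟩ : L)) :=
        IsPGroup.of_card (n := 1) (by rw [Nat.card_zpowers, Subgroup.orderOf_mk, ht'2, pow_one])
      obtain ⟨R, hR⟩ := ht2L.exists_le_sylow
      obtain ⟨R', hR'⟩ := ht'2L.exists_le_sylow
      obtain ⟨g, hg⟩ := MulAction.exists_smul_eq L R' R
      have hm : g * ⟨t', ht'L⟩ * g⁻¹ ∈ (R : Subgroup L) := by
        rw [← hg, Sylow.coe_subgroup_smul, Subgroup.pointwise_smul_def]
        exact ⟨_, hR' (Subgroup.mem_zpowers _), rfl⟩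
      refine ⟨g, g.2, ?_⟩
      -- an element of a 2-subgroup of `L` containing `t` commutes with it
      have hcm : (g * ⟨t', ht'L⟩ * g⁻¹ : L) * ⟨c.t, htL⟩ = ⟨c.t, htL⟩ * (g * ⟨t', ht'L⟩ * g⁻¹) := by
        have := c.two_comm _ (R.2.map L.subtype) _ (Subgroup.mem_map_of_mem _ hm) _
          (Subgroup.mem_map_of_mem _ (hR (Subgroup.mem_zpowers _)))
        exact Subtype.ext this
      have h4 := c.two_of_cent_U hu hu1 (a := (g : G) * t' * (g : G)⁻¹) (congrArg Subtype.val hcm)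
        ((Subgroup.mem_centralizer_iff.1 (mul_mem (mul_mem g.2 ht'L) (inv_mem g.2)) u hu).symm)
        ⟨1, by rw [conj_pow, pow_one, ← ht'2, pow_orderOf_eq_one, mul_one, mul_inv_cancel]⟩
      refine h4.resolve_left fun h => c.t_ne ?_
      rw [conj_eq_one_iff, conj_eq_one_iff] at h
      exact h
    obtain ⟨g, hgL, hg⟩ := hsyl
    set z := g * x with hz
    have hzt : z * c.t = c.t * z := by
      rw [← mul_inv_eq_iff_eq_mul, hz, show g * x * c.t * (g * x)⁻¹ = g * t' * g⁻¹ by simp only [t']; group, hg]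
    have hzu : z * u * z⁻¹ ∈ c.U := by
      have hc : g * (x * u * x⁻¹) * g⁻¹ = x * u * x⁻¹ := by
        rw [← (Subgroup.mem_centralizer_iff.1 hgL _ (hxn u hu)), mul_inv_cancel_right]
      rw [hz, show g * x * u * (g * x)⁻¹ = g * (x * u * x⁻¹) * g⁻¹ by group, hc]
      exact hxn u hu
    -- so `x` lies in the product of `L` and `B`
    obtain ⟨b, hb, hxb⟩ : ∃ b ∈ c.B, ∃ l ∈ L, x = l * b := by
      have hxz : x = g⁻¹ * z := by rw [hz]; group
      rcases c.dec z hzt with h | h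
      · exact ⟨z, c.B_mem u hu hu1 z h hzu, g⁻¹, inv_mem hgL, hxz⟩
      · refine ⟨c.t * z, c.B_mem u hu hu1 _ h ?_, g⁻¹ * c.t, mul_mem (inv_mem hgL) htL, ?_⟩
        · rw [show c.t * z * u * (c.t * z)⁻¹ = c.t * (z * u * z⁻¹) * c.t⁻¹ by group, c.tk (c.U_le hzu),
            mul_inv_cancel_right]
          exact hzu
        · rw [mul_assoc, ← mul_assoc c.t c.t, c.t_sq, one_mul]; exact hxz
    obtain ⟨l, hl, hxlb⟩ := hxb
    -- pass to the quotient by `L` inside the normaliser of `U`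
    set N := Subgroup.normalizer (c.U : Set G) with hN
    have hmemN : ∀ a : G, (∀ z ∈ c.U, a * z * a⁻¹ ∈ c.U) → a ∈ N := fun a ha =>
      Subgroup.mem_normalizer_iff.2 fun z => ⟨ha z, fun hz => by
        let r : c.U → c.U := fun z => ⟨_, ha z z.2⟩
        obtain ⟨z', hz'⟩ := Finite.injective_iff_surjective.1
          (show Function.Injective r from fun a b e => Subtype.ext (by simpa [r] using congrArg Subtype.val e)) ⟨_, hz⟩
        have : (z' : G) = z := by simpa [r] using congrArg Subtype.val hz'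
        exact this ▸ z'.2⟩
    have hxN' : x ∈ N := hmemN x hxn
    have hbN : b ∈ N := hmemN b (c.B_norm b hb)
    have hlN : l ∈ N := by
      have : l = x * b⁻¹ := by rw [hxlb, mul_inv_cancel_right]
      rw [this]; exact mul_mem hxN' (inv_mem hbN)
    haveI : (L.subgroupOf N).Normal := by rw [hL, hN]; infer_instance
    let π := QuotientGroup.mk' (L.subgroupOf N)
    have hpx : π ⟨x, hxN'⟩ = π ⟨b, hbN⟩ := by
      rw [show (⟨x, hxN'⟩ : N) = ⟨l, hlN⟩ * ⟨b, hbN⟩ from Subtype.ext hxlb, map_mul,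
        show π ⟨l, hlN⟩ = 1 from (QuotientGroup.eq_one_iff _).2 hl, one_mul]
    have hb1 : π ⟨b, hbN⟩ ^ ((q - 1) / 2) = 1 := by
      have hUB : c.U ≤ c.B := by
        intro z hz
        rcases eq_or_ne z 1 with rfl | hz1
        · exact one_mem _
        · exact c.B_mem z hz hz1 z (c.U_le hz) (by rw [mul_inv_cancel_right]; exact hz)
      haveI : (c.U.subgroupOf c.B).Normal :=
        ⟨fun z hz a => Subgroup.mem_subgroupOf.2 (c.B_norm a a.2 z (Subgroup.mem_subgroupOf.1 hz))⟩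
      have hidx : (c.U.subgroupOf c.B).index = (q - 1) / 2 := by
        have h1 := (c.U.subgroupOf c.B).card_mul_index
        rw [Nat.card_congr (Subgroup.subgroupOfEquivOfLe hUB).toEquiv, c.U_card] at h1
        have h2 := c.B_card
        rw [← h1, mul_left_comm] at h2
        have := Nat.eq_of_mul_eq_mul_left (by omega) h2
        omega
      have h := pow_card_eq_one' (x := ((⟨b, hb⟩ : c.B) : c.B ⧸ c.U.subgroupOf c.B))
      rw [← Subgroup.index_eq_card, hidx, ← QuotientGroup.mk_pow, QuotientGroup.eq_one_iff,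
        Subgroup.mem_subgroupOf] at h
      rw [← map_pow]
      refine (QuotientGroup.eq_one_iff _).2 (Subgroup.mem_subgroupOf.2 ?_)
      exact Subgroup.mem_centralizer_iff.2 fun z hz => c.U_comm z hz _ h
    have hx1 : π ⟨x, hxN'⟩ ^ 3 ^ i = 1 := by
      rw [← map_pow, show (⟨x, hxN'⟩ : N) ^ 3 ^ i = 1 from Subtype.ext hi', map_one]
    have hcop : Nat.Coprime (3 ^ i) ((q - 1) / 2) := Nat.Coprime.pow_left i
      ((Nat.prime_three.coprime_iff_not_dvd).2 fun h => by
        obtain ⟨r, hr⟩ := h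
        obtain ⟨s, hs⟩ := c.q_odd.2.2
        have := c.q_odd.1
        omega)
    have : π ⟨x, hxN'⟩ = 1 := orderOf_eq_one_iff.1 (Nat.eq_one_of_dvd_coprimes hcop
      (orderOf_dvd_of_pow_eq_one hx1) (orderOf_dvd_of_pow_eq_one (hpx ▸ hb1)))
    exact Subgroup.mem_subgroupOf.1 ((QuotientGroup.eq_one_iff _).1 this)
  -- a Sylow 3-subgroup of `L` normalised by `t` contains `U` properly
  have hUL : c.U ≤ L := fun z hz => Subgroup.mem_centralizer_iff.2 fun z' hz' => c.U_comm z' hz' z hz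
  have hUx : IsPGroup 3 (c.U ⊔ Subgroup.zpowers x : Subgroup G) :=
    P.2.to_le (sup_le hP (Subgroup.zpowers_le.2 hxP))
  have hle : c.U ⊔ Subgroup.zpowers x ≤ M := by
    refine sup_le (fun z hz => hMo z (hUL hz) ?_) (Subgroup.zpowers_le.2 (hMo x hxL ?_))
    · exact (Nat.Coprime.odd_of_left (Nat.Coprime.coprime_dvd_right
        (orderOf_dvd_of_pow_eq_one (c.U_pow z hz)) (by norm_num : Nat.Coprime 2 3)))
    · exact Nat.Coprime.odd_of_left (Nat.Coprime.coprime_dvd_right (orderOf_dvd_of_pow_eq_one hi')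
        (Nat.Coprime.pow_right _ (by norm_num : Nat.Coprime 2 3)))
  have hsub : ((c.U ⊔ Subgroup.zpowers x).subgroupOf M : Subgroup M).map M.subtype = c.U ⊔ Subgroup.zpowers x :=
    Subgroup.map_subgroupOf_eq_of_le hle
  obtain ⟨R, hR⟩ := (hUx.comap_of_injective M.subtype M.subtype_injective :
    IsPGroup 3 ((c.U ⊔ Subgroup.zpowers x).subgroupOf M)).exists_le_sylow
  -- Frattini: some involution of `L` normalises `R`
  have htM : c.t ∈ Subgroup.normalizer (M : Set G) := hLM htL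
  haveI : (M.subgroupOf L).Normal := Subgroup.normal_subgroupOf_of_le_normalizer hLM
  let e : M.subgroupOf L ≃* M := Subgroup.subgroupOfEquivOfLe hML
  let R0 : Sylow 3 (M.subgroupOf L) := R.comapOfInjective e.toMonoidHom e.injective
    (by rw [MonoidHom.range_eq_top.2 e.surjective]; exact le_top)
  have hsup := Sylow.normalizer_sup_eq_top (N := M.subgroupOf L) R0
  set R1 : Subgroup L := (R0 : Subgroup (M.subgroupOf L)).map (M.subgroupOf L).subtype
  have htmem : (⟨c.t, htL⟩ : L) ∈ Subgroup.normalizer (R1 : Set L) ⊔ M.subgroupOf L := by rw [hsup]; trivial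
  rw [Subgroup.mem_sup_of_normal_right] at htmem
  obtain ⟨n, hn, m, hm, hnm⟩ := htmem
  set R2 : Subgroup G := (R : Subgroup M).map M.subtype with hR2
  have hR1 : R1.map L.subtype = R2 := by
    ext g
    constructor
    · rintro ⟨_, ⟨a, ha, rfl⟩, rfl⟩
      exact ⟨e a, ha, rfl⟩
    · rintro ⟨a, ha, rfl⟩
      exact ⟨_, ⟨e.symm a, show e (e.symm a) ∈ (R : Subgroup M) by rwa [MulEquiv.apply_symm_apply], rfl⟩, rfl⟩
  have hnR : (n : G) ∈ Subgroup.normalizer (R2 : Set G) := hR1 ▸ Subgroup.le_normalizer_map L.subtype ⟨n, hn, rfl⟩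
  have hnM : (n : G) ∉ M := by
    intro h
    have htM' : c.t ∈ M := by
      rw [show c.t = (n : G) * (m : G) from (congrArg Subtype.val hnm).symm]
      exact mul_mem h hm
    have := Subgroup.orderOf_dvd_natCard M htM'
    rw [orderOf_eq_prime (by rw [sq]; exact c.t_sq) c.t_ne] at this
    exact (Nat.not_even_iff_odd.2 hModd) (even_iff_two_dvd.2 this)
  obtain ⟨a, k, hk, hord⟩ := Nat.exists_eq_two_pow_mul_odd (orderOf_pos (n : G)).ne'
  set n' := (n : G) ^ k with hn'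
  have hn'R : n' ∈ Subgroup.normalizer (R2 : Set G) := Subgroup.pow_mem _ hnR k
  have hn'L : n' ∈ L := Subgroup.pow_mem _ n.2 k
  have hn'2 : n' ^ 2 ^ a = 1 := by rw [hn', ← pow_mul, mul_comm, ← hord, pow_orderOf_eq_one]
  have hn'1 : n' ≠ 1 := fun h => hnM (hMo _ n.2 (hk.of_dvd_nat (orderOf_dvd_of_pow_eq_one h)))
  have hn'sq : n' * n' = 1 := c.two_sq _ (IsPGroup.of_card_dvd_pow (n := a) (by
    rw [Nat.card_zpowers]; exact orderOf_dvd_of_pow_eq_one hn'2)) n' (Subgroup.mem_zpowers _)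
  have hUR : c.U ⊔ Subgroup.zpowers x ≤ R2 := hsub ▸ Subgroup.map_mono hR
  -- if `n'` centralised `R2`, then `x` would lie in `U`
  by_cases hcent : ∀ r ∈ R2, n' * r = r * n'
  · apply hxU'
    have hR2p : IsPGroup 3 R2 := R.2.map _
    have hxn : n' * x = x * n' := hcent x (hUR (Subgroup.mem_sup_right (Subgroup.mem_zpowers x)))
    -- `n'` is conjugate to `t` in `L`
    have hn'o : orderOf n' = 2 := orderOf_eq_prime (by rw [sq]; exact hn'sq) hn'1
    obtain ⟨m', hm', hn'm⟩ : ∃ m' ∈ M, n' = m' * c.t := by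
      rcases hMdec n' hn'L with h | h
      · have := Subgroup.orderOf_dvd_natCard M h
        rw [hn'o] at this
        exact absurd (even_iff_two_dvd.2 this) (Nat.not_even_iff_odd.2 hModd)
      · exact ⟨n' * c.t, h, by rw [mul_assoc, c.t_sq, mul_one]⟩
    -- the odd element `m'` is inverted by `t`; halve it
    have hinv : c.t * m' * c.t = m'⁻¹ := by
      refine eq_inv_of_mul_eq_one_left ?_
      rw [show c.t * m' * c.t * m' = c.t * (m' * c.t * (m' * c.t)) * c.t⁻¹ by group, ← hn'm, hn'sq]; group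
    obtain ⟨b, hb⟩ := hModd
    set h := m' ^ (b + 1) with hh
    have hsq : h * h = m' := by
      have hcard := Subgroup.orderOf_dvd_natCard M hm'
      rw [hh, ← pow_add, show b + 1 + (b + 1) = Nat.card M + 1 by omega, pow_succ,
        orderOf_dvd_iff_pow_eq_one.1 hcard, one_mul]
    have hhinv : c.t * h * c.t = h⁻¹ := by
      have e2 : c.t⁻¹ = c.t := inv_eq_of_mul_eq_one_right c.t_sq
      nth_rewrite 2 [← e2]
      rw [hh, ← conj_pow, e2, hinv, inv_pow]
    have hconj : h * c.t * h⁻¹ = n' := by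
      rw [hn'm, ← hsq, ← hhinv]
      calc h * c.t * (c.t * h * c.t) = h * (c.t * c.t) * h * c.t := by group
        _ = h * h * c.t := by rw [c.t_sq, mul_one]
    have hhL : h ∈ L := Subgroup.pow_mem _ (hML hm') _
    set x' := h⁻¹ * x * h with hx'
    have hx't : x' * c.t = c.t * x' := by
      rw [← hconj] at hxn
      calc x' * c.t = h⁻¹ * (x * (h * c.t * h⁻¹)) * h := by rw [hx']; group
        _ = h⁻¹ * (h * c.t * h⁻¹ * x) * h := by rw [← hxn]
        _ = c.t * x' := by rw [hx']; group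
    have hx'u : x' * u = u * x' :=
      ((Subgroup.mem_centralizer_iff.1 (mul_mem (mul_mem (inv_mem hhL) hxL) hhL)) u hu).symm
    have hx'3 : x' ^ 3 ^ i = 1 := by
      have := conj_pow (i := 3 ^ i) (a := h⁻¹) (b := x)
      rw [inv_inv] at this
      rw [hx', this, hi', mul_one, inv_mul_cancel]
    have hx'U : x' ∈ c.U := by
      rcases c.dec x' hx't with hK | hK
      · exact c.cent_U u hu hu1 x' hK hx'u
      · exfalso
        have h6 := c.cent_U u hu hu1 _ hK (by rw [mul_assoc, hx'u, ← mul_assoc, c.tk (c.U_le hu), mul_assoc])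
        have h7 := c.U_pow _ h6
        rw [(show Commute c.t x' from hx't.symm).mul_pow, pow_succ c.t 2, sq, c.t_sq, one_mul] at h7
        have h8 : orderOf c.t ∣ 3 ^ i := orderOf_dvd_of_pow_eq_one (by
          have h9 : c.t = (x' ^ 3)⁻¹ := eq_inv_of_mul_eq_one_left h7
          rw [h9, inv_pow, ← pow_mul, mul_comm, pow_mul, hx'3, one_pow, inv_one])
        rw [orderOf_eq_prime (by rw [sq]; exact c.t_sq) c.t_ne] at h8
        exact absurd (Nat.prime_two.dvd_of_dvd_pow h8) (by norm_num)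
    have : x = x' := by
      have hc := Subgroup.mem_centralizer_iff.1 hhL x' hx'U
      calc x = h * x' * h⁻¹ := by rw [hx']; group
        _ = x' := by rw [← hc, mul_inv_cancel_right]
    rw [this]; exact hx'U
  · push Not at hcent
    obtain ⟨r, hr, hne⟩ := hcent
    apply h3
    set z := n' * r * n'⁻¹ * r⁻¹ with hz
    have hz1 : z ≠ 1 := fun h => hne (by
      rw [hz, mul_inv_eq_one, mul_inv_eq_iff_eq_mul] at h
      exact h)
    have hzR : z ∈ R2 := mul_mem ((Subgroup.mem_normalizer_iff.1 hn'R r).1 hr) (inv_mem hr)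
    have hzinv : n' * z * n'⁻¹ = z⁻¹ := by
      have e2 : n'⁻¹ = n' := inv_eq_of_mul_eq_one_right hn'sq
      rw [hz, e2]
      calc n' * (n' * r * n' * r⁻¹) * n' = (n' * n') * (r * n' * r⁻¹ * n') := by group
        _ = r * n' * r⁻¹ * n' := by rw [hn'sq, one_mul]
        _ = (n'⁻¹ * r * n'⁻¹ * r⁻¹)⁻¹ := by group
        _ = (n' * r * n' * r⁻¹)⁻¹ := by rw [e2]
    obtain ⟨k', hk'⟩ := IsPGroup.iff_orderOf.1 (R.2.map M.subtype) ⟨z, hzR⟩
    rw [← Subgroup.orderOf_coe] at hk'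
    change orderOf z = 3 ^ k' at hk'
    rcases k' with _ | k'
    · exact absurd (orderOf_eq_one_iff.1 hk') hz1
    refine H83.involves_s3_of_inverted (x := z ^ 3 ^ k') (t := n') ?_ ?_ ?_
    · rw [← pow_mul, ← pow_succ, ← hk', pow_orderOf_eq_one]
    · intro h
      have := orderOf_dvd_of_pow_eq_one h
      rw [hk'] at this
      exact absurd ((Nat.pow_dvd_pow_iff_le_right (by norm_num)).1 this) (by omega)
    · rw [← conj_pow, hzinv, inv_pow]

end Ctx

end Cfsg.Agent.H82.Ree
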