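import Cfsg.Agent.H82.Ree.Local
import Cfsg.Agent.H50.InvolutionCAField
import Mathlib.GroupTheory.FixedPointFree

/-!
# Groups of Ree type without a section `S₃`: the element `y` moves the torus part `T`
-/

set_option autoImplicit false

namespace Cfsg.Agent.H82.Ree

open Matrix MatrixGroups

/-- `PSL₂` of characteristic two has a section `S₃`. -/
theorem involves_s3_psl_char_two {F : Type*} [Field F] [Fintype F] (h2 : (2 : F) = 0) :
    Cfsg.Involves (Equiv.Perm (Fin 3)) PSL(2, F) := by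
  classical
  have hneg : (-1 : F) = 1 := by linear_combination (-1 : F) * h2
  let x : SL(2, F) := H6.sl2 0 1 1 1 (by linear_combination hneg)
  let τ : SL(2, F) := H6.sl2 0 1 1 0 (by linear_combination hneg)
  have hx3 : x ^ 3 = 1 := by
    rw [pow_three]
    apply H6.sl2_ext <;> simp [x, H6.sl2_mul, one_add_one_eq_two, h2]
  have hrel : τ * x * τ * x = 1 := by
    apply H6.sl2_ext <;> simp [x, τ, H6.sl2_mul, one_add_one_eq_two, h2]
  have hτ : τ * τ = 1 := by
    apply H6.sl2_ext <;> simp [τ, H6.sl2_mul]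
  refine H83.involves_s3_of_inverted (x := H6.π x) (t := H6.π τ) ?_ ?_ ?_
  · rw [← map_pow, hx3, map_one]
  · intro h
    have hs := (H6.π_eq_one_iff_isScal.1 h).2.1
    simp [x] at hs
  · rw [← map_inv, ← map_inv, ← map_mul, ← map_mul]
    congr 1
    rw [inv_eq_of_mul_eq_one_right hτ]
    exact eq_inv_of_mul_eq_one_left hrel

namespace Ctx

variable {G : Type*} [Group G] {q o : ℕ} (c : Ctx G q o)
include c

theorem T_ne : ∃ s ∈ c.T, s ≠ 1 := by
  by_contra hcon
  push Not at hcon
  have hc := c.T_card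
  rw [(Subgroup.eq_bot_iff_forall _).2 hcon, Subgroup.card_bot] at hc
  have := c.o_seven
  omega

theorem w_notMem_A : c.w ∉ c.A := by
  intro hw
  obtain ⟨s, hs, hs1⟩ := c.T_ne
  have h := c.A_comm hw (c.T_le_A hs)
  have h2 := c.wT s hs
  rw [h, mul_inv_cancel_right] at h2
  exact hs1 (c.T_sq_eq_one hs (by nth_rewrite 2 [h2]; rw [mul_inv_cancel]))

/-- `A` has order `4 o`. -/
theorem A_card [Finite G] : Nat.card c.A = 4 * o := by
  let f : Fin 4 × c.T → c.A := fun p => ⟨(![1, c.t, c.j, c.t * c.j] p.1) * (p.2 : G), by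
    rcases p with ⟨k, s⟩
    refine ⟨s, s.2, ?_⟩
    fin_cases k
    exacts [Or.inl (one_mul _), Or.inr (Or.inl rfl), Or.inr (Or.inr (Or.inl rfl)), Or.inr (Or.inr (Or.inr rfl))]⟩
  have hf : Function.Bijective f := by
    constructor
    · rintro ⟨k, s⟩ ⟨l, r⟩ h
      have h' : (![1, c.t, c.j, c.t * c.j] k) * (s : G) = (![1, c.t, c.j, c.t * c.j] l) * (r : G) := congrArg Subtype.val h
      set V4 : Fin 4 → G := ![1, c.t, c.j, c.t * c.j] with hV4
      have hVc : ∀ k, ∀ a ∈ c.T, Commute (V4 k) a := by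
        intro k a ha
        have f1 : Commute c.t a := c.tk (c.T_le ha)
        have f2 : Commute c.j a := c.jT a ha
        fin_cases k
        exacts [Commute.one_left a, f1, f2, f1.mul_left f2]
      have hVsq : ∀ k, V4 k * V4 k = 1 := by
        intro k
        fin_cases k
        · simp [hV4]
        · exact c.t_sq
        · exact c.j_sq
        · show c.t * c.j * (c.t * c.j) = 1
          rw [(show Commute c.j c.t from c.tj.symm).mul_mul_mul_comm, c.t_sq, c.j_sq, one_mul]
      have hVc2 : Commute (V4 k) (V4 l) := by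
        have hmem : ∀ k, V4 k ∈ c.A := fun k => by
          fin_cases k
          exacts [one_mem _, c.t_mem_A, c.j_mem_A, mul_mem c.t_mem_A c.j_mem_A]
        exact c.A_comm (hmem k) (hmem l)
      have e : (s : G) * (r : G)⁻¹ = V4 k * V4 l := by
        calc (s : G) * (r : G)⁻¹ = V4 k * V4 k * (s * (r : G)⁻¹) := by rw [hVsq, one_mul]
          _ = V4 k * (V4 k * s) * (r : G)⁻¹ := by group
          _ = V4 k * V4 l := by rw [h']; group
      have hsr : (s : G) * (r : G)⁻¹ = 1 := c.T_sq_eq_one (mul_mem s.2 (inv_mem r.2)) (by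
        rw [e, hVc2.symm.mul_mul_mul_comm, hVsq, hVsq, one_mul])
      have hsr' : (s : G) = r := mul_inv_eq_one.1 hsr
      have hkl : V4 k = V4 l := by rw [hsr'] at h'; exact mul_right_cancel h'
      refine Prod.ext ?_ (Subtype.ext hsr')
      have ht1 := c.t_ne
      have hj1 := c.j_ne
      have htj : c.t ≠ c.j := fun e => c.t_notMem (e ▸ c.j_mem)
      have htj1 : c.t * c.j ≠ 1 := fun e => htj (by
        rw [eq_inv_of_mul_eq_one_left e, inv_eq_of_mul_eq_one_right c.j_sq])
      fin_cases k <;> fin_cases l <;> first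
        | rfl
        | (exfalso; simp [hV4, ht1, hj1, htj, htj.symm, htj1, ht1.symm, hj1.symm, htj1.symm] at hkl)
    · rintro ⟨a, s, hs, h | h | h | h⟩ <;> subst a
      exacts [⟨(0, ⟨s, hs⟩), Subtype.ext (one_mul _)⟩, ⟨(1, ⟨s, hs⟩), rfl⟩, ⟨(2, ⟨s, hs⟩), rfl⟩,
        ⟨(3, ⟨s, hs⟩), rfl⟩]
  rw [← Nat.card_eq_of_bijective f hf, Nat.card_prod, Nat.card_fin, c.T_card]

theorem A_pow {a : G} (ha : a ∈ c.A) : a ^ (4 * o) = 1 := by
  have hp : ∀ x : G, x * x = 1 → x ^ (4 * o) = 1 := fun x hx => by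
    rw [show 4 * o = 2 * (2 * o) by ring, pow_mul, sq, hx, one_pow]
  obtain ⟨s, hs, h | h | h | h⟩ := ha <;> subst a
  all_goals have hs' : s ^ (4 * o) = 1 := by rw [mul_comm, pow_mul, c.T_pow hs, one_pow]
  · exact hs'
  · rw [(show Commute c.t s from c.tk (c.T_le hs)).mul_pow, hp _ c.t_sq, hs', one_mul]
  · rw [(show Commute c.j s from c.jT s hs).mul_pow, hp _ c.j_sq, hs', one_mul]
  · rw [((show Commute c.t s from c.tk (c.T_le hs)).mul_left (show Commute c.j s from c.jT s hs)).mul_pow,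
      hp _ (by rw [(show Commute c.j c.t from c.tj.symm).mul_mul_mul_comm, c.t_sq, c.j_sq, one_mul]), hs', one_mul]

/-- An element of `A` of odd order lies in `T`. -/
theorem mem_T_of_odd {a : G} (ha : a ∈ c.A) (hodd : Odd (orderOf a)) : a ∈ c.T := by
  have h4 : a ^ (4 * o) = 1 := c.A_pow ha
  have ho : orderOf a ∣ o := (Nat.Coprime.dvd_of_dvd_mul_left
    ((Nat.coprime_two_right.2 hodd).pow_right 2) (orderOf_dvd_of_pow_eq_one h4))
  have hpow : a ^ o = 1 := orderOf_dvd_iff_pow_eq_one.1 ho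
  obtain ⟨s, hs, h | h | h | h⟩ := ha
  · exact h ▸ hs
  all_goals exfalso
  all_goals
    obtain ⟨m, hm⟩ := c.o_odd
    have key : ∀ v : G, Commute v s → v * v = 1 → a = v * s → v = 1 := by
      intro v hv h2 he
      rw [he, hv.mul_pow, c.T_pow hs, mul_one, hm, pow_add, pow_mul, sq, h2, one_pow, one_mul, pow_one] at hpow
      exact hpow
    have f1 : Commute c.t s := c.tk (c.T_le hs)
    have f2 : Commute c.j s := c.jT s hs
  · exact c.t_ne (key _ f1 c.t_sq h)
  · exact c.j_ne (key _ f2 c.j_sq h)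
  · have h1 := key _ (f1.mul_left f2) (by
      rw [(show Commute c.j c.t from c.tj.symm).mul_mul_mul_comm, c.t_sq, c.j_sq, one_mul]) h
    exact c.t_notMem (by rw [eq_inv_of_mul_eq_one_left h1]; exact inv_mem c.j_mem)

/-- An element of `A` of square one is one of `1, v 0, v 1, v 2`. -/
theorem v_of_sq {a : G} (ha : a ∈ c.A) (h2 : a * a = 1) : a = 1 ∨ ∃ k, a = c.v k := by
  obtain ⟨s, hs, h⟩ := ha
  have key : ∀ x : G, x * x = 1 → Commute x s → a = x * s → s = 1 := by
    intro x hx hc he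
    refine c.T_sq_eq_one hs ?_
    rw [he, hc.symm.mul_mul_mul_comm, hx, one_mul] at h2
    exact h2
  have f1 : Commute c.t s := c.tk (c.T_le hs)
  have f2 : Commute c.j s := c.jT s hs
  rcases h with h | h | h | h
  · left; rw [h, c.T_sq_eq_one hs (h ▸ h2)]
  · right; exact ⟨0, by rw [h, key _ c.t_sq f1 h, mul_one]; rfl⟩
  · right; exact ⟨1, by rw [h, key _ c.j_sq f2 h, mul_one]; rfl⟩
  · right
    refine ⟨2, ?_⟩
    rw [h, key _ (by rw [(show Commute c.j c.t from c.tj.symm).mul_mul_mul_comm, c.t_sq, c.j_sq, one_mul])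
      (f1.mul_left f2) h, mul_one]
    rfl

theorem v_sq (k : Fin 3) : c.v k * c.v k = 1 := by
  fin_cases k
  · exact c.t_sq
  · exact c.j_sq
  · show c.t * c.j * (c.t * c.j) = 1
    rw [(show Commute c.j c.t from c.tj.symm).mul_mul_mul_comm, c.t_sq, c.j_sq, one_mul]

theorem v_ne (k : Fin 3) : c.v k ≠ 1 := by
  intro h
  have := c.v_conj_val k
  rw [h, conj_eq_one_iff] at this
  exact c.t_ne this

theorem v_inj : Function.Injective c.v := by
  have h01 : c.v 0 ≠ c.v 1 := fun e => c.t_notMem (show c.t ∈ c.K from (show c.t = c.j from e) ▸ c.j_mem)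
  intro k l h
  have sh : ∀ a b : Fin 3, c.v a = c.v b → c.v (a + 1) = c.v (b + 1) := fun a b e => by
    rw [← c.y_v, ← c.y_v, e]
  by_contra hne
  have h1 := sh _ _ h
  have h2 := sh _ _ h1
  fin_cases k <;> fin_cases l <;> first
    | exact hne rfl
    | exact h01 h | exact h01 h.symm | exact h01 h1 | exact h01 h1.symm | exact h01 h2 | exact h01 h2.symm

variable [Finite G]

set_option maxHeartbeats 1000000 in
/-- Without a section `S₃`, an element inducing `v k ↦ v (k+1)` does not centralise `T`. -/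
theorem exists_moved (h3 : ¬ Cfsg.Involves (Equiv.Perm (Fin 3)) G) {g : G}
    (hg : ∀ k, g * c.v k * g⁻¹ = c.v (k + 1)) : ∃ s ∈ c.T, g * s ≠ s * g := by
  classical
  by_contra hcon
  push Not at hcon
  haveI : Fact (Nat.Prime 2) := ⟨Nat.prime_two⟩
  haveI : Fact (Nat.Prime 3) := ⟨Nat.prime_three⟩
  obtain ⟨s₁, hs₁, hs₁1⟩ := c.T_ne
  set W := Subgroup.centralizer (c.T : Set G) with hW
  have hgW : g ∈ W := Subgroup.mem_centralizer_iff.2 fun s hs => (hcon s hs).symm
  have hAW : c.A ≤ W := fun a ha => Subgroup.mem_centralizer_iff.2 fun s hs => c.A_comm (c.T_le_A hs) ha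
  have hWs : ∀ {r : G}, r ∈ W → ∀ s ∈ c.T, r * s = s * r := fun hr s hs =>
    (Subgroup.mem_centralizer_iff.1 hr s hs).symm
  have hcentW : ∀ {r : G} (k : Fin 3), r ∈ W → r * c.v k = c.v k * r → r ∈ c.A := fun k hr hv =>
    c.cent_vs k hs₁ hs₁1 hv (hWs hr s₁ hs₁)
  -- the Sylow subgroup of `W` and the quotient by `T`
  have hv4 : ∀ P : Subgroup G, IsPGroup 2 P → c.t ∈ P → P ≤ W → ∀ a ∈ P, a = 1 ∨ ∃ k, a = c.v k :=
    fun P hP ht hPW a ha => c.v_of_sq (hcentW 0 (hPW ha) (c.two_comm P hP a ha c.t ht)) (c.two_sq P hP a ha)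
  haveI hTn : (c.T.subgroupOf W).Normal := by
    refine ⟨fun z hz r => ?_⟩
    rw [Subgroup.mem_subgroupOf] at hz ⊢
    rw [Subgroup.coe_mul, Subgroup.coe_mul, Subgroup.coe_inv, hWs r.2 _ hz, mul_inv_cancel_right]
    exact hz
  set π := QuotientGroup.mk' (c.T.subgroupOf W)
  have hπ : Function.Surjective π := QuotientGroup.mk'_surjective _
  have hkerπ : ∀ z : W, π z = 1 ↔ (z : G) ∈ c.T := fun z => QuotientGroup.eq_one_iff z
  have hnorm : ∀ r ∈ W, ∀ k, ∃ l, r * c.v k * r⁻¹ = c.v l := by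
    let t' : W := ⟨c.t, hAW c.t_mem_A⟩
    have ht' : IsPGroup 2 (Subgroup.zpowers t') := IsPGroup.of_card_dvd_pow (n := 1) (by
      rw [Nat.card_zpowers, pow_one]
      exact orderOf_dvd_of_pow_eq_one (Subtype.ext (by rw [SubgroupClass.coe_pow, sq]; exact c.t_sq)))
    obtain ⟨P, hP⟩ := ht'.exists_le_sylow
    have hPval : ∀ a : W, a ∈ (P : Subgroup W) → (a : G) = 1 ∨ ∃ k, (a : G) = c.v k := fun a ha =>
      hv4 _ (P.2.map W.subtype) ⟨t', hP (Subgroup.mem_zpowers _), rfl⟩ (Subgroup.map_subtype_le _) _ ⟨a, ha, rfl⟩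
    have hvP : ∀ k, (⟨c.v k, hAW (c.v_mem k)⟩ : W) ∈ (P : Subgroup W) := by
      have hsub : (P : Subgroup W) ≤ (Subgroup.closure (Set.range c.v)).subgroupOf W := by
        intro a ha
        rw [Subgroup.mem_subgroupOf]
        rcases hPval a ha with h | ⟨k, h⟩ <;> rw [h]
        exacts [one_mem _, Subgroup.subset_closure ⟨k, rfl⟩]
      haveI : IsMulCommutative (Subgroup.closure (Set.range c.v)) := Subgroup.isMulCommutative_closure (by
        rintro _ ⟨a, rfl⟩ _ ⟨b, rfl⟩; exact c.A_comm (c.v_mem a) (c.v_mem b))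
      have hQ : IsPGroup 2 ((Subgroup.closure (Set.range c.v)).subgroupOf W) := by
        intro x
        refine ⟨1, Subtype.ext (Subtype.ext ?_)⟩
        have hx : ((x : W) : G) ∈ Subgroup.closure (Set.range c.v) := x.2
        show ((x : W) : G) ^ 2 ^ 1 = 1
        rw [pow_one]
        generalize ((x : W) : G) = y at hx ⊢
        induction hx using Subgroup.closure_induction with
        | mem y hy => obtain ⟨k, rfl⟩ := hy; rw [sq]; exact c.v_sq k
        | one => simp
        | mul y z hy hz h1 h2 =>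
          have hyz : Commute y z := congrArg Subtype.val
            (IsMulCommutative.is_comm.comm (⟨y, hy⟩ : Subgroup.closure (Set.range c.v)) ⟨z, hz⟩)
          rw [hyz.mul_pow, h1, h2, one_mul]
        | inv y _ h => rw [inv_pow, h, inv_one]
      intro k
      rw [← P.3 hQ hsub, Subgroup.mem_subgroupOf]
      exact Subgroup.subset_closure ⟨k, rfl⟩
    set PX := P.mapSurjective hπ
    have hPX : ∀ x, x ∈ (PX : Subgroup (W ⧸ c.T.subgroupOf W)) ↔
        x = 1 ∨ ∃ k, x = π ⟨c.v k, hAW (c.v_mem k)⟩ := by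
      intro x
      rw [Sylow.coe_mapSurjective, Subgroup.mem_map]
      constructor
      · rintro ⟨a, ha, rfl⟩
        rcases hPval a ha with h | ⟨k, h⟩
        · left; rw [show a = 1 from Subtype.ext h, map_one]
        · exact Or.inr ⟨k, congrArg π (Subtype.ext h)⟩
      · rintro (rfl | ⟨k, rfl⟩)
        exacts [⟨1, one_mem _, map_one _⟩, ⟨_, hvP k, rfl⟩]
    by_cases hn : (PX : Subgroup (W ⧸ c.T.subgroupOf W)).Normal
    · intro r hr k
      have hm := hn.conj_mem _ ((hPX _).2 (Or.inr ⟨k, rfl⟩)) (π ⟨r, hr⟩)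
      rw [← map_inv, ← map_mul, ← map_mul] at hm
      have hsq : r * c.v k * r⁻¹ * (r * c.v k * r⁻¹) = 1 := by
        rw [show r * c.v k * r⁻¹ * (r * c.v k * r⁻¹) = r * (c.v k * c.v k) * r⁻¹ by group, c.v_sq, mul_one,
          mul_inv_cancel]
      have hA : r * c.v k * r⁻¹ ∈ c.A := by
        rcases (hPX _).1 hm with h | ⟨l, h⟩
        · exact c.T_le_A ((hkerπ _).1 h)
        · rw [QuotientGroup.mk'_eq_mk'] at h
          obtain ⟨z, hz, hzl⟩ := h
          have he : r * c.v k * r⁻¹ * (z : G) = c.v l := congrArg Subtype.val hzl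
          rw [eq_mul_inv_of_mul_eq he]
          exact mul_mem (c.v_mem l) (inv_mem (c.T_le_A hz))
      exact (c.v_of_sq hA hsq).resolve_left fun h => c.v_ne k (conj_eq_one_iff.1 h)
    · exfalso
      apply h3
      -- `W / T` satisfies the hypothesis of the CA-theorem
      have hCA : H50.InvolutionCA PX := by
        have hvX1 : ∀ k, π ⟨c.v k, hAW (c.v_mem k)⟩ ≠ 1 := by
          intro k h
          exact c.v_ne k (c.T_sq_eq_one ((hkerπ _).1 h) (c.v_sq k))
        refine ⟨fun hcyc => ?_, hn, fun x hx => ?_⟩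
        · -- two different elements of square one
          obtain ⟨⟨z, hz⟩, hgen⟩ := hcyc.exists_generator
          have hz2 : z * z = 1 := by
            rcases (hPX z).1 hz with rfl | ⟨k, rfl⟩
            · simp
            · rw [← map_mul, show (⟨c.v k, hAW (c.v_mem k)⟩ : W) * ⟨c.v k, hAW (c.v_mem k)⟩ = 1 from
                Subtype.ext (c.v_sq k), map_one]
          have hall : ∀ k, π ⟨c.v k, hAW (c.v_mem k)⟩ = z := by
            intro k
            obtain ⟨i, hi⟩ := Subgroup.mem_zpowers_iff.1 (hgen ⟨_, (hPX _).2 (Or.inr ⟨k, rfl⟩)⟩)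
            have hi' : z ^ i = π ⟨c.v k, hAW (c.v_mem k)⟩ := congrArg Subtype.val hi
            rcases Int.even_or_odd i with ⟨d, rfl⟩ | ⟨d, rfl⟩
            · rw [_root_.zpow_add, ← (Commute.refl z).mul_zpow, hz2, _root_.one_zpow] at hi'
              exact absurd hi'.symm (hvX1 k)
            · rw [_root_.zpow_add, two_mul, _root_.zpow_add, ← (Commute.refl z).mul_zpow, hz2,
                _root_.one_zpow, one_mul, zpow_one] at hi'
              exact hi'.symm
          have h01 := (hall 0).trans (hall 1).symm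
          rw [QuotientGroup.mk'_eq_mk'] at h01
          obtain ⟨s, hs, he⟩ := h01
          have he' : c.v 0 * (s : G) = c.v 1 := congrArg Subtype.val he
          have hs1 : (s : G) = 1 := c.T_sq_eq_one hs (by
            have hc : Commute (c.v 0) (c.v 1) := c.A_comm (c.v_mem 0) (c.v_mem 1)
            rw [eq_inv_mul_of_mul_eq he', inv_eq_of_mul_eq_one_right (c.v_sq 0), hc.symm.mul_mul_mul_comm,
              c.v_sq, c.v_sq, one_mul])
          rw [hs1, mul_one] at he'
          exact absurd (c.v_inj he') (by decide)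
        · obtain ⟨r, rfl⟩ := hπ x
          have hr2 : (r : G) * r ∈ c.T := by
            have h2 : π r * π r = 1 := by
              rw [← sq]; exact orderOf_dvd_iff_pow_eq_one.1 hx.dvd
            rw [← map_mul] at h2
            exact (hkerπ _).1 h2
          set r' := r ^ o
          have hr' : π r' = π r := by
            obtain ⟨d, hd⟩ := c.o_odd
            rw [map_pow]
            calc π r ^ o = π r ^ (2 * d + 1) := congrArg (fun n : ℕ => π r ^ n) hd
              _ = π r := by rw [pow_succ, pow_mul, orderOf_dvd_iff_pow_eq_one.1 hx.dvd, one_pow, one_mul]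
          have hr'2 : orderOf r' = 2 := by
            refine orderOf_eq_prime (Subtype.ext ?_) fun h => ?_
            · rw [SubgroupClass.coe_pow, SubgroupClass.coe_pow, ← pow_mul, mul_comm, pow_mul, sq]
              exact c.T_pow hr2
            · rw [h, map_one] at hr'
              rw [← hr', orderOf_one] at hx
              exact absurd hx (by norm_num)
          obtain ⟨R, hR⟩ := (IsPGroup.of_card (n := 1) (by rw [Nat.card_zpowers, hr'2, pow_one]) :
            IsPGroup 2 (Subgroup.zpowers r')).exists_le_sylow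
          obtain ⟨a, ha⟩ := MulAction.exists_smul_eq W R P
          have haP : a * r' * a⁻¹ ∈ (P : Subgroup W) := by
            rw [← ha, Sylow.coe_subgroup_smul, Subgroup.pointwise_smul_def]
            exact ⟨_, hR (Subgroup.mem_zpowers _), rfl⟩
          obtain ⟨k, hk⟩ : ∃ k, ((a * r' * a⁻¹ : W) : G) = c.v k := by
            refine (hPval _ haP).resolve_left fun h => ?_
            have h' : r' = 1 := conj_eq_one_iff.1 (Subtype.ext h)
            rw [h', orderOf_one] at hr'2
            exact absurd hr'2 (by norm_num)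
          -- centraliser of the image of `v k`
          have hcen : ∀ z, z * π ⟨c.v k, hAW (c.v_mem k)⟩ = π ⟨c.v k, hAW (c.v_mem k)⟩ * z →
              ∃ b : W, (b : G) ∈ c.A ∧ π b = z := by
            intro z hz
            obtain ⟨b, rfl⟩ := hπ z
            refine ⟨b, hcentW k b.2 ?_, rfl⟩
            rw [← map_mul, ← map_mul, QuotientGroup.mk'_eq_mk'] at hz
            obtain ⟨s, hs, he⟩ := hz
            have he' : (b : G) * c.v k * (s : G) = c.v k * b := congrArg Subtype.val he
            have hcs : Commute (c.v k) (s : G) := c.A_comm (c.v_mem k) (c.T_le_A hs)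
            have hs1 : (s : G) = 1 := c.T_sq_eq_one hs (by
              have e1 : c.v k * (s : G) = (b : G)⁻¹ * c.v k * b := by
                rw [mul_assoc (b : G)⁻¹, ← he']; group
              have e2 : c.v k * (s : G) * (c.v k * (s : G)) = 1 := by
                rw [e1, show (b : G)⁻¹ * c.v k * b * ((b : G)⁻¹ * c.v k * b) = (b : G)⁻¹ * (c.v k * c.v k) * b by
                  group, c.v_sq, mul_one, inv_mul_cancel]
              rwa [hcs.symm.mul_mul_mul_comm, c.v_sq, one_mul] at e2)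
            rw [hs1, mul_one] at he'
            exact he'
          have hsq1 : ∀ b : W, (b : G) ∈ c.A → π b * π b = 1 := by
            intro b hb
            obtain ⟨s, hs, h⟩ := hb
            rw [← map_mul, hkerπ]
            show (b : G) * b ∈ c.T
            have f1 : Commute s c.t := c.K_comm s (c.T_le hs)
            have f2 : Commute s c.j := (show Commute c.j s from c.jT s hs).symm
            rcases h with h | h | h | h <;> rw [h]
            · exact mul_mem hs hs
            · rw [f1.mul_mul_mul_comm, c.t_sq, one_mul]; exact mul_mem hs hs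
            · rw [f2.mul_mul_mul_comm, c.j_sq, one_mul]; exact mul_mem hs hs
            · rw [(f1.mul_right f2).mul_mul_mul_comm, (show Commute c.j c.t from c.tj.symm).mul_mul_mul_comm,
                c.t_sq, c.j_sq, one_mul, one_mul]
              exact mul_mem hs hs
          have hconjC : ∀ z, z * π r = π r * z →
              (π a * z * (π a)⁻¹) * π ⟨c.v k, hAW (c.v_mem k)⟩ =
                π ⟨c.v k, hAW (c.v_mem k)⟩ * (π a * z * (π a)⁻¹) := by
            intro z hz
            have e : π ⟨c.v k, hAW (c.v_mem k)⟩ = π a * π r * (π a)⁻¹ := by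
              rw [← hr', ← map_inv, ← map_mul, ← map_mul]
              exact congrArg π (Subtype.ext hk.symm)
            rw [e]
            calc π a * z * (π a)⁻¹ * (π a * π r * (π a)⁻¹) = π a * (z * π r) * (π a)⁻¹ := by group
              _ = π a * (π r * z) * (π a)⁻¹ := by rw [hz]
              _ = π a * π r * (π a)⁻¹ * (π a * z * (π a)⁻¹) := by group
          refine ⟨⟨⟨fun z z' => Subtype.ext ?_⟩⟩, fun z hz => ?_⟩
          · obtain ⟨b, hb, hb'⟩ := hcen _ (hconjC z (Subgroup.mem_centralizer_singleton_iff.1 z.2))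
            obtain ⟨b', hb2, hb2'⟩ := hcen _ (hconjC z' (Subgroup.mem_centralizer_singleton_iff.1 z'.2))
            have := congrArg π (show b * b' = b' * b from Subtype.ext (c.A_comm hb hb2))
            rw [map_mul, map_mul, hb', hb2'] at this
            show (z : W ⧸ c.T.subgroupOf W) * z' = z' * z
            simpa [mul_assoc] using congrArg (fun w => (π a)⁻¹ * w * π a) this
          · obtain ⟨b, hb, hb'⟩ := hcen _ (hconjC z (Subgroup.mem_centralizer_singleton_iff.1 hz))
            have := hsq1 b hb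
            rw [hb', show π a * z * (π a)⁻¹ * (π a * z * (π a)⁻¹) = π a * (z ^ 2) * (π a)⁻¹ by
              rw [sq]; group] at this
            exact conj_eq_one_iff.1 this
      obtain ⟨F, hF, hFin, hFcard, ⟨φ⟩⟩ := hCA.is_psl_two
      have h2F : (2 : F) = 0 := by
        obtain ⟨k, hk⟩ := (PX.2).exists_card_eq
        rcases k with _ | k
        · rw [pow_zero] at hk
          have := Fintype.one_lt_card (α := F)
          omega
        · have heven : Fintype.card F % 2 = 0 := by rw [hFcard, hk, pow_succ]; simp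
          haveI := FiniteField.even_card_iff_char_two.2 heven |> fun h => ringChar.of_eq h
          exact CharTwo.two_eq_zero
      exact H83.involves_of_subgroup (H83.involves_of_surjective_hom π hπ
        (H83.involves_of_surjective_hom φ.toMonoidHom φ.surjective (involves_s3_psl_char_two h2F)))
  -- the shift of an element of `W`
  have hgk : ∀ i : ℕ, ∀ k, g ^ i * c.v k * (g ^ i)⁻¹ = c.v (k + Fin.ofNat 3 i) := by
    intro i
    induction i with
    | zero => intro k; simp
    | succ i ih =>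
      intro k
      rw [pow_succ', show g * g ^ i * c.v k * (g * g ^ i)⁻¹ = g * (g ^ i * c.v k * (g ^ i)⁻¹) * g⁻¹ by group,
        ih, hg, add_assoc]
      congr 2
      apply Fin.ext
      simp [Fin.val_add, Fin.ofNat, Nat.add_mod]
  have hdecW : ∀ r ∈ W, ∃ i : Fin 3, (g ^ (i : ℕ))⁻¹ * r ∈ c.A := by
    intro r hr
    obtain ⟨l, hl⟩ := hnorm r hr 0
    refine ⟨l, hcentW 0 (mul_mem (inv_mem (Subgroup.pow_mem _ hgW _)) hr) ?_⟩
    have h := hgk l 0
    rw [zero_add, show Fin.ofNat 3 (l : ℕ) = l from Fin.ext (by simp [Fin.ofNat, Nat.mod_eq_of_lt l.2])] at h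
    refine mul_inv_eq_iff_eq_mul.1 ?_
    calc (g ^ (l : ℕ))⁻¹ * r * c.v 0 * ((g ^ (l : ℕ))⁻¹ * r)⁻¹
        = (g ^ (l : ℕ))⁻¹ * (r * c.v 0 * r⁻¹) * g ^ (l : ℕ) := by group
      _ = (g ^ (l : ℕ))⁻¹ * (g ^ (l : ℕ) * c.v 0 * (g ^ (l : ℕ))⁻¹) * g ^ (l : ℕ) := by rw [hl, h]
      _ = c.v 0 := by group
  have hg3 : g ^ 3 ∈ c.A := hcentW 0 (Subgroup.pow_mem _ hgW 3) (by
    have h := hgk 3 0
    rw [show Fin.ofNat 3 3 = (0 : Fin 3) from rfl, add_zero] at h
    exact mul_inv_eq_iff_eq_mul.1 h)
  set m := g ^ (4 * o) with hm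
  have hm3 : m ^ 3 = 1 := by rw [hm, ← pow_mul, mul_comm, pow_mul, c.A_pow hg3]
  have hmW : m ∈ W := Subgroup.pow_mem _ hgW _
  have hmt : m * c.t ≠ c.t * m := by
    intro h
    have h1 := hgk (4 * o) 0
    rw [zero_add] at h1
    have h2 : c.v (Fin.ofNat 3 (4 * o)) = c.v 0 := by
      rw [← h1]; exact mul_inv_eq_iff_eq_mul.2 h
    have h4 : (Fin.ofNat 3 (4 * o)).val = 0 := congrArg Fin.val (c.v_inj h2)
    simp [Fin.ofNat] at h4
    have := c.o_three
    omega
  -- an involution inverting `T`, centralising `V` and `m`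
  obtain ⟨e, heA, hem⟩ : ∃ e : G, c.w * e ∈ c.A ∧ m * e = e * m := by
    let E := {x : G // c.w * x ∈ c.A}
    have hEcard : Nat.card E = 4 * o := by
      rw [← c.A_card]
      exact Nat.card_congr
        { toFun := fun x => ⟨c.w * x.1, x.2⟩
          invFun := fun a => ⟨c.w * a, by rw [← mul_assoc, c.w_sq, one_mul]; exact a.2⟩
          left_inv := fun x => Subtype.ext (by show c.w * (c.w * x.1) = x.1; rw [← mul_assoc, c.w_sq, one_mul])
          right_inv := fun a => Subtype.ext (by show c.w * (c.w * a.1) = a.1; rw [← mul_assoc, c.w_sq, one_mul]) }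
    obtain ⟨i, hi⟩ : ∃ i, ∀ k, m * c.v k * m⁻¹ = c.v (k + i) := ⟨_, hgk (4 * o)⟩
    have hmA : ∀ a ∈ c.A, m * a * m⁻¹ ∈ c.A := by
      rintro a ⟨s, hs, h⟩
      have hms : m * s * m⁻¹ = s := by rw [hWs hmW s hs, mul_inv_cancel_right]
      have key : ∀ k, m * (c.v k * s) * m⁻¹ ∈ c.A := fun k => by
        rw [show m * (c.v k * s) * m⁻¹ = (m * c.v k * m⁻¹) * (m * s * m⁻¹) by group, hi, hms]
        exact mul_mem (c.v_mem _) (c.T_le_A hs)
      rcases h with h | h | h | h <;> rw [h]
      exacts [hms.symm ▸ c.T_le_A hs, key 0, key 1, key 2]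
    have hstab : ∀ r ∈ Subgroup.zpowers m, ∀ x : E, c.w * (r * x.1 * r⁻¹) ∈ c.A := by
      intro r hr
      obtain ⟨d, rfl⟩ : ∃ d : ℕ, m ^ d = r := by
        obtain ⟨d, -, hd⟩ := Finset.mem_image.1 (mem_zpowers_iff_mem_range_orderOf.1 hr)
        exact ⟨d, hd⟩
      induction d with
      | zero => intro x; simpa using x.2
      | succ d ih =>
        intro x
        rw [pow_succ', show m * m ^ d * x.1 * (m * m ^ d)⁻¹ = m * (m ^ d * x.1 * (m ^ d)⁻¹) * m⁻¹ by group]
        set z := m ^ d * x.1 * (m ^ d)⁻¹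
        have hzA : c.w * z ∈ c.A := ih (Subgroup.pow_mem _ (Subgroup.mem_zpowers m) d) x
        have hzv : ∀ k, Commute z (c.v k) := by
          intro k
          have e : z = c.w * (c.w * z) := by rw [← mul_assoc, c.w_sq, one_mul]
          rw [e]
          refine Commute.mul_left ?_ (c.A_comm hzA (c.v_mem k))
          fin_cases k
          exacts [c.K_comm _ c.w_mem, c.wj, (show Commute c.w c.t from c.K_comm _ c.w_mem).mul_right c.wj]
        have hv : ∀ k, Commute (m * z * m⁻¹) (c.v k) := by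
          intro k
          rw [show c.v k = m * c.v (k - i) * m⁻¹ by rw [hi, sub_add_cancel]]
          exact (hzv (k - i)).conj m
        rcases c.cent_V (hv 0).eq (hv 1).eq with h | h
        · exfalso
          apply c.w_notMem_A
          have h' : z ∈ c.A := by
            have h5 := hmA _ (hmA _ h)
            have e : m * (m * (m * z * m⁻¹) * m⁻¹) * m⁻¹ = m ^ 3 * z * (m ^ 3)⁻¹ := by
              rw [pow_three]; group
            rw [e, hm3, one_mul, inv_one, mul_one] at h5
            exact h5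
          have := mul_mem hzA (inv_mem h')
          rwa [mul_inv_cancel_right] at this
        · exact h
    let act : MulAction (Subgroup.zpowers m) E :=
      { smul := fun r x => ⟨(r : G) * x.1 * (r : G)⁻¹, hstab r r.2 x⟩
        one_smul := fun x => Subtype.ext (by show ((1 : Subgroup.zpowers m) : G) * x.1 * _ = x.1; simp)
        mul_smul := fun a b x => Subtype.ext (by
          show ((a * b : Subgroup.zpowers m) : G) * x.1 * _ = (a : G) * ((b : G) * x.1 * (b : G)⁻¹) * (a : G)⁻¹
          rw [Subgroup.coe_mul]; group) }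
    have hp3 : IsPGroup 3 (Subgroup.zpowers m) := IsPGroup.of_card_dvd_pow (n := 1) (by
      rw [Nat.card_zpowers, pow_one]; exact orderOf_dvd_of_pow_eq_one hm3)
    obtain ⟨x, hx⟩ := hp3.nonempty_fixed_point_of_prime_not_dvd_card E (by
      rw [hEcard]
      intro h
      exact c.o_three ((Nat.Coprime.dvd_mul_left (by norm_num : Nat.Coprime 3 4)).1 h))
    refine ⟨x.1, x.2, ?_⟩
    have := congrArg Subtype.val (hx ⟨m, Subgroup.mem_zpowers m⟩)
    exact mul_inv_eq_iff_eq_mul.1 this
  have hee : e * e = 1 := c.wA_sq heA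
  have he1 : e ≠ 1 := fun h => c.w_notMem_A (by simpa [h] using heA)
  have heT : ∀ s ∈ c.T, e * s * e = s⁻¹ := by
    intro s hs
    have hc : c.w * e * s = s * (c.w * e) := c.A_comm heA (c.T_le_A hs)
    calc e * s * e = c.w * c.w * e * s * e := by rw [c.w_sq, one_mul]
      _ = c.w * (c.w * e * s) * e := by group
      _ = c.w * (s * (c.w * e)) * e := by rw [hc]
      _ = c.w * s * c.w * (e * e) := by group
      _ = s⁻¹ := by rw [hee, mul_one, c.w_inv hs]
  -- move `e` to `t` and `m` into `U`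
  obtain ⟨h, hh⟩ := isConj_iff.1 (c.conj_t e (orderOf_eq_prime (by rw [sq]; exact hee) he1))
  set m1 := h⁻¹ * m * h
  have hm1t : m1 * c.t = c.t * m1 := by
    have e' : c.t = h⁻¹ * e * h := by rw [← hh]; group
    rw [e']
    calc h⁻¹ * m * h * (h⁻¹ * e * h) = h⁻¹ * (m * e) * h := by group
      _ = h⁻¹ * (e * m) * h := by rw [hem]
      _ = h⁻¹ * e * h * (h⁻¹ * m * h) := by group
  have hm1o : orderOf m1 = 3 := by
    refine orderOf_eq_prime ?_ fun h1 => hmt ?_
    · have := conj_pow (i := 3) (a := h⁻¹) (b := m)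
      rw [inv_inv] at this
      rw [show m1 = h⁻¹ * m * h from rfl, this, hm3, mul_one, inv_mul_cancel]
    · have : m = 1 := by
        calc m = h * (h⁻¹ * m * h) * h⁻¹ := by group
          _ = 1 := by rw [show h⁻¹ * m * h = 1 from h1]; group
      rw [this, one_mul, mul_one]
  have hm1K : m1 ∈ c.K := by
    rcases c.dec m1 hm1t with h' | h'
    · exact h'
    · exfalso
      apply c.t_notMem
      have := Subgroup.pow_mem _ h' 3
      rwa [(show Commute c.t m1 from hm1t.symm).mul_pow, orderOf_dvd_iff_pow_eq_one.1 hm1o.dvd, mul_one,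
        pow_succ, sq, c.t_sq, one_mul] at this
  obtain ⟨d, hd, hdu⟩ := c.conj_U m1 hm1K hm1o
  set u := d * m1 * d⁻¹
  have hu1 : u ≠ 1 := fun h' => by
    rw [conj_eq_one_iff] at h'
    rw [h', orderOf_one] at hm1o
    exact absurd hm1o (by norm_num)
  let φ := MulAut.conj (d * h⁻¹)
  have hφe : φ e = c.t := by
    show d * h⁻¹ * e * (d * h⁻¹)⁻¹ = c.t
    rw [show d * h⁻¹ * e * (d * h⁻¹)⁻¹ = d * (h⁻¹ * e * h) * d⁻¹ by group,
      show h⁻¹ * e * h = c.t by rw [← hh]; group, c.K_comm d hd, mul_inv_cancel_right]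
  have hφm : φ m = u := by
    show d * h⁻¹ * m * (d * h⁻¹)⁻¹ = d * (h⁻¹ * m * h) * d⁻¹
    group
  set Lu := Subgroup.centralizer ({u} : Set G)
  have htLu : c.t ∈ Lu := Subgroup.mem_centralizer_singleton_iff.2 (c.tk (c.U_le hdu))
  obtain ⟨M, hML, hLM, hModd, hMdec, hMcard, hMo⟩ := exists_odd_complement c.t_sq c.t_ne Lu htLu
    (fun a ha h2 hat => c.two_of_cent_U hdu hu1 hat (Subgroup.mem_centralizer_singleton_iff.1 ha) h2)
  have hMu : ∀ x ∈ M, x * u = u * x := fun x hx => Subgroup.mem_centralizer_singleton_iff.1 (hML hx)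
  have hULu : ∀ z ∈ c.U, z ∈ Lu := fun z hz => Subgroup.mem_centralizer_singleton_iff.2 (c.U_comm z hz u hdu)
  have hUM : c.U ≤ M := fun z hz => hMo z (hULu z hz)
    (Nat.Coprime.odd_of_left (Nat.Coprime.coprime_dvd_right
      (orderOf_dvd_of_pow_eq_one (c.U_pow z hz)) (by norm_num : Nat.Coprime 2 3)))
  have htM : ∀ x ∈ M, c.t * x * c.t ∈ M := fun x hx => by
    have h' := (Subgroup.mem_normalizer_iff.1 (hLM htLu) x).1 hx
    rwa [inv_eq_of_mul_eq_one_right c.t_sq] at h'
  have hfix : ∀ x ∈ M, x * c.t = c.t * x → x ∈ c.U := by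
    intro x hx hxt
    rcases c.dec x hxt with hK | hK
    · exact c.cent_U u hdu hu1 x hK (hMu x hx)
    · exfalso
      have h6 := c.cent_U u hdu hu1 _ hK (by rw [mul_assoc, hMu x hx, ← mul_assoc, c.tk (c.U_le hdu), mul_assoc])
      have h7 : c.t ∈ M := by
        have := mul_mem (hUM h6) (inv_mem hx)
        rwa [mul_inv_cancel_right] at this
      have h8 := Subgroup.orderOf_dvd_natCard M h7
      rw [orderOf_eq_prime (by rw [sq]; exact c.t_sq) c.t_ne] at h8
      exact absurd (even_iff_two_dvd.2 h8) (Nat.not_even_iff_odd.2 hModd)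
  -- `U` is a Sylow subgroup of `M` centralised by its normaliser
  have hUp : IsPGroup 3 (c.U.subgroupOf M) := by
    intro x; exact ⟨1, Subtype.ext (Subtype.ext (by simpa using c.U_pow _ x.2))⟩
  obtain ⟨R, hR⟩ := hUp.exists_le_sylow
  have hReq : (R : Subgroup M) = c.U.subgroupOf M := by
    refine (Subgroup.eq_of_le_of_card_ge hR ?_).symm
    rw [Nat.card_congr (Subgroup.subgroupOfEquivOfLe hUM).toEquiv, c.U_card]
    obtain ⟨k, hk⟩ := R.2.exists_card_eq
    obtain ⟨f, hf, hqf⟩ := c.hq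
    rw [hk, hqf]
    refine Nat.pow_le_pow_right (by norm_num) ?_
    by_contra hkf
    apply c.not_three_q_dvd h3
    rw [hqf, ← pow_succ']
    exact (pow_dvd_pow 3 (by omega : f + 1 ≤ k)).trans
      (hk ▸ ((Subgroup.card_subgroup_dvd_card _).trans (Subgroup.card_subgroup_dvd_card M)))
  have hNR : Subgroup.normalizer ((R : Subgroup M) : Set M) ≤ Subgroup.centralizer ((R : Subgroup M) : Set M) := by
    intro x hx
    rw [hReq] at hx ⊢
    have hxU : ∀ z ∈ c.U, (x : G) * z * (x : G)⁻¹ ∈ c.U := fun z hz =>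
      Subgroup.mem_subgroupOf.1 ((Subgroup.mem_normalizer_iff.1 hx ⟨z, hUM hz⟩).1 (Subgroup.mem_subgroupOf.2 hz))
    have hx'M := htM x x.2
    set l := (x : G)⁻¹ * (c.t * x * c.t) with hl
    have hlM : l ∈ M := mul_mem (inv_mem x.2) hx'M
    have hlU : ∀ z ∈ c.U, l * z = z * l := by
      intro z hz
      have h1 : c.t * z = z * c.t := c.tk (c.U_le hz)
      have h2 : c.t * ((x : G) * z * (x : G)⁻¹) = (x : G) * z * (x : G)⁻¹ * c.t := c.tk (c.U_le (hxU z hz))
      calc l * z = (x : G)⁻¹ * c.t * x * (c.t * z) := by rw [hl]; group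
        _ = (x : G)⁻¹ * (c.t * ((x : G) * z * (x : G)⁻¹)) * x * c.t := by rw [h1]; group
        _ = (x : G)⁻¹ * ((x : G) * z * (x : G)⁻¹ * c.t) * x * c.t := by rw [h2]
        _ = z * l := by rw [hl]; group
    have htt : c.t⁻¹ = c.t := inv_eq_of_mul_eq_one_right c.t_sq
    have hlinv : c.t * l * c.t = l⁻¹ := by
      rw [hl]
      calc c.t * ((x : G)⁻¹ * (c.t * x * c.t)) * c.t = c.t⁻¹ * (x : G)⁻¹ * c.t * x * (c.t * c.t) := by
            rw [htt]; group
        _ = c.t⁻¹ * (x : G)⁻¹ * c.t * x := by rw [c.t_sq, mul_one]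
        _ = ((x : G)⁻¹ * (c.t⁻¹ * x * c.t))⁻¹ := by group
        _ = _ := by rw [htt]
    obtain ⟨b, hb⟩ := hModd
    set r := l ^ (b + 1) with hr
    have hsq : r * r = l := by
      rw [hr, ← pow_add, show b + 1 + (b + 1) = Nat.card M + 1 by omega, pow_succ,
        orderOf_dvd_iff_pow_eq_one.1 (Subgroup.orderOf_dvd_natCard M hlM), one_mul]
    have hrinv : c.t * r * c.t = r⁻¹ := by
      nth_rewrite 2 [← htt]
      rw [hr, ← conj_pow, htt, hlinv, inv_pow]
    have hrU : ∀ z ∈ c.U, r * z = z * r := fun z hz => ((show Commute l z from hlU z hz).pow_left _).eq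
    have hx0 : (x : G) * r ∈ c.U := by
      refine hfix _ (mul_mem x.2 (Subgroup.pow_mem _ hlM _)) ?_
      have h5 : c.t * ((x : G) * r) * c.t = (x : G) * r := by
        calc c.t * ((x : G) * r) * c.t = c.t * x * (c.t * c.t) * r * c.t := by rw [c.t_sq, mul_one]; group
          _ = (x : G) * ((x : G)⁻¹ * (c.t * x * c.t)) * (c.t * r * c.t) := by group
          _ = (x : G) * (r * r) * r⁻¹ := by rw [← hl, hrinv, hsq]
          _ = _ := by group
      calc (x : G) * r * c.t = c.t * ((x : G) * r) * c.t * c.t := by rw [h5]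
        _ = c.t * ((x : G) * r) := by rw [mul_assoc _ c.t c.t, c.t_sq, mul_one]
    refine Subgroup.mem_centralizer_iff.2 fun z hz => Subtype.ext ?_
    have hz' : (z : G) ∈ c.U := hz
    show (z : G) * x = x * z
    have h6 := c.U_comm _ hz' _ hx0
    calc (z : G) * x = (z : G) * ((x : G) * r) * r⁻¹ := by group
      _ = (x : G) * (r * z) * r⁻¹ := by rw [h6]; group
      _ = (x : G) * z := by rw [hrU _ hz']; group
  set N3 := (MonoidHom.transferSylow R hNR).ker
  have hN3 : ¬ 3 ∣ Nat.card N3 := MonoidHom.not_dvd_card_ker_transferSylow R hNR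
  have hN3mem : ∀ x : M, x ∈ N3 ↔ ¬ 3 ∣ orderOf x := by
    intro x
    refine ⟨fun hx h' => hN3 (h'.trans (Subgroup.orderOf_dvd_natCard N3 hx)), fun hx => ?_⟩
    obtain ⟨k, hk⟩ := R.2 (MonoidHom.transferSylow R hNR x)
    refine MonoidHom.mem_ker.2 (orderOf_eq_one_iff.1 ?_)
    have h2 := orderOf_dvd_of_pow_eq_one hk
    exact Nat.eq_one_of_dvd_coprimes
      (Nat.Coprime.pow_left k (Nat.prime_three.coprime_iff_not_dvd.2 hx)) h2 (orderOf_map_dvd _ x)
  -- `t` inverts the normal 3-complement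
  let σ : N3 →* N3 :=
    { toFun := fun x => ⟨⟨c.t * (x : M) * c.t, htM _ (x : M).2⟩, by
        rw [hN3mem, ← Subgroup.orderOf_coe]
        have hx := (hN3mem _).1 x.2
        rw [← Subgroup.orderOf_coe] at hx
        show ¬ 3 ∣ orderOf (c.t * ((x : M) : G) * c.t)
        have h' : c.t * ((x : M) : G) * c.t = MulAut.conj c.t ((x : M) : G) := by
          rw [MulAut.conj_apply, inv_eq_of_mul_eq_one_right c.t_sq]
        rw [h', show orderOf (MulAut.conj c.t ((x : M) : G)) = orderOf ((x : M) : G) from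
          orderOf_injective (MulAut.conj c.t).toMonoidHom (MulAut.conj c.t).injective _]
        exact hx⟩
      map_one' := Subtype.ext (Subtype.ext (by show c.t * ((1 : N3) : M) * c.t = 1; simp [c.t_sq]))
      map_mul' := fun a b => Subtype.ext (Subtype.ext (by
        show c.t * (((a : M) : G) * ((b : M) : G)) * c.t = c.t * ((a : M) : G) * c.t * (c.t * ((b : M) : G) * c.t)
        calc _ = c.t * ((a : M) : G) * (c.t * c.t) * ((b : M) : G) * c.t := by rw [c.t_sq, mul_one]; group
          _ = _ := by group)) }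
  have hσ2 : Function.Involutive σ := fun x => Subtype.ext (Subtype.ext (by
    show c.t * (c.t * ((x : M) : G) * c.t) * c.t = ((x : M) : G)
    rw [show c.t * (c.t * ((x : M) : G) * c.t) * c.t = (c.t * c.t) * ((x : M) : G) * (c.t * c.t) by group,
      c.t_sq, one_mul, mul_one]))
  have hσf : MonoidHom.FixedPointFree σ := by
    intro x hx
    have hx' : c.t * ((x : M) : G) * c.t = ((x : M) : G) := congrArg (fun z : N3 => ((z : M) : G)) hx
    have hU : ((x : M) : G) ∈ c.U := hfix _ (x : M).2 (by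
      nth_rewrite 1 [← hx']
      rw [mul_assoc, c.t_sq, mul_one])
    have h1 : orderOf (x : M) ∣ 3 := orderOf_dvd_of_pow_eq_one (Subtype.ext (by simpa using c.U_pow _ hU))
    rcases (Nat.dvd_prime Nat.prime_three).1 h1 with h' | h'
    · exact Subtype.ext (orderOf_eq_one_iff.1 h')
    · exact absurd (h' ▸ dvd_rfl) ((hN3mem _).1 x.2)
  have hN3comm : ∀ a b : N3, a * b = b * a := fun a b => hσf.commute_all_of_involutive hσ2 a b
  -- the image of `T` is the 3-complement
  have hT'M : ∀ s ∈ c.T, φ s ∈ M ∧ ¬ 3 ∣ orderOf (φ s) := by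
    intro s hs
    have ho' : orderOf (φ s) ∣ o := orderOf_dvd_of_pow_eq_one (by rw [← map_pow, c.T_pow hs, map_one])
    refine ⟨hMo _ (Subgroup.mem_centralizer_singleton_iff.2 ?_) (c.o_odd.of_dvd_nat ho'), fun h' => c.o_three (h'.trans ho')⟩
    rw [← hφm, ← map_mul, ← map_mul, hWs hmW s hs]
  have hN3T : ∀ x ∈ M, ¬ 3 ∣ orderOf x → ∃ s ∈ c.T, φ s = x := by
    intro x hxM hx3
    refine ⟨φ.symm x, ?_, φ.apply_symm_apply x⟩
    have hxW : φ.symm x ∈ W := Subgroup.mem_centralizer_iff.2 fun s hs => φ.injective (by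
      rw [map_mul, map_mul, φ.apply_symm_apply]
      obtain ⟨hsM, hs3⟩ := hT'M s hs
      exact congrArg (fun z : N3 => ((z : M) : G))
        (hN3comm ⟨⟨φ s, hsM⟩, (hN3mem _).2 (by rwa [← Subgroup.orderOf_coe])⟩
          ⟨⟨x, hxM⟩, (hN3mem _).2 (by rwa [← Subgroup.orderOf_coe])⟩))
    have hord : orderOf (φ.symm x) = orderOf x :=
      orderOf_injective φ.symm.toMonoidHom φ.symm.injective x
    have hodd : Odd (orderOf (φ.symm x)) := by
      rw [hord]
      exact (Nat.Coprime.odd_of_left (Nat.Coprime.coprime_dvd_right (Subgroup.orderOf_dvd_natCard M hxM)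
        (Nat.coprime_two_left.2 hModd)))
    refine c.mem_T_of_odd ?_ hodd
    obtain ⟨i, hi⟩ := hdecW _ hxW
    -- the cube lies in `A`, hence so does the element
    have hcube : (φ.symm x) ^ 3 ∈ c.A := by
      refine hcentW 0 (Subgroup.pow_mem _ hxW 3) ?_
      obtain ⟨l, hl⟩ := hnorm _ hxW 0
      have hshift : ∀ k, φ.symm x * c.v k * (φ.symm x)⁻¹ = c.v (k + (i : Fin 3)) := by
        intro k
        have e : φ.symm x = g ^ (i : ℕ) * ((g ^ (i : ℕ))⁻¹ * φ.symm x) := by group
        set a := (g ^ (i : ℕ))⁻¹ * φ.symm x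
        rw [e, show g ^ (i : ℕ) * a * c.v k * (g ^ (i : ℕ) * a)⁻¹ = g ^ (i : ℕ) * (a * c.v k * a⁻¹) * (g ^ (i : ℕ))⁻¹ by
          group, c.A_comm hi (c.v_mem k), mul_inv_cancel_right, hgk]
        congr 2
        exact Fin.ext (by simp [Fin.ofNat, Nat.mod_eq_of_lt i.2])
      refine mul_inv_eq_iff_eq_mul.1 ?_
      set a := φ.symm x
      rw [show a ^ 3 * c.v 0 * (a ^ 3)⁻¹ = a * (a * (a * c.v 0 * a⁻¹) * a⁻¹) * a⁻¹ by rw [pow_three]; group,
        hshift, hshift, hshift]
      congr 1
      exact (by decide : ∀ n : Fin 3, 0 + n + n + n = 0) i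
    have hcop : Nat.Coprime 3 (orderOf (φ.symm x)) := Nat.prime_three.coprime_iff_not_dvd.2 (hord ▸ hx3)
    obtain ⟨r, hr⟩ := exists_pow_eq_self_of_coprime hcop
    exact hr ▸ Subgroup.pow_mem _ hcube r
  -- `U` acts on the image of `T`
  obtain ⟨⟨s₀, hs₀⟩, hgen⟩ := c.T_cyc.exists_generator
  have hs₀1 : s₀ ≠ 1 := by
    intro h'
    obtain ⟨i, hi⟩ := Subgroup.mem_zpowers_iff.1 (hgen ⟨s₁, hs₁⟩)
    apply hs₁1
    rw [show (⟨s₀, hs₀⟩ : c.T) = 1 from Subtype.ext h', _root_.one_zpow] at hi
    exact (congrArg Subtype.val hi).symm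
  set x₀ := φ s₀ with hx₀
  have horb : ∀ z ∈ c.U, ∃ s ∈ c.T, φ s = z * x₀ * z⁻¹ := by
    intro z hz
    obtain ⟨hxM, hx3⟩ := hT'M s₀ hs₀
    refine hN3T _ (mul_mem (mul_mem (hUM hz) hxM) (inv_mem (hUM hz))) ?_
    rwa [show z * x₀ * z⁻¹ = MulAut.conj z x₀ from rfl, show orderOf (MulAut.conj z x₀) = orderOf x₀ from
      orderOf_injective (MulAut.conj z).toMonoidHom (MulAut.conj z).injective x₀]
  set K0 := Subgroup.centralizer ({x₀} : Set G) ⊓ c.U with hK0
  have hK0card : Nat.card K0 ≤ 3 := by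
    have hmem : ∀ z : K0, φ.symm z ∈ W := by
      rintro ⟨z, hz1, hz2⟩
      refine Subgroup.mem_centralizer_iff.2 fun s hs => ?_
      obtain ⟨i, hi⟩ := Subgroup.mem_zpowers_iff.1 (hgen ⟨s, hs⟩)
      have hi' : s₀ ^ i = s := congrArg Subtype.val hi
      rw [← hi']
      refine (Commute.zpow_left ?_ i).eq
      apply φ.injective
      rw [map_mul, map_mul, φ.apply_symm_apply]
      exact (Subgroup.mem_centralizer_singleton_iff.1 hz1).symm
    have hdiv : ∀ a b : K0, ∀ i : Fin 3, (g ^ (i : ℕ))⁻¹ * φ.symm a ∈ c.A →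
        (g ^ (i : ℕ))⁻¹ * φ.symm b ∈ c.A → a = b := by
      intro a b i hia hib
      have h1 := mul_mem (inv_mem hia) hib
      rw [show ((g ^ (i : ℕ))⁻¹ * φ.symm a)⁻¹ * ((g ^ (i : ℕ))⁻¹ * φ.symm b) = (φ.symm a)⁻¹ * φ.symm b by group,
        ← map_inv, ← map_mul] at h1
      have h4 := c.A_pow h1
      rw [← map_pow] at h4
      have h5 : ((a : G)⁻¹ * b) ^ (4 * o) = 1 := φ.symm.injective (h4.trans (map_one _).symm)
      have h6 : ((a : G)⁻¹ * b) ^ 3 = 1 := c.U_pow _ (mul_mem (inv_mem a.2.2) b.2.2)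
      have h7 := Nat.eq_one_of_dvd_coprimes (Nat.Coprime.mul_right (by norm_num : Nat.Coprime 3 4)
        (Nat.prime_three.coprime_iff_not_dvd.2 c.o_three)) (orderOf_dvd_of_pow_eq_one h6) (orderOf_dvd_of_pow_eq_one h5)
      exact Subtype.ext (inv_mul_eq_one.1 (orderOf_eq_one_iff.1 h7))
    choose idx hidx using fun z : K0 => hdecW _ (hmem z)
    refine (Nat.card_le_card_of_injective idx fun a b hab => hdiv a b (idx a) (hidx a) (hab ▸ hidx b)).trans ?_
    rw [Nat.card_fin]
  have hbound : (K0.subgroupOf c.U).index ≤ o - 1 := by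
    let f : c.U ⧸ K0.subgroupOf c.U → {s : c.T // s ≠ 1} := Quotient.lift
      (fun z : c.U => ⟨⟨(horb z z.2).choose, (horb z z.2).choose_spec.1⟩, fun h' => hs₀1 (by
        have h'' := (horb z z.2).choose_spec.2
        rw [show (horb z z.2).choose = 1 from congrArg Subtype.val h', map_one, eq_comm, conj_eq_one_iff] at h''
        exact φ.injective (h''.trans (map_one φ).symm))⟩)
      (fun a b hab => by
        have hab' : (a : G)⁻¹ * b ∈ K0 := Subgroup.mem_subgroupOf.1 (QuotientGroup.leftRel_apply.1 hab)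
        apply Subtype.ext; apply Subtype.ext
        apply φ.injective
        show φ (horb a a.2).choose = φ (horb b b.2).choose
        rw [(horb a a.2).choose_spec.2, (horb b b.2).choose_spec.2]
        have hc := Subgroup.mem_centralizer_singleton_iff.1 hab'.1
        calc (a : G) * x₀ * (a : G)⁻¹ = a * (x₀ * ((a : G)⁻¹ * b)) * (b : G)⁻¹ := by group
          _ = a * ((a : G)⁻¹ * b * x₀) * (b : G)⁻¹ := by rw [hc]
          _ = _ := by group)
    have hinj : Function.Injective f := by
      intro a b hab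
      obtain ⟨a, rfl⟩ := QuotientGroup.mk_surjective a
      obtain ⟨b, rfl⟩ := QuotientGroup.mk_surjective b
      rw [QuotientGroup.eq, Subgroup.mem_subgroupOf]
      refine Subgroup.mem_inf.2 ⟨Subgroup.mem_centralizer_singleton_iff.2 ?_,
        c.U.mul_mem (c.U.inv_mem a.2) b.2⟩
      have h' := congrArg (fun s : {s : c.T // s ≠ 1} => φ ((s : c.T) : G)) hab
      change φ (horb a a.2).choose = φ (horb b b.2).choose at h'
      rw [(horb a a.2).choose_spec.2, (horb b b.2).choose_spec.2] at h'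
      show (a : G)⁻¹ * b * x₀ = x₀ * ((a : G)⁻¹ * b)
      calc (a : G)⁻¹ * b * x₀ = (a : G)⁻¹ * (b * x₀ * (b : G)⁻¹) * b := by group
        _ = (a : G)⁻¹ * (a * x₀ * (a : G)⁻¹) * b := by rw [← h']
        _ = _ := by group
    rw [Subgroup.index_eq_card]
    refine (Nat.card_le_card_of_injective f hinj).trans ?_
    haveI := Fintype.ofFinite c.T
    rw [Nat.card_eq_fintype_card, Fintype.card_subtype_compl, Fintype.card_subtype_eq, ← Nat.card_eq_fintype_card, c.T_card]
  have hq := (K0.subgroupOf c.U).card_mul_index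
  rw [Nat.card_congr (Subgroup.subgroupOfEquivOfLe (inf_le_right : K0 ≤ c.U)).toEquiv, c.U_card] at hq
  have h9 := Nat.mul_le_mul hK0card hbound
  rw [hq] at h9
  have := c.ho
  have := c.o_seven
  omega

end Ctx

end Cfsg.Agent.H82.Ree
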