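import Cfsg.Agent.H6.Orbits
import Cfsg.Agent.H6.Four
import Cfsg.Agent.H6.Applications

/-!
# The subgroups of `PSL₂(3^f)`, `f` odd, used for groups of Ree type
-/

set_option autoImplicit false

namespace Cfsg.Agent.H82.Ree

open Cfsg.Agent.H6
open Matrix MatrixGroups

variable {K : Type*} [Group K]

/-- The data of `PSL₂(q)`, `q ≡ 3 (mod 8)` a power of 3, with `4 * o = q + 1`. -/
structure PSLData (K : Type*) [Group K] (q o : ℕ) where
  i : K
  w : K
  T : Subgroup K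
  U : Subgroup K
  B : Subgroup K
  i_sq : i * i = 1
  i_ne : i ≠ 1
  w_sq : w * w = 1
  w_ne : w ≠ 1
  wi : w * i = i * w
  T_card : Nat.card T = o
  T_cyc : IsCyclic T
  iT : ∀ s ∈ T, i * s = s * i
  wT : ∀ s ∈ T, w * s * w⁻¹ = s⁻¹
  cent_i : ∀ z : K, z * i = i * z → ∃ s ∈ T, z = s ∨ z = i * s ∨ z = w * s ∨ z = w * i * s
  cent_T : ∀ s ∈ T, s ≠ 1 → ∀ z : K, z * s = s * z → ∃ r ∈ T, z = r ∨ z = i * r
  norm_T : ∀ s ∈ T, s ≠ 1 → ∀ z : K, z * s * z⁻¹ ∈ T → z * i = i * z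
  U_card : Nat.card U = q
  U_comm : ∀ a ∈ U, ∀ b ∈ U, a * b = b * a
  U_pow : ∀ a ∈ U, a ^ 3 = 1
  cent_U : ∀ u ∈ U, u ≠ 1 → ∀ z : K, z * u = u * z → z ∈ U
  B_card : 2 * Nat.card B = q * (q - 1)
  B_mem : ∀ u ∈ U, u ≠ 1 → ∀ z : K, z * u * z⁻¹ ∈ U → z ∈ B
  B_norm : ∀ z ∈ B, ∀ u ∈ U, z * u * z⁻¹ ∈ U
  conj_U : ∀ x : K, orderOf x = 3 → ∃ c : K, c * x * c⁻¹ ∈ U
  card_inv : Nat.card {x : K // orderOf x = 2} * (q + 1) = Nat.card K
  card_eq : 2 * Nat.card K = q * (q ^ 2 - 1)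

/-- The parameters of `q = 3 ^ (2n+1)`. -/
theorem three_pow_facts {n : ℕ} (hn : 1 ≤ n) :
    ∃ o, 4 * o = 3 ^ (2 * n + 1) + 1 ∧ Odd o ∧ ¬ 3 ∣ o ∧ 7 ≤ o ∧ 3 ^ (2 * n + 1) % 8 = 3 := by
  have h8 : 3 ^ (2 * n + 1) % 8 = 3 := by
    rw [pow_succ, pow_mul, Nat.mul_mod, Nat.pow_mod]; norm_num
  have h3 : 3 ∣ 3 ^ (2 * n + 1) := dvd_pow_self 3 (by omega)
  have h27 : 3 ^ 3 ≤ 3 ^ (2 * n + 1) := Nat.pow_le_pow_right (by norm_num) (by omega)
  refine ⟨(3 ^ (2 * n + 1) + 1) / 4, by omega, Nat.odd_iff.2 (by omega), by omega, by omega, h8⟩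

variable {F : Type*} [Field F] [Fintype F]

set_option maxHeartbeats 1000000 in
/-- `PSL₂(3^f)`, `f` odd, carries the data. -/
theorem nonempty_pslData {n o : ℕ} (hn : 1 ≤ n) (hF : Fintype.card F = 3 ^ (2 * n + 1))
    (ho : 4 * o = 3 ^ (2 * n + 1) + 1) :
    Nonempty (PSLData PSL(2, F) (3 ^ (2 * n + 1)) o) := by
  classical
  obtain ⟨o', ho', hodd, ho3, ho7, h8⟩ := three_pow_facts hn
  obtain rfl : o = o' := by omega
  set q := 3 ^ (2 * n + 1) with hqdef
  have hq3 : 3 ≤ q := by omega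
  have h2 : (2 : F) ≠ 0 := two_ne_of_odd hF (Nat.odd_iff.2 (by omega))
  haveI : Fact (Nat.Prime 3) := ⟨Nat.prime_three⟩
  haveI : CharP F 3 := charP_of_card_eq_prime_pow (R := F) (f := 2 * n + 1)
    (by simpa [Nat.card_eq_fintype_card] using hF)
  have hgcd : Nat.gcd 2 (q - 1) = 2 := Nat.gcd_eq_left (by omega)
  set g : SL(2, F) := comp 0 with hg
  have htr : tr g = 0 := tr_comp 0
  have hss : tr g ^ 2 ≠ 4 := ss_of_tr_zero h2 htr
  set i := π g with hi
  have hio : orderOf i = 2 := (orderOf_π_eq_two_iff h2).2 htr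
  have hcent : Nat.card (tor g) = 2 * o := by
    have h := card_tor_mul hF g
    rw [(card_cent_tr_zero hF h2 htr).2 (by omega), hgcd] at h
    omega
  haveI : IsCyclic (tor g) := tor_cyclic hss
  obtain ⟨⟨c, hcm⟩, hc⟩ := IsCyclic.exists_ofOrder_eq_natCard (α := tor g)
  rw [Subgroup.orderOf_mk, hcent] at hc
  have hi_tor : i ∈ tor g := self_mem_tor g
  have hmem : ∀ z, z ∈ tor g ↔ z ∈ Subgroup.zpowers c := by
    have : Subgroup.zpowers c = tor g :=
      Subgroup.eq_of_le_of_card_ge (Subgroup.zpowers_le.2 hcm) (by rw [Nat.card_zpowers, hc, hcent])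
    intro z; rw [this]
  have hinvol : ∀ z ∈ tor g, z * z = 1 → z = 1 ∨ z = c ^ o := by
    intro z hz hz2
    obtain ⟨k, hk, rfl⟩ : ∃ k, k < 2 * o ∧ c ^ k = z := by
      obtain ⟨k, rfl⟩ := Subgroup.mem_zpowers_iff.1 ((hmem z).1 hz)
      obtain ⟨m, hm⟩ := (mem_zpowers_iff_mem_range_orderOf.1 (zpow_mem (Subgroup.mem_zpowers c) k) :
        c ^ k ∈ _) |> fun h => Finset.mem_image.1 h
      exact ⟨m, hc ▸ Finset.mem_range.1 hm.1, hm.2⟩
    rw [← pow_add] at hz2
    obtain ⟨d, hd⟩ := orderOf_dvd_of_pow_eq_one hz2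
    rw [hc] at hd
    rcases Nat.lt_or_ge k o with h | h
    · left
      have : k = 0 := by rcases d with _ | d <;> [omega; (rw [Nat.mul_succ] at hd; omega)]
      rw [this, pow_zero]
    · right
      have : k = o := by
        rcases d with _ | _ | d <;> [omega; omega; (rw [Nat.mul_succ, Nat.mul_succ] at hd; omega)]
      rw [this]
  have hio' : i = c ^ o := by
    refine (hinvol i hi_tor ?_).resolve_left fun e => by simp [e] at hio
    rw [← sq]; exact orderOf_dvd_iff_pow_eq_one.1 hio.dvd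
  obtain ⟨w0, hw0⟩ := exists_conj_inv hss
  set w := π w0 with hw
  have hwd : w ∈ torDih g := Subgroup.mem_map_of_mem _ ((mem_torNorm hss).2 (Or.inr hw0))
  have hwt : w ∉ tor g := fun h => by
    have := conj_eq_self_iff.2 (mem_tor.1 h)
    rw [hw0] at this
    exact inv_ne_self_of_ss hss this
  obtain ⟨hww, hw1, hwinv⟩ := outside_torDih hss hwd hwt
  have hii : i * i = 1 := by rw [← sq]; exact orderOf_dvd_iff_pow_eq_one.1 hio.dvd
  set T := Subgroup.zpowers (c ^ 2) with hT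
  have hTo : Nat.card T = o := by
    rw [Nat.card_zpowers, orderOf_pow, hc, show Nat.gcd (2 * o) 2 = 2 from Nat.gcd_eq_right ⟨o, rfl⟩]
    omega
  have hTle : T ≤ tor g := Subgroup.zpowers_le.2 (Subgroup.pow_mem _ hcm 2)
  have htorab : ∀ a ∈ tor g, ∀ b ∈ tor g, a * b = b * a := by
    intro a ha b hb
    obtain ⟨x, rfl⟩ := Subgroup.mem_zpowers_iff.1 ((hmem a).1 ha)
    obtain ⟨y, rfl⟩ := Subgroup.mem_zpowers_iff.1 ((hmem b).1 hb)
    exact (Commute.zpow_zpow_self c x y).eq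
  have hdec : ∀ z ∈ tor g, ∃ s ∈ T, z = s ∨ z = i * s := by
    intro z hz
    obtain ⟨k, rfl⟩ := Subgroup.mem_zpowers_iff.1 ((hmem z).1 hz)
    rcases Int.even_or_odd k with ⟨r, rfl⟩ | ⟨r, rfl⟩
    · exact ⟨(c ^ 2) ^ r, zpow_mem (Subgroup.mem_zpowers _) r, Or.inl (by
        rw [← zpow_natCast, ← _root_.zpow_mul]; ring_nf)⟩
    · obtain ⟨a, ha⟩ := hodd
      refine ⟨(c ^ 2) ^ (r - (a : ℤ)), zpow_mem (Subgroup.mem_zpowers _) _, Or.inr ?_⟩
      rw [hio', ← zpow_natCast, ← zpow_natCast c 2, ← _root_.zpow_mul, ← _root_.zpow_add, ha]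
      congr 1
      push_cast
      ring
  have hTsq : ∀ s ∈ T, s * s = 1 → s = 1 := by
    intro s hs h
    have h1 := Subgroup.orderOf_dvd_natCard T hs
    rw [hTo] at h1
    exact orderOf_eq_one_iff.1 (Nat.eq_one_of_dvd_coprimes
      (Nat.coprime_two_left.2 hodd) (orderOf_dvd_of_pow_eq_one (by rw [sq]; exact h)) h1)
  have hcentT : ∀ s ∈ T, s ≠ 1 → ∀ z : PSL(2, F), z * s = s * z → z ∈ tor g := by
    intro s hs hs1 z hz
    obtain ⟨s0, rfl⟩ := π_surjective s
    have htor := tor_eq_of_mem (not_isScal_of_ss hss) (hTle hs) hs1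
    obtain ⟨z0, rfl⟩ := π_surjective z
    rw [← htor, mem_tor, mem_cent]
    rw [← map_mul, ← map_mul, π_eq_iff] at hz
    rcases hz with e | e
    · exact e.symm
    · exfalso
      -- `z` would invert and centralise: trace zero
      have hconj : z0 * s0 * z0⁻¹ = -s0 := by rw [e, neg_mul, mul_inv_cancel_right]
      have h0 : tr s0 = 0 := by
        have := tr_conj z0 s0
        rw [hconj, tr_neg] at this
        exact (mul_eq_zero.1 (show (2 : F) * tr s0 = 0 by linear_combination -this)).resolve_left h2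
      exact hs1 (hTsq _ hs (by
        rw [← map_mul, (sq_neg_one_iff h2).2 h0, π_eq_one_iff]; exact Or.inr rfl))
  have hcharU : ∀ a ∈ Uinf F, a ^ 3 = 1 := by
    intro a ha
    obtain ⟨b, rfl⟩ := mem_Uinf.1 ha
    rw [← map_pow, pow_char_of_tr_two 3 (tr_up b), map_one]
  refine ⟨{
    i := i
    w := w
    T := T
    U := Uinf F
    B := borel F
    i_sq := hii
    i_ne := fun e => by simp [e] at hio
    w_sq := hww
    w_ne := hw1
    wi := ?_
    T_card := hTo
    T_cyc := inferInstance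
    iT := fun s hs => htorab _ hi_tor _ (hTle hs)
    wT := fun s hs => hwinv s (hTle hs)
    cent_i := ?_
    cent_T := fun s hs hs1 z hz => hdec z (hcentT s hs hs1 z hz)
    norm_T := ?_
    U_card := by rw [card_Uinf, hF]
    U_comm := ?_
    U_pow := hcharU
    cent_U := fun u hu hu1 z hz => mem_of_commute_isUni isUni_Uinf hu hu1 hz
    B_card := ?_
    B_mem := ?_
    B_norm := ?_
    conj_U := ?_
    card_inv := ?_
    card_eq := ?_ }⟩
  · have h := hwinv i hi_tor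
    rw [inv_eq_of_mul_eq_one_right hii, mul_inv_eq_iff_eq_mul] at h
    exact h
  · intro z hz
    have hzd : z ∈ torDih g := (mem_centralizer_involution h2 htr).1 hz
    by_cases hzt : z ∈ tor g
    · obtain ⟨s, hs, h | h⟩ := hdec z hzt
      · exact ⟨s, hs, Or.inl h⟩
      · exact ⟨s, hs, Or.inr (Or.inl h)⟩
    · have hwz : w * z ∈ tor g := by
        obtain ⟨z0, rfl⟩ := π_surjective z
        have hz0 : z0 ∈ torNorm g := (mem_map_π (center_le_torNorm g)).1 hzd
        have hzi : z0 * g * z0⁻¹ = g⁻¹ := ((mem_torNorm hss).1 hz0).resolve_left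
          fun e => hzt (mem_tor.2 (conj_eq_self_iff.1 e))
        rw [hw, ← map_mul, mem_tor, ← conj_eq_self_iff]
        calc w0 * z0 * g * (w0 * z0)⁻¹ = w0 * (z0 * g * z0⁻¹) * w0⁻¹ := by group
          _ = (w0 * g * w0⁻¹)⁻¹ := by rw [hzi]; group
          _ = g := by rw [hw0, inv_inv]
      obtain ⟨s, hs, h | h⟩ := hdec _ hwz
      · exact ⟨s, hs, Or.inr (Or.inr (Or.inl (by rw [← h, ← mul_assoc, hww, one_mul])))⟩
      · exact ⟨s, hs, Or.inr (Or.inr (Or.inr (by rw [mul_assoc, ← h, ← mul_assoc, hww, one_mul])))⟩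
  · intro s hs hs1 z hz
    -- `z` maps the torus to itself, hence fixes its involution
    have hz1 : z * s * z⁻¹ ≠ 1 := by simpa using hs1
    have hzi : z * i * z⁻¹ ∈ tor g := by
      refine hcentT _ hz hz1 _ ?_
      calc z * i * z⁻¹ * (z * s * z⁻¹) = z * (i * s) * z⁻¹ := by group
        _ = z * (s * i) * z⁻¹ := by rw [htorab _ hi_tor _ (hTle hs)]
        _ = z * s * z⁻¹ * (z * i * z⁻¹) := by group
    rcases hinvol _ hzi (by
      calc z * i * z⁻¹ * (z * i * z⁻¹) = z * (i * i) * z⁻¹ := by group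
        _ = 1 := by rw [hii, mul_one, mul_inv_cancel]) with h | h
    · exact absurd (conj_eq_one_iff.1 h) fun e => by simp [e] at hio
    · rw [← hio', mul_inv_eq_iff_eq_mul] at h
      exact h
  · intro a ha b hb
    obtain ⟨x, rfl⟩ := mem_Uinf.1 ha
    obtain ⟨y, rfl⟩ := mem_Uinf.1 hb
    rw [← map_mul, ← map_mul, ← up_add, ← up_add, add_comm]
  · have h := card_borel_mul (F := F) hF
    rw [hgcd] at h
    omega
  · intro u hu hu1 z hz
    obtain ⟨b, rfl⟩ := mem_Uinf.1 hu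
    have hb : b ≠ 0 := fun e => hu1 (π_up_eq_one_iff.2 e)
    rw [← normalizer_Uinf, Subgroup.mem_normalizer_iff_map_conj_eq]
    obtain ⟨z0, rfl⟩ := π_surjective z
    rw [← tor_up hb]
    refine (map_conj_tor z0 (up b)).trans ?_
    refine tor_eq_of_mem (not_isScal_up hb) ?_ ?_
    · rw [tor_up hb]
      simpa only [map_mul, map_inv] using hz
    · simp only [map_mul, map_inv]
      simpa using hu1
  · intro z hz u hu
    rw [← normalizer_Uinf] at hz
    exact (Subgroup.mem_normalizer_iff.1 hz u).1 hu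
  · intro x hx
    have hx1 : x ≠ 1 := fun e => by simp [e] at hx
    have hns : ¬ IsSS x := fun hs => by
      refine not_dvd_card_mx 3 hs ?_
      have := Subgroup.orderOf_dvd_natCard _ (self_mem_mx x)
      rwa [hx] at this
    obtain ⟨d, hd⟩ := exists_conj_Uinf hx1 hns
    exact ⟨d, hd ▸ Subgroup.mem_map_of_mem _ (self_mem_mx x)⟩
  · have h := card_involutions_mul h2 htr
    rw [card_torDih hss, hcent, show 2 * (2 * o) = q + 1 by omega] at h
    exact h
  · have h := card_psl2_mul (F := F) hF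
    rw [hgcd] at h
    linarith

end Cfsg.Agent.H82.Ree
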