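import Cfsg.Agent.H82.Ree.PSLFacts
import Cfsg.Agent.H77.JankoReeSetup
import Cfsg.Agent.H77.JankoReeSeven
import Cfsg.Prelude.Def_LocalEven

/-!
# Groups of Ree type: the local data around the centraliser of an involution
-/

set_option autoImplicit false

namespace Cfsg.Agent.H82.Ree

open Matrix MatrixGroups

/-- The local data: `C(t) = ⟨t⟩ × K`, `V = {1, t, j, tj}`, `T` the odd part of the nonsplit torus centralised
by `j`, inverted by `w`; `U` a Sylow 3-subgroup of `K` with normaliser `B`; `y` cycles `t → j → tj`. -/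
structure Ctx (G : Type*) [Group G] (q o : ℕ) where
  t : G
  j : G
  w : G
  y : G
  K : Subgroup G
  T : Subgroup G
  U : Subgroup G
  B : Subgroup G
  hq : ∃ f, 3 ≤ f ∧ q = 3 ^ f
  ho : 4 * o = q + 1
  o_odd : Odd o
  o_three : ¬ 3 ∣ o
  o_seven : 7 ≤ o
  t_sq : t * t = 1
  t_ne : t ≠ 1
  t_notMem : t ∉ K
  K_comm : ∀ k ∈ K, k * t = t * k
  dec : ∀ c : G, c * t = t * c → c ∈ K ∨ t * c ∈ K
  K_card : 2 * Nat.card K = q * (q ^ 2 - 1)
  K_inv : Nat.card {x : G // x ∈ K ∧ orderOf x = 2} * (q + 1) = Nat.card K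
  j_mem : j ∈ K
  w_mem : w ∈ K
  T_le : T ≤ K
  U_le : U ≤ K
  B_le : B ≤ K
  j_sq : j * j = 1
  j_ne : j ≠ 1
  w_sq : w * w = 1
  w_ne : w ≠ 1
  wj : w * j = j * w
  T_card : Nat.card T = o
  T_cyc : IsCyclic T
  jT : ∀ s ∈ T, j * s = s * j
  wT : ∀ s ∈ T, w * s * w⁻¹ = s⁻¹
  cent_j : ∀ z ∈ K, z * j = j * z → ∃ s ∈ T, z = s ∨ z = j * s ∨ z = w * s ∨ z = w * j * s
  cent_T : ∀ s ∈ T, s ≠ 1 → ∀ z ∈ K, z * s = s * z → ∃ r ∈ T, z = r ∨ z = j * r
  norm_T : ∀ s ∈ T, s ≠ 1 → ∀ z ∈ K, z * s * z⁻¹ ∈ T → z * j = j * z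
  U_card : Nat.card U = q
  U_comm : ∀ a ∈ U, ∀ b ∈ U, a * b = b * a
  U_pow : ∀ a ∈ U, a ^ 3 = 1
  cent_U : ∀ u ∈ U, u ≠ 1 → ∀ z ∈ K, z * u = u * z → z ∈ U
  B_card : 2 * Nat.card B = q * (q - 1)
  B_mem : ∀ u ∈ U, u ≠ 1 → ∀ z ∈ K, z * u * z⁻¹ ∈ U → z ∈ B
  B_norm : ∀ z ∈ B, ∀ u ∈ U, z * u * z⁻¹ ∈ U
  conj_U : ∀ x ∈ K, orderOf x = 3 → ∃ c ∈ K, c * x * c⁻¹ ∈ U
  conj_t : ∀ x : G, orderOf x = 2 → IsConj t x
  y_t : y * t * y⁻¹ = j
  y_j : y * j * y⁻¹ = t * j
  two_comm : ∀ P : Subgroup G, IsPGroup 2 P → ∀ a ∈ P, ∀ b ∈ P, a * b = b * a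
  two_sq : ∀ P : Subgroup G, IsPGroup 2 P → ∀ a ∈ P, a * a = 1

variable {G : Type*} [Group G] [Finite G]

/-- In a group with elementary abelian Sylow 2-subgroups no element swaps two commuting involutions. -/
theorem false_of_swap (hab : ∀ P : Subgroup G, IsPGroup 2 P → ∀ a ∈ P, ∀ b ∈ P, a * b = b * a)
    {g a b : G} (ha : a * a = 1) (hb : b * b = 1) (hc : a * b = b * a) (hne : a ≠ b)
    (hga : g * a * g⁻¹ = b) (hgb : g * b * g⁻¹ = a) : False := by
  haveI : Fact (Nat.Prime 2) := ⟨Nat.prime_two⟩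
  obtain ⟨e, m, hm, hem⟩ := Nat.exists_eq_two_pow_mul_odd (orderOf_pos g).ne'
  set h := g ^ m with hh
  have key : ∀ k : ℕ, (Even k → g ^ k * a * (g ^ k)⁻¹ = a ∧ g ^ k * b * (g ^ k)⁻¹ = b) ∧
      (Odd k → g ^ k * a * (g ^ k)⁻¹ = b ∧ g ^ k * b * (g ^ k)⁻¹ = a) := by
    intro k
    induction k with
    | zero => exact ⟨fun _ => by simp, fun h => absurd h (by decide)⟩
    | succ k ih =>
      have step : ∀ x : G, g ^ (k + 1) * x * (g ^ (k + 1))⁻¹ = g * (g ^ k * x * (g ^ k)⁻¹) * g⁻¹ := by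
        intro x; rw [pow_succ']; group
      constructor
      · intro hk
        obtain ⟨h1, h2⟩ := ih.2 (by rcases Nat.even_or_odd k with h | h; exacts [absurd hk (by simp [Nat.even_add_one, h]), h])
        rw [step, step, h1, h2]; exact ⟨hgb, hga⟩
      · intro hk
        obtain ⟨h1, h2⟩ := ih.1 (by rcases Nat.even_or_odd k with h | h; exacts [h, absurd hk (by simp [Nat.odd_add_one, h])])
        rw [step, step, h1, h2]; exact ⟨hga, hgb⟩
  obtain ⟨hha, hhb⟩ := (key m).2 hm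
  rw [← hh] at hha hhb
  set V : Subgroup G := Subgroup.closure {a, b}
  have hVcomm : ∀ x ∈ ({a, b} : Set G), ∀ y ∈ ({a, b} : Set G), x * y = y * x := by
    rintro x (rfl | rfl) y (rfl | rfl) <;> first | rfl | exact hc | exact hc.symm
  haveI : IsMulCommutative V := Subgroup.isMulCommutative_closure hVcomm
  have hV : IsPGroup 2 V := by
    intro x
    refine ⟨1, Subtype.ext ?_⟩
    obtain ⟨x, hx⟩ := x
    show x ^ 2 ^ 1 = 1
    rw [pow_one]
    induction hx using Subgroup.closure_induction with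
    | mem x hx => rcases hx with rfl | rfl <;> rw [sq] <;> assumption
    | one => simp
    | mul x y hx hy h1 h2 =>
      have hxy : Commute x y := congrArg Subtype.val (IsMulCommutative.is_comm.comm (⟨x, hx⟩ : V) ⟨y, hy⟩)
      rw [hxy.mul_pow, h1, h2, one_mul]
    | inv x _ h => rw [inv_pow, h, inv_one]
  have hP : IsPGroup 2 (Subgroup.zpowers h) := by
    refine IsPGroup.of_card_dvd_pow (n := e) ?_
    rw [Nat.card_zpowers]
    exact orderOf_dvd_of_pow_eq_one (by rw [hh, ← pow_mul, mul_comm, ← hem, pow_orderOf_eq_one])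
  have hn : Subgroup.zpowers h ≤ Subgroup.normalizer (V : Set G) := by
    rw [Subgroup.zpowers_le, Subgroup.mem_normalizer_iff_map_conj_eq, MonoidHom.map_closure]
    congr 1
    rw [Set.image_pair]
    show ({h * a * h⁻¹, h * b * h⁻¹} : Set G) = {a, b}
    rw [hha, hhb, Set.pair_comm]
  have := hab _ (hP.to_sup_of_normal_right' hV hn) h (Subgroup.mem_sup_left (Subgroup.mem_zpowers h))
    a (Subgroup.mem_sup_right (Subgroup.subset_closure (Or.inl rfl)))
  rw [this, mul_inv_cancel_right] at hha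
  exact hne hha

set_option maxHeartbeats 1000000 in
/-- A group of Ree type has the local data. -/
theorem exists_ctx (hG : Cfsg.IsReeType G) : ∃ q o, Nonempty (Ctx G q o) := by
  classical
  obtain ⟨hs, hna, t, E, n, hn, ht, hodd, hE, F, _, _, hF, ⟨e⟩⟩ := hG
  haveI := hs
  haveI : Fact (Nat.Prime 2) := ⟨Nat.prime_two⟩
  obtain ⟨o, ho, hoodd, ho3, ho7, h8⟩ := three_pow_facts hn
  obtain ⟨D⟩ := nonempty_pslData (F := F) hn hF ho
  obtain ⟨htC, hEC, hcomm, hdisj, hsup⟩ := id hE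
  set q := 3 ^ (2 * n + 1) with hqdef
  have htt : t * t = 1 := by rw [← sq]; exact orderOf_dvd_iff_pow_eq_one.1 ht.dvd
  have ht1 : t ≠ 1 := fun h => by simp [h] at ht
  have htE : t ∉ E := fun h => ht1 (by
    have : t ∈ Subgroup.zpowers t ⊓ E := ⟨Subgroup.mem_zpowers t, h⟩
    rwa [hdisj, Subgroup.mem_bot] at this)
  have hKt : ∀ k ∈ E, k * t = t * k := fun k hk => (hcomm t (Subgroup.mem_zpowers t) k hk).symm
  have hdec : ∀ c : G, c * t = t * c → c ∈ E ∨ t * c ∈ E := by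
    intro c hc
    have hcm : c ∈ Subgroup.zpowers t ⊔ E := hsup ▸ Subgroup.mem_centralizer_singleton_iff.2 hc
    rw [← SetLike.mem_coe, Subgroup.coe_mul_of_left_le_normalizer_right] at hcm
    · obtain ⟨a, ha, k, hk, rfl⟩ := hcm
      obtain ⟨i, rfl⟩ := Subgroup.mem_zpowers_iff.1 ha
      dsimp only
      rcases Int.even_or_odd i with ⟨r, rfl⟩ | ⟨r, rfl⟩
      · left; rw [_root_.zpow_add, ← (Commute.refl t).mul_zpow, htt, _root_.one_zpow, one_mul]; exact hk
      · right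
        rw [_root_.zpow_add, two_mul, _root_.zpow_add, ← (Commute.refl t).mul_zpow, htt, _root_.one_zpow, one_mul,
          zpow_one, ← mul_assoc, htt, one_mul]
        exact hk
    · refine Subgroup.zpowers_le.2 (Subgroup.mem_normalizer_iff.2 fun k => ?_)
      constructor
      · intro hk; rw [← hKt k hk, mul_inv_cancel_right]; exact hk
      · intro hk
        have := hKt _ hk
        rw [inv_mul_cancel_right] at this
        have e' : k = t * k * t⁻¹ := by
          have h2 : t * k * t⁻¹ = k := by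
            apply mul_left_cancel (a := t)
            calc t * (t * k * t⁻¹) = t * k * t⁻¹ * t := (this ▸ (by group) : _)
              _ = t * k := by group
          exact h2.symm
        rw [e']; exact hk
  have hCcard : Nat.card (Subgroup.centralizer ({t} : Set G)) = 2 * Nat.card E := by
    let f : Fin 2 × E → Subgroup.centralizer ({t} : Set G) := fun p => ⟨t ^ (p.1 : ℕ) * p.2,
      mul_mem (Subgroup.pow_mem _ (Subgroup.mem_centralizer_singleton_iff.2 rfl) _) (hEC p.2.2)⟩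
    have hf : Function.Bijective f := by
      constructor
      · rintro ⟨⟨a, ha⟩, k⟩ ⟨⟨b, hb⟩, l⟩ h
        have h' : t ^ a * (k : G) = t ^ b * (l : G) := congrArg Subtype.val h
        interval_cases a <;> interval_cases b <;> simp only [pow_zero, pow_one, one_mul] at h'
        · exact Prod.ext rfl (Subtype.ext h')
        · exact absurd (by
            have : t = (k : G) * (l : G)⁻¹ := by rw [h', mul_inv_cancel_right]
            rw [this]; exact mul_mem k.2 (inv_mem l.2)) htE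
        · exact absurd (by
            have : t = (l : G) * (k : G)⁻¹ := by rw [← h', mul_inv_cancel_right]
            rw [this]; exact mul_mem l.2 (inv_mem k.2)) htE
        · exact Prod.ext rfl (Subtype.ext (mul_left_cancel h'))
      · rintro ⟨c, hc⟩
        rcases hdec c (Subgroup.mem_centralizer_singleton_iff.1 hc) with h | h
        · exact ⟨(0, ⟨c, h⟩), Subtype.ext (by simp [f])⟩
        · exact ⟨(1, ⟨t * c, h⟩), Subtype.ext (by simp [f, ← mul_assoc, htt])⟩
    rw [← Nat.card_eq_of_bijective f hf, Nat.card_prod, Nat.card_fin]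
  set φ : PSL(2, F) →* G := E.subtype.comp e.symm.toMonoidHom with hφ
  have hφi : Function.Injective φ := fun a b h => e.symm.injective (Subtype.ext h)
  have hφmem : ∀ z, φ z ∈ E := fun z => (e.symm z).2
  have hφsurj : ∀ k ∈ E, ∃ z, φ z = k := fun k hk => ⟨e ⟨k, hk⟩, by simp [hφ]⟩
  have hφord : ∀ z, orderOf (φ z) = orderOf z := fun z => orderOf_injective φ hφi z
  have hEcard : Nat.card E = Nat.card PSL(2, F) := Nat.card_congr e.toEquiv
  -- a Sylow 2-subgroup is elementary abelian of order eight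
  set j := φ D.i with hjdef
  set w := φ D.w with hwdef
  have hjj : j * j = 1 := by rw [hjdef, ← map_mul, D.i_sq, map_one]
  have hww : w * w = 1 := by rw [hwdef, ← map_mul, D.w_sq, map_one]
  have hwj : w * j = j * w := by rw [hjdef, hwdef, ← map_mul, ← map_mul, D.wi]
  set gens : Set G := {t, j, w} with hgens
  have hgc : ∀ x ∈ gens, ∀ y ∈ gens, x * y = y * x := by
    rintro x (rfl | rfl | rfl) y (rfl | rfl | rfl) <;>
      first
        | rfl
        | exact hwj | exact hwj.symm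
        | exact hKt _ (hφmem _) | exact (hKt _ (hφmem _)).symm
  set S0 : Subgroup G := Subgroup.closure gens
  haveI : IsMulCommutative S0 := Subgroup.isMulCommutative_closure hgc
  have hS0sq : ∀ x ∈ S0, x * x = 1 := by
    intro x hx
    induction hx using Subgroup.closure_induction with
    | mem x hx => rcases hx with rfl | rfl | rfl <;> assumption
    | one => simp
    | mul x y hx hy h1 h2 =>
      have hxy : Commute x y := congrArg Subtype.val (IsMulCommutative.is_comm.comm (⟨x, hx⟩ : S0) ⟨y, hy⟩)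
      calc x * y * (x * y) = x * (y * x) * y := by group
        _ = x * (x * y) * y := by rw [hxy.eq]
        _ = (x * x) * (y * y) := by group
        _ = 1 := by rw [h1, h2, one_mul]
    | inv x _ h => rw [← _root_.mul_inv_rev, h, inv_one]
  have hS0p : IsPGroup 2 S0 := fun x => ⟨1, Subtype.ext (by
    show (x : G) ^ 2 ^ 1 = 1
    rw [pow_one, sq, hS0sq x x.2])⟩
  obtain ⟨S, hS0S⟩ := hS0p.exists_le_sylow
  have hw_ne : w ≠ 1 := fun h => D.w_ne (hφi (by rw [map_one]; exact h))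
  have hj_ne : j ≠ 1 := fun h => D.i_ne (hφi (by rw [map_one]; exact h))
  have hwj_ne : w ≠ j := fun h => by
    have h0 : D.w = D.i := hφi h
    obtain ⟨s, hs, hs1⟩ : ∃ s ∈ D.T, s ≠ 1 := by
      by_contra hcon
      push Not at hcon
      have : D.T = ⊥ := (Subgroup.eq_bot_iff_forall _).2 hcon
      have hc := D.T_card
      rw [this, Subgroup.card_bot] at hc
      omega
    have h1 := D.wT s hs
    rw [h0, D.iT s hs, mul_inv_cancel_right] at h1
    have h2 : s * s = 1 := by nth_rewrite 2 [h1]; rw [mul_inv_cancel]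
    have h3 := Subgroup.orderOf_dvd_natCard D.T hs
    rw [D.T_card] at h3
    exact hs1 (orderOf_eq_one_iff.1 (Nat.eq_one_of_dvd_coprimes (Nat.coprime_two_left.2 hoodd)
      (orderOf_dvd_of_pow_eq_one (by rw [sq]; exact h2)) h3))
  have hS0card : 8 ≤ Nat.card S0 := by
    let f : Fin 2 × Fin 2 × Fin 2 → S0 := fun p => ⟨t ^ (p.1 : ℕ) * (j ^ (p.2.1 : ℕ) * w ^ (p.2.2 : ℕ)),
      mul_mem (Subgroup.pow_mem _ (show t ∈ S0 from Subgroup.subset_closure (Or.inl rfl)) _)
        (mul_mem (Subgroup.pow_mem _ (show j ∈ S0 from Subgroup.subset_closure (Or.inr (Or.inl rfl))) _)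
          (Subgroup.pow_mem _ (show w ∈ S0 from Subgroup.subset_closure (Or.inr (Or.inr rfl))) _))⟩
    have hjw : ∀ a b a' b' : Fin 2, j ^ (a : ℕ) * w ^ (b : ℕ) = j ^ (a' : ℕ) * w ^ (b' : ℕ) → a = a' ∧ b = b' := by
      intro a b a' b' h
      have hjw1 : j * w ≠ 1 := fun e => hwj_ne (by
        calc w = (j * j) * w := by rw [hjj, one_mul]
          _ = j := by rw [mul_assoc, e, mul_one])
      have hw2 : ∀ k : Fin 2, w ^ (k : ℕ) * w ^ (k : ℕ) = 1 := by
        intro k; fin_cases k <;> simp [hww]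
      have hj2 : ∀ k : Fin 2, j ^ (k : ℕ) * j ^ (k : ℕ) = 1 := by
        intro k; fin_cases k <;> simp [hjj]
      have h2 : j ^ ((a' : ℕ) + a) * w ^ ((b : ℕ) + b') = 1 := by
        rw [pow_add, pow_add]
        calc j ^ (a' : ℕ) * j ^ (a : ℕ) * (w ^ (b : ℕ) * w ^ (b' : ℕ))
            = j ^ (a' : ℕ) * (j ^ (a : ℕ) * w ^ (b : ℕ)) * w ^ (b' : ℕ) := by group
          _ = (j ^ (a' : ℕ) * j ^ (a' : ℕ)) * (w ^ (b' : ℕ) * w ^ (b' : ℕ)) := by rw [h]; group
          _ = 1 := by rw [hj2, hw2, one_mul]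
      have hj22 : j ^ 2 = 1 := by rw [sq, hjj]
      have hw22 : w ^ 2 = 1 := by rw [sq, hww]
      fin_cases a <;> fin_cases b <;> fin_cases a' <;> fin_cases b' <;>
        simp [hj22, hw22, hj_ne, hw_ne, hjw1] at h2 ⊢
    have hf : Function.Injective f := by
      rintro ⟨a, b, c⟩ ⟨a', b', c'⟩ h
      have h' : t ^ (a : ℕ) * (j ^ (b : ℕ) * w ^ (c : ℕ)) = t ^ (a' : ℕ) * (j ^ (b' : ℕ) * w ^ (c' : ℕ)) :=
        congrArg Subtype.val h
      have hm : ∀ b c : Fin 2, j ^ (b : ℕ) * w ^ (c : ℕ) ∈ E := fun b c =>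
        mul_mem (Subgroup.pow_mem _ (hφmem _) _) (Subgroup.pow_mem _ (hφmem _) _)
      fin_cases a <;> fin_cases a' <;>
        simp only [Fin.val_zero, Fin.val_one, pow_zero, pow_one, one_mul, Fin.zero_eta, Fin.mk_one] at h' ⊢
      · obtain ⟨rfl, rfl⟩ := hjw _ _ _ _ h'; rfl
      · exact absurd (by
          have := mul_mem (hm b c) (inv_mem (hm b' c'))
          rwa [h', mul_inv_cancel_right] at this) htE
      · exact absurd (by
          have := mul_mem (hm b' c') (inv_mem (hm b c))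
          rwa [← h', mul_inv_cancel_right] at this) htE
      · obtain ⟨rfl, rfl⟩ := hjw _ _ _ _ (mul_left_cancel h'); rfl
    calc 8 = Nat.card (Fin 2 × Fin 2 × Fin 2) := by simp
      _ ≤ _ := Nat.card_le_card_of_injective f hf
  have h16 : ¬ 2 ^ 4 ∣ Nat.card G := by
    intro h
    rw [← (Subgroup.centralizer ({t} : Set G)).card_mul_index] at h
    have h' := (Nat.Coprime.pow_left 4 (Nat.coprime_two_left.2 hodd)).dvd_of_dvd_mul_right h
    rw [hCcard, hEcard, D.card_eq, Nat.pow_two, ← Nat.mul_div_cancel_left (q * (q * q - 1)) (by norm_num : 0 < 8)] at h'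
    have e1 : q * q - 1 = (q - 1) * (q + 1) := by
      rw [mul_comm (q - 1), ← Nat.sq_sub_sq, one_pow, sq]
    rw [Nat.mul_div_cancel_left _ (by norm_num : 0 < 8), e1] at h'
    obtain ⟨r, hr⟩ : ∃ r, q = 8 * r + 3 := ⟨q / 8, by omega⟩
    rw [hr] at h'
    have e2 : (8 * r + 3 - 1) = 8 * r + 2 := by omega
    rw [e2] at h'
    have e3 : (8 * r + 3) * ((8 * r + 2) * (8 * r + 3 + 1)) = 8 * ((8 * r + 3) * ((4 * r + 1) * (2 * r + 1))) := by ring
    rw [e3, show 2 ^ 4 = 8 * 2 by norm_num, Nat.mul_dvd_mul_iff_left (by norm_num : 0 < 8)] at h'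
    have : ((8 * r + 3) * ((4 * r + 1) * (2 * r + 1))) % 2 = 1 := by
      simp [Nat.mul_mod, Nat.add_mod]
    omega
  have hScard : Nat.card (S : Subgroup G) ≤ 8 := by
    obtain ⟨k, hk⟩ := S.2.exists_card_eq
    rw [hk]
    by_contra hc
    have hk4 : 4 ≤ k := by
      by_contra hk4
      have := Nat.pow_le_pow_right (show 1 ≤ 2 by norm_num) (show k ≤ 3 by omega)
      omega
    exact h16 ((pow_dvd_pow 2 hk4).trans (hk ▸ Subgroup.card_subgroup_dvd_card _))
  have hSeq : S0 = (S : Subgroup G) := Subgroup.eq_of_le_of_card_ge hS0S (hScard.trans hS0card)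
  have htwo : ∀ P : Subgroup G, IsPGroup 2 P → ∀ a ∈ P, a * a = 1 := by
    intro P hP a ha
    obtain ⟨R, hR⟩ := hP.exists_le_sylow
    obtain ⟨g, hg⟩ := MulAction.exists_smul_eq G S R
    have h1 : a ∈ ((g • S : Sylow 2 G) : Subgroup G) := hg ▸ hR ha
    rw [Sylow.coe_subgroup_smul, Subgroup.pointwise_smul_def] at h1
    obtain ⟨x, hx, rfl⟩ := h1
    show MulAut.conj g x * MulAut.conj g x = 1
    rw [← map_mul, hS0sq x (hSeq ▸ hx), map_one]
  have hcomm2 : ∀ P : Subgroup G, IsPGroup 2 P → ∀ a ∈ P, ∀ b ∈ P, a * b = b * a := by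
    intro P hP a ha b hb
    have := congrArg (fun z => a * z * b) (htwo P hP _ (mul_mem ha hb))
    simpa [mul_assoc, htwo P hP a ha, htwo P hP b hb, ← mul_assoc a a] using this.symm
  -- one class of involutions
  have hab : ∀ R : Sylow 2 G, IsMulCommutative ↥(R : Subgroup G) := fun R =>
    ⟨⟨fun a b => Subtype.ext (hcomm2 _ R.2 a a.2 b b.2)⟩⟩
  obtain ⟨DD⟩ : Nonempty (H77.JankoRee.Data t F) := by
    refine H77.JankoRee.nonempty_data hab t ht E hE (by rw [hF]; exact Odd.pow (by decide)) (⊤ : Subgroup E)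
      ⟨Subgroup.topEquiv.trans e⟩ ?_
    rw [Subgroup.coe_top, Subgroup.centralizer_univ]
    rw [Subgroup.eq_bot_iff_forall]
    intro z hz
    have hc : e z ∈ Subgroup.center PSL(2, F) := Subgroup.mem_center_iff.2 fun a => by
      obtain ⟨b, rfl⟩ := e.surjective a
      rw [← map_mul, ← map_mul, Subgroup.mem_center_iff.1 hz b]
    by_contra hz1
    -- an element of the centre commutes with `i` and `T`
    set c := e z
    have hc1 : c ≠ 1 := fun h => hz1 (e.injective (h.trans (map_one e).symm))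
    obtain ⟨s, hs, hs1⟩ : ∃ s ∈ D.U, s ≠ 1 := by
      by_contra hcon
      push Not at hcon
      have hcu := D.U_card
      rw [(Subgroup.eq_bot_iff_forall _).2 hcon, Subgroup.card_bot] at hcu
      omega
    have hcU := D.cent_U s hs hs1 c (Subgroup.mem_center_iff.1 hc s).symm
    have h2 := Subgroup.mem_center_iff.1 hc D.i
    have := D.cent_U c hcU hc1 D.i h2
    exact D.i_ne (by
      have h3 := D.U_pow _ this
      rwa [pow_succ, sq, D.i_sq, one_mul] at h3)
  obtain ⟨y7, hy7, hy77, hy7f⟩ := DD.exists_seven hna ht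
  have hconj : ∀ x : G, orderOf x = 2 → IsConj t x := by
    intro x hx
    have hxp : IsPGroup 2 (Subgroup.zpowers x) := IsPGroup.of_card (n := 1) (by rw [Nat.card_zpowers, hx, pow_one])
    obtain ⟨R, hR⟩ := hxp.exists_le_sylow
    obtain ⟨g, hg⟩ := MulAction.exists_smul_eq G R DD.S
    have hxS : g * x * g⁻¹ ∈ (DD.S : Subgroup G) := by
      rw [← hg, Sylow.coe_subgroup_smul, Subgroup.pointwise_smul_def]
      exact ⟨x, hR (Subgroup.mem_zpowers x), rfl⟩
    refine IsConj.trans ?_ (isConj_iff.2 ⟨g, rfl⟩ : IsConj x (g * x * g⁻¹)).symm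
    have hx1 : g * x * g⁻¹ ≠ 1 := fun h => by
      rw [conj_eq_one_iff] at h; simp [h] at hx
    have himg : ∀ i : ℕ, y7 ^ i * t * (y7 ^ i)⁻¹ ∈ ((DD.S : Subgroup G) : Set G) \ {1} := fun i =>
      ⟨(Subgroup.mem_normalizer_iff.1 (Subgroup.pow_mem _ hy7 i) t).1 DD.t_mem, by simpa using ht1⟩
    have hcard : ((((DD.S : Subgroup G) : Set G) \ {1}) : Set G).ncard = 7 := by
      rw [Set.ncard_diff_singleton_of_mem (one_mem _), ← Nat.card_coe_set_eq]
      exact congrArg (· - 1) DD.S_card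
    have hinj : Function.Injective fun i : Fin 7 => y7 ^ (i : ℕ) * t * (y7 ^ (i : ℕ))⁻¹ := by
      intro a b hab'
      by_contra hne
      -- a proper power of `y7` fixes `t`, so `y7` does
      have key : ∀ i : ℕ, y7 ^ i * t * (y7 ^ i)⁻¹ = t → Nat.Coprime i 7 → False := by
        intro i hi hcop
        apply ht1
        refine hy7f t DD.t_mem ?_
        let St : Subgroup G := Subgroup.centralizer ({t} : Set G)
        have h1 : y7 ^ i ∈ St := Subgroup.mem_centralizer_singleton_iff.2 (mul_inv_eq_iff_eq_mul.1 hi)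
        have h2 : y7 ^ 7 ∈ St := Subgroup.mem_centralizer_singleton_iff.2 (mul_inv_eq_iff_eq_mul.1 (hy77 t DD.t_mem))
        have h3 : y7 ∈ St := by
          have hb := Nat.gcd_eq_gcd_ab i 7
          rw [hcop] at hb
          have : y7 = (y7 ^ i) ^ (Nat.gcdA i 7) * (y7 ^ 7) ^ (Nat.gcdB i 7) := by
            rw [← zpow_natCast y7 i, ← zpow_natCast y7 7, ← _root_.zpow_mul, ← _root_.zpow_mul, ← _root_.zpow_add]
            exact_mod_cast (by rw [← hb]; simp : y7 = y7 ^ ((i : ℤ) * Nat.gcdA i 7 + (7 : ℕ) * Nat.gcdB i 7))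
          rw [this]
          exact mul_mem (St.zpow_mem h1 _) (St.zpow_mem h2 _)
        exact mul_inv_eq_iff_eq_mul.2 (Subgroup.mem_centralizer_singleton_iff.1 h3)
      suffices ∀ a b : Fin 7, y7 ^ (a : ℕ) * t * (y7 ^ (a : ℕ))⁻¹ = y7 ^ (b : ℕ) * t * (y7 ^ (b : ℕ))⁻¹ →
          (a : ℕ) < b → False by
        rcases lt_or_gt_of_ne (fun h => hne (Fin.ext h)) with h | h
        exacts [this a b hab' h, this b a hab'.symm h]
      intro a b hab' hlt
      refine key (b - a) ?_ ?_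
      · have hba : y7 ^ (b : ℕ) = y7 ^ (a : ℕ) * y7 ^ ((b : ℕ) - a) := by rw [← pow_add]; congr 1; omega
        simp only [hba, _root_.mul_inv_rev, mul_assoc] at hab'
        have := mul_left_cancel hab'
        simp only [← mul_assoc] at this
        exact (mul_right_cancel this).symm
      · exact (Nat.prime_seven.coprime_iff_not_dvd.2 fun h => by
          have := Nat.le_of_dvd (by omega) h
          omega).symm
    have hr : Set.range (fun i : Fin 7 => y7 ^ (i : ℕ) * t * (y7 ^ (i : ℕ))⁻¹) = (((DD.S : Subgroup G) : Set G) \ {1}) := by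
      refine Set.eq_of_subset_of_ncard_le ?_ ?_ (Set.toFinite _)
      · rintro _ ⟨i, rfl⟩; exact himg i
      · rw [hcard, ← Nat.card_coe_set_eq, Nat.card_range_of_injective hinj, Nat.card_fin]
    obtain ⟨i, hi⟩ : g * x * g⁻¹ ∈ Set.range fun i : Fin 7 => y7 ^ (i : ℕ) * t * (y7 ^ (i : ℕ))⁻¹ := by
      rw [hr]; exact ⟨hxS, hx1⟩
    exact isConj_iff.2 ⟨_, hi⟩
  -- the element `y`
  have htj : t * j = j * t := (hKt _ (hφmem _)).symm
  obtain ⟨g, hg⟩ := isConj_iff.1 (hconj j (by rw [hjdef, hφord]; exact orderOf_eq_prime (by rw [sq]; exact D.i_sq) D.i_ne))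
  -- `g` maps `t` to `j`; its inverse maps `t` to a commuting involution
  have hpre : ∀ x : G, x * x = 1 → x ≠ 1 → x ≠ j → x * j = j * x →
      (g⁻¹ * x * g) * t = t * (g⁻¹ * x * g) ∧ g⁻¹ * x * g ≠ t := by
    intro x _ _ hxj hc
    have e' : g⁻¹ * j * g = t := by rw [← hg]; group
    refine ⟨?_, fun h => hxj ?_⟩
    · rw [← e']
      calc g⁻¹ * x * g * (g⁻¹ * j * g) = g⁻¹ * (x * j) * g := by group
        _ = g⁻¹ * (j * x) * g := by rw [hc]
        _ = g⁻¹ * j * g * (g⁻¹ * x * g) := by group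
    · calc x = g * (g⁻¹ * x * g) * g⁻¹ := by group
        _ = j := by rw [h, hg]
  have hE_inv : ∀ x ∈ E, x * x = 1 → x ≠ 1 → ∃ c ∈ E, c * j * c⁻¹ = x := by
    intro x hx h2 h1
    obtain ⟨z, rfl⟩ := hφsurj x hx
    obtain ⟨c, hc⟩ := isConj_iff.1 (H6.isConj_involutions (F := F) (H6.two_ne_of_odd hF (Nat.odd_iff.2 (by omega)))
      (orderOf_eq_prime (by rw [sq]; exact D.i_sq) D.i_ne)
      (orderOf_eq_prime (x := z) (p := 2) (by rw [sq]; exact hφi (by rw [map_mul, map_one]; exact h2))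
        (fun h => h1 (by rw [h, map_one]))))
    exact ⟨φ c, hφmem c, by rw [hjdef, ← map_inv, ← map_mul, ← map_mul, hc]⟩
  have htj1 : t * j ≠ 1 := fun h => htE (by
    have : t = j⁻¹ := eq_inv_of_mul_eq_one_left h
    rw [this]; exact inv_mem (hφmem _))
  have htjj : t * j ≠ j := fun h => ht1 (mul_eq_right.1 h)
  have htjsq : t * j * (t * j) = 1 := by
    rw [show t * j * (t * j) = t * (j * t) * j by group, ← htj, ← mul_assoc, htt, one_mul, hjj]
  -- choose the partner of type `K`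
  have hy : ∃ y : G, y * t * y⁻¹ = j ∧ y * j * y⁻¹ = t * j := by
    obtain ⟨hc1, hne1⟩ := hpre t htt ht1 (fun h => htE (h ▸ hφmem _)) htj
    obtain ⟨hc2, hne2⟩ := hpre (t * j) htjsq htj1 htjj (by rw [← mul_assoc, ← htj])
    have hprod : t * (g⁻¹ * t * g) = g⁻¹ * (t * j) * g := by
      have e' : g⁻¹ * j * g = t := by rw [← hg]; group
      calc t * (g⁻¹ * t * g) = g⁻¹ * j * g * (g⁻¹ * t * g) := by rw [e']
        _ = g⁻¹ * (j * t) * g := by group
        _ = _ := by rw [htj]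
    have hkey : ∀ x, x * x = 1 → x ≠ 1 → g⁻¹ * x * g ∈ E → ∃ y : G, y * t * y⁻¹ = j ∧ y * j * y⁻¹ = x := by
      intro x h2 h1 hm
      obtain ⟨c, hc, hcj⟩ := hE_inv _ hm
        (by rw [show g⁻¹ * x * g * (g⁻¹ * x * g) = g⁻¹ * (x * x) * g by group, h2]; group)
        (fun h => h1 (by
          calc x = g * (g⁻¹ * x * g) * g⁻¹ := by group
            _ = 1 := by rw [h]; group))
      refine ⟨g * c, ?_, ?_⟩
      · rw [show g * c * t * (g * c)⁻¹ = g * (c * t * c⁻¹) * g⁻¹ by group, hKt c hc, mul_inv_cancel_right, hg]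
      · rw [show g * c * j * (g * c)⁻¹ = g * (c * j * c⁻¹) * g⁻¹ by group, hcj]; group
    rcases hdec _ hc1 with h | h
    · -- then a swap
      obtain ⟨y, hy1, hy2⟩ := hkey t htt ht1 h
      exact (false_of_swap hcomm2 htt hjj htj (fun e' => htE (e' ▸ hφmem _)) hy1 hy2).elim
    · exact hkey (t * j) htjsq htj1 (hprod ▸ h)
  obtain ⟨y, hyt, hyj⟩ := hy
  refine ⟨q, o, ⟨{
    t := t, j := j, w := w, y := y, K := E
    T := D.T.map φ, U := D.U.map φ, B := D.B.map φ
    hq := ⟨2 * n + 1, by omega, rfl⟩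
    ho := ho, o_odd := hoodd, o_three := ho3, o_seven := ho7
    t_sq := htt, t_ne := ht1, t_notMem := htE, K_comm := hKt, dec := hdec
    K_card := by rw [hEcard]; exact D.card_eq
    K_inv := ?_
    j_mem := hφmem _, w_mem := hφmem _
    T_le := by rintro _ ⟨z, -, rfl⟩; exact hφmem z
    U_le := by rintro _ ⟨z, -, rfl⟩; exact hφmem z
    B_le := by rintro _ ⟨z, -, rfl⟩; exact hφmem z
    j_sq := hjj, j_ne := hj_ne, w_sq := hww, w_ne := hw_ne, wj := hwj
    T_card := by rw [Subgroup.card_map_of_injective hφi]; exact D.T_card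
    T_cyc := ?_
    jT := ?_, wT := ?_, cent_j := ?_, cent_T := ?_, norm_T := ?_
    U_card := by rw [Subgroup.card_map_of_injective hφi]; exact D.U_card
    U_comm := ?_, U_pow := ?_, cent_U := ?_
    B_card := by rw [Subgroup.card_map_of_injective hφi]; exact D.B_card
    B_mem := ?_, B_norm := ?_, conj_U := ?_
    conj_t := hconj, y_t := hyt, y_j := hyj, two_comm := hcomm2, two_sq := htwo }⟩⟩
  · rw [hEcard, ← D.card_inv]
    congr 1
    refine (Nat.card_eq_of_bijective (fun z : {z : PSL(2, F) // orderOf z = 2} =>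
      (⟨φ z, hφmem z, by rw [hφord]; exact z.2⟩ : {x : G // x ∈ E ∧ orderOf x = 2})) ⟨?_, ?_⟩).symm
    · intro a b h
      exact Subtype.ext (hφi (congrArg (fun x => x.1) h))
    · rintro ⟨x, hx, ho'⟩
      obtain ⟨z, rfl⟩ := hφsurj x hx
      exact ⟨⟨z, by rw [← hφord]; exact ho'⟩, rfl⟩
  · haveI := D.T_cyc
    exact isCyclic_of_surjective _ (φ.subgroupMap_surjective D.T)
  · rintro _ ⟨s, hs, rfl⟩
    rw [hjdef, ← map_mul, ← map_mul, D.iT s hs]
  · rintro _ ⟨s, hs, rfl⟩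
    rw [hwdef, ← map_inv, ← map_inv, ← map_mul, ← map_mul, D.wT s hs]
  · intro z hz hc
    obtain ⟨z, rfl⟩ := hφsurj z hz
    rw [hjdef, ← map_mul, ← map_mul] at hc
    obtain ⟨s, hs, h⟩ := D.cent_i z (hφi hc)
    refine ⟨φ s, Subgroup.mem_map_of_mem _ hs, ?_⟩
    rcases h with rfl | rfl | rfl | rfl <;> simp [hjdef, hwdef]
  · rintro _ ⟨s, hs, rfl⟩ hs1 z hz hc
    obtain ⟨z, rfl⟩ := hφsurj z hz
    rw [← map_mul, ← map_mul] at hc
    obtain ⟨r, hr, h⟩ := D.cent_T s hs (fun h => hs1 (by rw [h, map_one])) z (hφi hc)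
    refine ⟨φ r, Subgroup.mem_map_of_mem _ hr, ?_⟩
    rcases h with rfl | rfl <;> simp [hjdef]
  · rintro _ ⟨s, hs, rfl⟩ hs1 z hz hc
    obtain ⟨z, rfl⟩ := hφsurj z hz
    rw [← map_inv, ← map_mul, ← map_mul] at hc
    obtain ⟨r, hr, hrs⟩ := hc
    rw [hjdef, ← map_mul, ← map_mul, D.norm_T s hs (fun h => hs1 (by rw [h, map_one])) z (hφi hrs ▸ hr)]
  · rintro _ ⟨a, ha, rfl⟩ _ ⟨b, hb, rfl⟩
    rw [← map_mul, ← map_mul, D.U_comm a ha b hb]
  · rintro _ ⟨a, ha, rfl⟩
    rw [← map_pow, D.U_pow a ha, map_one]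
  · rintro _ ⟨u, hu, rfl⟩ hu1 z hz hc
    obtain ⟨z, rfl⟩ := hφsurj z hz
    rw [← map_mul, ← map_mul] at hc
    exact Subgroup.mem_map_of_mem _ (D.cent_U u hu (fun h => hu1 (by rw [h, map_one])) z (hφi hc))
  · rintro _ ⟨u, hu, rfl⟩ hu1 z hz hc
    obtain ⟨z, rfl⟩ := hφsurj z hz
    rw [← map_inv, ← map_mul, ← map_mul] at hc
    obtain ⟨r, hr, hrs⟩ := hc
    exact Subgroup.mem_map_of_mem _ (D.B_mem u hu (fun h => hu1 (by rw [h, map_one])) z (hφi hrs ▸ hr))
  · rintro _ ⟨z, hz, rfl⟩ _ ⟨u, hu, rfl⟩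
    exact ⟨_, D.B_norm z hz u hu, by simp only [map_mul, map_inv]⟩
  · intro x hx ho'
    obtain ⟨z, rfl⟩ := hφsurj x hx
    obtain ⟨c, hc⟩ := D.conj_U z (by rw [← hφord]; exact ho')
    exact ⟨φ c, hφmem c, _, hc, by simp only [map_mul, map_inv]⟩

end Cfsg.Agent.H82.Ree
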