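import Cfsg.Agent.H82.Ree.Conjugators

/-!
# Groups of Ree type: sums over the normaliser of `U`
-/

set_option autoImplicit false

namespace Cfsg.Agent.H82.Ree

open scoped ComplexConjugate BigOperators

namespace Ctx

variable {G : Type*} [Group G] {q o : ℕ} (c : Ctx G q o)
include c

theorem U_le_B : c.U ≤ c.B := by
  intro z hz
  rcases eq_or_ne z 1 with rfl | hz1
  · exact one_mem _
  · exact c.B_mem z hz hz1 z (c.U_le hz) (by rw [mul_inv_cancel_right]; exact hz)

theorem U_sq_eq_one {u : G} (hu : u ∈ c.U) (h : u * u = 1) : u = 1 := by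
  calc u = u * (u * u) := by rw [h, mul_one]
    _ = u ^ 3 := by rw [pow_succ, sq, mul_assoc]
    _ = 1 := c.U_pow u hu

variable [Finite G]

/-- No element of `B` inverts a nontrivial element of `U`. -/
theorem no_invert {z u : G} (hz : z ∈ c.B) (hu : u ∈ c.U) (hu1 : u ≠ 1) (h : z * u * z⁻¹ = u⁻¹) : False := by
  haveI hUn : (c.U.subgroupOf c.B).Normal :=
    ⟨fun a ha b => Subgroup.mem_subgroupOf.2 (c.B_norm b b.2 a (Subgroup.mem_subgroupOf.1 ha))⟩
  have hidx : (c.U.subgroupOf c.B).index = (q - 1) / 2 := by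
    have h1 := (c.U.subgroupOf c.B).card_mul_index
    rw [Nat.card_congr (Subgroup.subgroupOfEquivOfLe c.U_le_B).toEquiv, c.U_card] at h1
    have h2 := c.B_card
    rw [← h1, mul_left_comm] at h2
    have := c.q_odd
    have := Nat.eq_of_mul_eq_mul_left (by omega) h2
    omega
  have hpow : z ^ ((q - 1) / 2) ∈ c.U := by
    have h' := pow_card_eq_one' (x := ((⟨z, hz⟩ : c.B) : c.B ⧸ c.U.subgroupOf c.B))
    rw [← Subgroup.index_eq_card, hidx, ← QuotientGroup.mk_pow, QuotientGroup.eq_one_iff,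
      Subgroup.mem_subgroupOf] at h'
    exact h'
  have hzz : z * z * u = u * (z * z) := by
    rw [← mul_inv_eq_iff_eq_mul, show z * z * u * (z * z)⁻¹ = z * (z * u * z⁻¹) * z⁻¹ by group, h,
      show z * u⁻¹ * z⁻¹ = (z * u * z⁻¹)⁻¹ by group, h, inv_inv]
  have hzU : z * z ∈ c.U := c.cent_U u hu hu1 _ (mul_mem (c.B_le hz) (c.B_le hz)) hzz
  obtain ⟨k, hk⟩ : Odd ((q - 1) / 2) := by
    have := c.ho
    have := c.o_seven
    exact ⟨o - 1, by omega⟩
  have hzmem : z ∈ c.U := by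
    rw [hk, pow_succ, pow_mul, sq] at hpow
    exact (c.U.mul_mem_cancel_left (Subgroup.pow_mem _ hzU k)).1 hpow
  rw [c.U_comm z hzmem u hu, mul_inv_cancel_right, eq_inv_iff_mul_eq_one] at h
  exact hu1 (c.U_sq_eq_one hu h)

variable [Fintype G]

set_option maxHeartbeats 800000 in
/-- The sum over `B` of a symmetrised linear character of `U` at a nontrivial element. -/
theorem sum_B [Fintype c.B] {f : G → ℂ} (hf : IsLin c.U f) (hne : ∃ a ∈ c.U, f a ≠ 1) {u : G}
    (hu : u ∈ c.U) (hu1 : u ≠ 1) :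
    ∑ b : c.B, (f ((b : G)⁻¹ * u * b) + f ((b : G)⁻¹ * u * b)⁻¹) = -(q : ℂ) := by
  classical
  let Φ : c.B × Bool → G := fun p =>
    if p.2 then (p.1 : G)⁻¹ * u * p.1 else ((p.1 : G)⁻¹ * u * p.1)⁻¹
  have hΦU : ∀ p, Φ p ∈ c.U ∧ Φ p ≠ 1 := by
    intro p
    have h1 : (p.1 : G)⁻¹ * u * p.1 ∈ c.U := by
      have := c.B_norm _ (inv_mem p.1.2) u hu
      rwa [inv_inv] at this
    have h2 : (p.1 : G)⁻¹ * u * p.1 ≠ 1 := fun h => hu1 (by
      calc u = (p.1 : G) * ((p.1 : G)⁻¹ * u * p.1) * (p.1 : G)⁻¹ := by group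
        _ = 1 := by rw [h]; group)
    simp only [Φ]
    split_ifs
    exacts [⟨h1, h2⟩, ⟨inv_mem h1, fun h => h2 (inv_eq_one.1 h)⟩]
  set S := Finset.univ.filter (fun z => z ∈ c.U ∧ z ≠ 1) with hS
  have hmap : ∀ p ∈ (Finset.univ : Finset (c.B × Bool)), Φ p ∈ S := fun p _ =>
    Finset.mem_filter.2 ⟨Finset.mem_univ _, hΦU p⟩
  have hle : ∀ z ∈ S, (Finset.univ.filter fun p => Φ p = z).card ≤ q := by
    intro z _
    rcases (Finset.univ.filter fun p => Φ p = z).eq_empty_or_nonempty with h | ⟨⟨b0, e0⟩, hp0⟩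
    · rw [h]; simp
    rw [Finset.mem_filter] at hp0
    have key : ∀ p ∈ (Finset.univ.filter fun p => Φ p = z), p.2 = e0 ∧ (p.1 : G) * (b0 : G)⁻¹ ∈ c.U := by
      intro p hp
      obtain ⟨b, e⟩ := p
      rw [Finset.mem_filter] at hp
      have h : Φ (b, e) = Φ (b0, e0) := hp.2.trans hp0.2.symm
      have he : e = e0 := by
        by_contra hee
        have h' : (b : G)⁻¹ * u * b = ((b0 : G)⁻¹ * u * b0)⁻¹ := by
          cases e <;> cases e0 <;> simp only [Φ, Bool.false_eq_true, if_false, if_true] at h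
          · exact absurd rfl hee
          · rw [← h, inv_inv]
          · exact h
          · exact absurd rfl hee
        refine c.no_invert (z := (b0 : G) * (b : G)⁻¹) (mul_mem b0.2 (inv_mem b.2)) hu hu1 ?_
        calc (b0 : G) * (b : G)⁻¹ * u * ((b0 : G) * (b : G)⁻¹)⁻¹
            = (b0 : G) * ((b : G)⁻¹ * u * b) * (b0 : G)⁻¹ := by group
          _ = u⁻¹ := by rw [h']; group
      subst he
      have h' : (b : G)⁻¹ * u * b = (b0 : G)⁻¹ * u * b0 := by
        cases e <;> simp only [Φ, Bool.false_eq_true, if_false, if_true] at h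
        · exact inv_injective h
        · exact h
      refine ⟨rfl, c.cent_U u hu hu1 _ (mul_mem (c.B_le b.2) (inv_mem (c.B_le b0.2))) ?_⟩
      calc (b : G) * (b0 : G)⁻¹ * u = (b : G) * ((b0 : G)⁻¹ * u * b0) * (b0 : G)⁻¹ := by group
        _ = (b : G) * ((b : G)⁻¹ * u * b) * (b0 : G)⁻¹ := by rw [h']
        _ = u * ((b : G) * (b0 : G)⁻¹) := by group
    have hc : (Finset.univ.filter fun p => Φ p = z).card ≤ (Finset.univ : Finset c.U).card :=
      Finset.card_le_card_of_injOn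
        (fun p => if h : (p.1 : G) * (b0 : G)⁻¹ ∈ c.U then ⟨_, h⟩ else 1) (fun p _ => Finset.mem_univ _)
        (fun p hp p' hp' h => by
          obtain ⟨h1, h2⟩ := key p hp
          obtain ⟨h1', h2'⟩ := key p' hp'
          simp only [dif_pos h2, dif_pos h2'] at h
          exact Prod.ext (Subtype.ext (mul_right_cancel (congrArg Subtype.val h))) (h1.trans h1'.symm))
    rwa [Finset.card_univ, ← Nat.card_eq_fintype_card, c.U_card] at hc
  have hScard : S.card + 1 = q := by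
    have e : S = (Finset.univ.filter fun z => z ∈ c.U).erase 1 := by
      ext z; simp [hS, and_comm]
    rw [e, Finset.card_erase_add_one (by simp)]
    refine Eq.trans ?_ c.U_card
    rw [Nat.card_eq_fintype_card]
    exact (Fintype.card_of_subtype _ (fun x => by simp)).symm
  have htot : ∑ z ∈ S, (Finset.univ.filter fun p => Φ p = z).card = ∑ _z ∈ S, q := by
    rw [← Finset.card_eq_sum_card_fiberwise hmap, Finset.card_univ, Fintype.card_prod, Fintype.card_bool,
      Finset.sum_const, smul_eq_mul, ← Nat.card_eq_fintype_card, mul_comm, c.B_card,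
      show q - 1 = S.card by omega, mul_comm]
  have hfib := (Finset.sum_eq_sum_iff_of_le hle).1 htot
  have hsumS : ∑ z ∈ S, f z = -1 := by
    have h0 : ∑ s : c.U, f s = 0 := by
      simpa using hf.sum_eq_zero id (fun a ha => ha) (fun a _ b _ => rfl) hne
    have h1 : ∑ z ∈ Finset.univ.filter (fun z => z ∈ c.U), f z = 0 := by
      rw [Finset.sum_subtype (p := (· ∈ c.U)) _ (by simp)]; exact h0
    rw [← Finset.add_sum_erase _ _ (show (1 : G) ∈ Finset.univ.filter (fun z => z ∈ c.U) by simp),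
      hf.map_one] at h1
    have e : S = (Finset.univ.filter fun z => z ∈ c.U).erase 1 := by
      ext z; simp [hS, and_comm]
    rw [e]
    linear_combination h1
  calc ∑ b : c.B, (f ((b : G)⁻¹ * u * b) + f ((b : G)⁻¹ * u * b)⁻¹)
      = ∑ p : c.B × Bool, f (Φ p) := by
        rw [Fintype.sum_prod_type]
        simp [Φ]
    _ = ∑ z ∈ S, ∑ p ∈ Finset.univ.filter (fun p => Φ p = z), f (Φ p) :=
        (Finset.sum_fiberwise_of_maps_to hmap _).symm
    _ = ∑ z ∈ S, (q : ℂ) * f z := by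
        refine Finset.sum_congr rfl fun z hz => ?_
        rw [Finset.sum_congr rfl (fun p hp => show f (Φ p) = f z by rw [(Finset.mem_filter.1 hp).2]),
          Finset.sum_const, hfib z hz, nsmul_eq_mul]
    _ = -(q : ℂ) := by rw [← Finset.mul_sum, hsumS, mul_neg, mul_one]

/-- The conjugation sum at `t u`. -/
theorem sum_at_tu {f : G → ℂ} (hf : IsLin c.U f) (hne : ∃ a ∈ c.U, f a ≠ 1) {u : G}
    (hu : u ∈ c.U) (hu1 : u ≠ 1) :
    ∑ x : G, cf c.t c.U (f + fun g => f g⁻¹) (x⁻¹ * (c.t * u) * x) = -(2 * q : ℂ) := by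
  classical
  set X := Finset.univ.filter (fun x => x ∈ c.B ∨ c.t * x ∈ c.B) with hX
  have htB : c.t ∉ c.B := fun h => c.t_notMem (c.B_le h)
  have hcong : ∀ b ∈ c.B, c.t * (b⁻¹ * (c.t * u) * b) = b⁻¹ * u * b ∧
      c.t * ((c.t * b)⁻¹ * (c.t * u) * (c.t * b)) = b⁻¹ * u * b ∧ b⁻¹ * u * b ∈ c.U := by
    intro b hb
    have h1 : c.t * b = b * c.t := c.tk (c.B_le hb)
    have h2 : c.t * u = u * c.t := c.tk (c.U_le hu)
    have h3 : c.t * b⁻¹ = b⁻¹ * c.t := c.tk (inv_mem (c.B_le hb))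
    have hU : b⁻¹ * u * b ∈ c.U := by
      have := c.B_norm _ (inv_mem hb) u hu
      rwa [inv_inv] at this
    have e1 : c.t * (b⁻¹ * (c.t * u) * b) = b⁻¹ * u * b := by
      calc c.t * (b⁻¹ * (c.t * u) * b) = (c.t * b⁻¹) * c.t * u * b := by group
        _ = b⁻¹ * (c.t * c.t) * u * b := by rw [h3]; group
        _ = b⁻¹ * u * b := by rw [c.t_sq, mul_one]
    refine ⟨e1, ?_, hU⟩
    have e2 : (c.t * b)⁻¹ * (c.t * u) * (c.t * b) = b⁻¹ * (c.t * u) * b := by
      calc (c.t * b)⁻¹ * (c.t * u) * (c.t * b) = b⁻¹ * (c.t⁻¹ * c.t) * (u * c.t) * b := by group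
        _ = b⁻¹ * (c.t * u) * b := by rw [inv_mul_cancel, mul_one, ← h2]
    rw [e2, e1]
  rw [sum_cf_eq c.t (c.t * u) c.U _ X
      (fun x => if x ∈ c.B then (f (x⁻¹ * u * x) + f (x⁻¹ * u * x)⁻¹)
        else (f ((c.t * x)⁻¹ * u * (c.t * x)) + f ((c.t * x)⁻¹ * u * (c.t * x))⁻¹)),
    sum_ext c.t c.B X (fun x => by simp [hX]) c.t_sq htB]
  · have hnB : ∀ b : c.B, c.t * (b : G) ∉ c.B := fun b h => htB ((c.B.mul_mem_cancel_right b.2).1 h)
    simp only [SetLike.coe_mem, if_true, hnB, if_false, Finset.sum_add_distrib]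
    have e : ∀ b : G, c.t * (c.t * b) = b := fun b => by rw [← mul_assoc, c.t_sq, one_mul]
    simp only [e]
    have h := c.sum_B hf hne hu hu1
    rw [Finset.sum_add_distrib] at h
    linear_combination 2 * h
  · intro x hx
    simp only [hX, Finset.mem_filter, Finset.mem_univ, true_and] at hx
    by_cases hB : x ∈ c.B
    · obtain ⟨h1, -, h3⟩ := hcong x hB
      rw [h1, if_pos hB]
      exact ⟨h3, rfl⟩
    · have hB' := hx.resolve_left hB
      obtain ⟨-, h2, h3⟩ := hcong _ hB'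
      rw [show c.t * (c.t * x) = x by rw [← mul_assoc, c.t_sq, one_mul]] at h2
      rw [h2, if_neg hB]
      exact ⟨h3, rfl⟩
  · intro x hx
    obtain ⟨h1, h2, -⟩ := c.split_u hu hx
    simp only [hX, Finset.mem_filter, Finset.mem_univ, true_and]
    have hxt : x * c.t = c.t * x := by
      calc x * c.t = x * (x⁻¹ * c.t * x) := by rw [h1]
        _ = c.t * x := by group
    have key : ∀ k ∈ c.K, k⁻¹ * u * k ∈ c.U → k ∈ c.B := fun k hk h => by
      have := c.B_mem u hu hu1 k⁻¹ (inv_mem hk) (by rwa [inv_inv])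
      exact inv_mem_iff.1 this
    rcases c.dec x hxt with h | h
    · exact Or.inl (key x h h2)
    · refine Or.inr (key _ h ?_)
      have h3 : c.t * (x⁻¹ * u * x) = x⁻¹ * u * x * c.t := c.tk (c.U_le h2)
      rw [show (c.t * x)⁻¹ * u * (c.t * x) = x⁻¹ * (c.t⁻¹ * (u * c.t)) * x by group,
        ← c.tk (c.U_le hu), inv_mul_cancel_left]
      exact h2

end Ctx

end Cfsg.Agent.H82.Ree
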